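import Cfsg.Agent.Mon.W4d
import Cfsg.Agent.Mon.Deg2
import Cfsg.Agent.Mon.YGen

/-! Modules for the Baby Monster in odd characteristic: definitions and first facts. -/

set_option autoImplicit false
set_option maxHeartbeats 400000

namespace CF.Bv

open Cfsg CF.Leech CF.Comp CF.Mon CF.Mon.G CF.Mon.T CF.Mon.L CF.Mon.W4 CF.Known.Mon CF.Classical
open Module Lab MulAction

/-- the sign character -/
def ch (K : Type*) [Field K] (z : ZMod 2) : K := if z = 0 then 1 else -1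

section ch
variable {K : Type*} [Field K]

@[simp] theorem ch_zero : ch K 0 = 1 := if_pos rfl
@[simp] theorem ch_one : ch K 1 = -1 := if_neg (by decide)

theorem ch_add (x y : ZMod 2) : ch K (x + y) = ch K x * ch K y := by
  rcases z2_cases x with rfl | rfl <;> rcases z2_cases y with rfl | rfl <;> simp [z2_add_self]

theorem ch_mul_self (x : ZMod 2) : ch K x * ch K x = 1 := by rw [← ch_add, z2_add_self, ch_zero]

theorem ch_ne (x : ZMod 2) : ch K x ≠ 0 := left_ne_zero_of_mul_eq_one (ch_mul_self x)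

theorem ch_inj (h2 : (2 : K) ≠ 0) {x y : ZMod 2} (h : ch K x = ch K y) : x = y := by
  rcases z2_cases x with rfl | rfl <;> rcases z2_cases y with rfl | rfl <;>
    first | rfl | exact absurd (by simp at h; linear_combination (exp := 1) h) h2 |
      exact absurd (by simp at h; linear_combination (exp := 1) -h) h2

theorem exists_ch {c : K} (h : c * c = 1) : ∃ z, c = ch K z := by
  rcases mul_self_eq_one_iff.1 h with e | e
  exacts [⟨0, e⟩, ⟨1, e.trans ch_one.symm⟩]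

variable {W : Type*} [AddCommGroup W] [Module K W]

theorem ch_ch (x : ZMod 2) (v : W) : ch K x • ch K x • v = v := by
  rw [smul_smul, ch_mul_self, one_smul]

theorem eq_zero_of_neg (h2 : (2 : K) ≠ 0) {v : W} (h : v = -v) : v = 0 := by
  have : (2 : K) • v = 0 := by rw [two_smul]; nth_rw 1 [h]; exact neg_add_cancel v
  exact (smul_eq_zero.1 this).resolve_left h2

/-- commuting involutions have a joint eigenvector -/
theorem exists_joint {ι : Type*} [FiniteDimensional K W] (h2 : (2 : K) ≠ 0) (f : ι → End K W)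
    (U : Submodule K W) (hU : U ≠ ⊥) (hinv : ∀ i, ∀ v ∈ U, f i v ∈ U)
    (hc : ∀ i j, ∀ v ∈ U, f i (f j v) = f j (f i v)) (hs : ∀ i, ∀ v ∈ U, f i (f i v) = v) :
    ∃ l : ι → ZMod 2, ∃ v ∈ U, v ≠ 0 ∧ ∀ i, f i v = ch K (l i) • v := by
  obtain ⟨S, ⟨h0, hS, hi⟩, hmin⟩ := (wellFounded_lt (α := Submodule K W)).has_min
    {S | S ≠ ⊥ ∧ S ≤ U ∧ ∀ i, ∀ v ∈ S, f i v ∈ S} ⟨U, hU, le_rfl, hinv⟩
  have key : ∀ i, ∃ z, ∀ v ∈ S, f i v = ch K z • v := fun i => by
    have k : ∀ z, S ⊓ End.eigenspace (f i) (ch K z) ≠ ⊥ → ∀ v ∈ S, f i v = ch K z • v :=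
      fun z hz v hv => by
        have e : S ⊓ End.eigenspace (f i) (ch K z) = S := by
          by_contra ne
          refine hmin _ ⟨hz, inf_le_left.trans hS, fun j v hv => ⟨hi j v hv.1, ?_⟩⟩
            (lt_of_le_of_ne inf_le_left ne)
          refine End.mem_eigenspace_iff.2 ?_
          rw [hc i j v (hS hv.1), End.mem_eigenspace_iff.1 hv.2, map_smul]
        exact End.mem_eigenspace_iff.1 (e.ge hv).2
    by_cases a : S ⊓ End.eigenspace (f i) (ch K 0) = ⊥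
    · refine ⟨1, fun v hv => ?_⟩
      have : v + f i v ∈ S ⊓ End.eigenspace (f i) (ch K 0) := ⟨add_mem hv (hi i v hv),
        End.mem_eigenspace_iff.2 (by rw [map_add, hs i v (hS hv), ch_zero, one_smul, add_comm])⟩
      rw [a, Submodule.mem_bot] at this
      rw [ch_one, neg_one_smul, eq_neg_iff_add_eq_zero, add_comm, this]
    · exact ⟨0, k 0 a⟩
  choose l hl using key
  obtain ⟨v, hv, v0⟩ := (Submodule.ne_bot_iff S).1 h0
  exact ⟨l, v, hS hv, v0, fun i => hl i v hv⟩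

end ch

/-! ### the triality element in the model -/

/-- `τ n τ⁻¹ = m` in the model -/
def TH (n m : Gt) : Prop := tau * rho n = rho m * tau

/-- the preimage of the sign changes in the frame stabiliser -/
noncomputable def RS : Subgroup Gt := Np ⊓ Sg.comap gOf

theorem mem_RS {γ : Gt} : γ ∈ RS ↔ γ ∈ Np ∧ ∃ c, ∃ hc : c ∈ CS, gOf γ = eps hc :=
  and_congr_right fun _ => mem_Sg

theorem conj_RS {n u : Gt} (hn : n ∈ Np) (hu : u ∈ RS) : n * u * n⁻¹ ∈ RS :=
  ⟨Np.mul_mem (Np.mul_mem hn hu.1) (Np.inv_mem hn), show gOf _ ∈ Sg by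
    rw [map_mul, map_mul, map_inv]; exact conj_mem_Sg (Np_mon hn) hu.2⟩

theorem pauli_RS {p : Lab} (h : p.a 11 = 0) : pauli p ∈ RS :=
  ⟨pauli_mem_Np.2 h, show gOf _ ∈ Sg from Sg.one_mem⟩

theorem kap_RS : kap ∈ RS := ⟨kap_mem_Np, show gOf kap ∈ Sg from gOf_kap ▸ negCo_mem_Sg⟩

theorem yE_RS : yE.val ∈ RS := ⟨yE_mem_Np, show gOf _ ∈ Sg from gOf_yE ▸ mem_Sg.2 ⟨_, _, rfl⟩⟩

theorem th_RS {n : Gt} (hn : n ∈ Np) : ∃ u ∈ RS, TH n (u * n) :=
  have R := rels0
  (Np_le (H := { carrier := {n | n ∈ Np ∧ ∃ u ∈ RS, TH n (u * n)}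
                 one_mem' := ⟨one_mem _, 1, one_mem _, by simp [TH]⟩
                 mul_mem' := fun {a b} ⟨ha, u, hu, e⟩ ⟨hb, w, hw, f⟩ => ⟨mul_mem ha hb,
                   u * (a * w * a⁻¹), mul_mem hu (conj_RS ha hw), (rl_mul e f).trans (by
                     rw [show u * (a * w * a⁻¹) * (a * b) = u * a * (w * b) by group])⟩
                 inv_mem' := fun {a} ⟨ha, u, hu, e⟩ => ⟨inv_mem ha, a⁻¹ * u⁻¹ * a⁻¹⁻¹,
                   conj_RS (inv_mem ha) (inv_mem hu), (rl_inv e).trans (by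
                     rw [show a⁻¹ * u⁻¹ * a⁻¹⁻¹ * a⁻¹ = (u * a)⁻¹ by group])⟩ })
    (fun p hp => ⟨C0_le_Np hp, 1, one_mem _, by rw [one_mul]; exact R.c0 p hp⟩)
    ⟨pauli_mem_Np.2 (by decide), yE.val * (pauli (X 0))⁻¹,
      mul_mem yE_RS (inv_mem (pauli_RS (by decide))), by rw [inv_mul_cancel_right]; exact R.xy⟩
    ⟨yE_mem_Np, pauli (X 11) * yE.val * pauli (X 11) * yE.val⁻¹,
      ⟨Np.mul_mem (odd_conj_Np yE_mem_Np) (Np.inv_mem yE_mem_Np), show gOf _ ∈ Sg by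
        simp [gOf_pauli]⟩, by rw [inv_mul_cancel_right]; exact R.tau_yE⟩
    ⟨pauli_mem_Np.2 rfl, pauli xc * (pauli (Z 11))⁻¹,
      mul_mem (pauli_RS rfl) (inv_mem (pauli_RS rfl)), by
        rw [inv_mul_cancel_right]; exact R.tau_z⟩ hn).2

theorem mem_PA {γ : Gt} : γ ∈ PA ↔ γ • tA = tA := Iff.rfl
theorem pauli_PA {p : Lab} : pauli p ∈ PA ↔ bf p tA = 0 := pauli_mem_stab
theorem kap_PA : kap ∈ PA := kap_mem_stab _
theorem xc_PA : pauli xc ∈ PA := pauli_PA.2 (bf_xc _)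
theorem X11_PA : pauli (X 11) ∈ PA := pauli_PA.2 bf_11A
theorem bf_diag {p q : Lab} (a : p.a = 0) (b : q.a = 0) : bf p q = 0 := by simp [bf, a, b]
theorem diag_PA {p : Lab} (h : p.a = 0) : pauli p ∈ PA := pauli_PA.2 (bf_diag h tA_a)
theorem Y0_a : Y0.a = 0 := by simp [Y0, Lab.Z]
theorem Y0_PA : pauli Y0 ∈ PA := diag_PA Y0_a
theorem Np_Y0 {γ : Gt} : γ ∈ Np ↔ γ • Y0 = Y0 := Iff.rfl

theorem TH.uniq {n m k : Gt} (a : TH n m) (b : TH n k) : m = k ∨ m = kap * k :=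
  (rho_eq_iff rels0.kap rho_xc_ne).1 (mul_right_cancel (a.symm.trans b))

theorem TH.np {n m : Gt} (e : TH n m) : n ∈ Np :=
  mem_Np.2 ((rho_comm_iff rho_xc_ne).1 (mul_left_cancel (a := tau) (by
    rw [← mul_assoc, ← mul_assoc, e, mul_assoc, rels0.tau_z, mul_assoc, e, ← mul_assoc,
      ← mul_assoc, ← map_mul, ← map_mul, xc_pauli_comm])))

theorem TH.ex' {n m : Gt} (a : TH n m) : ∃ u ∈ RS, m = u * n := by
  obtain ⟨u, hu, e⟩ := th_RS a.np
  rcases a.uniq e with k | k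
  exacts [⟨u, hu, k⟩, ⟨kap * u, mul_mem kap_RS hu, k.trans (mul_assoc ..).symm⟩]

theorem TH.np' {n m : Gt} (a : TH n m) : m ∈ Np :=
  let ⟨_, hu, e⟩ := a.ex'; e ▸ mul_mem hu.1 a.np

theorem TH.rs {n m : Gt} (a : TH n m) : n ∈ RS ↔ m ∈ RS :=
  let ⟨_, hu, e⟩ := a.ex'; e ▸ (Subgroup.mul_mem_cancel_left _ hu).symm

theorem TH.fix {n m : Gt} (a : TH n m) {t : Lab} (ht : pauli t ∈ C0) : n • t = t ↔ m • t = t := by
  have c := rels0.c0 _ ht
  rw [← rho_comm_iff rho_xc_ne, ← rho_comm_iff rho_xc_ne, ← mul_right_inj tau, ← mul_assoc,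
    ← mul_assoc, c, mul_assoc _ tau, a, mul_assoc, c, ← mul_assoc, ← mul_assoc, mul_left_inj]

theorem TH.pa {n m : Gt} (a : TH n m) : n ∈ PA ↔ m ∈ PA := a.fix tA_mem_C0

theorem TH.mul {a b c d : Gt} (e : TH a b) (f : TH c d) : TH (a * c) (b * d) := rl_mul e f
theorem TH.inv {a b : Gt} (e : TH a b) : TH a⁻¹ b⁻¹ := rl_inv e
theorem TH.c0 {a : Gt} (h : a ∈ C0) : TH a a := rels0.c0 a h

theorem exists_TH {n : Gt} (h : n ∈ Np) : ∃ m, TH n m := let ⟨_, _, e⟩ := th_RS h; ⟨_, e⟩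

theorem exists_TH' {m : Gt} (h : m ∈ Np) : ∃ n, TH n m :=
  let ⟨n, _, e⟩ := rels0.theta_exists' h; ⟨n, e.symm⟩

/-- a lift inside the frame stabiliser -/
theorem exists_NA {g : Co0} (h : g • red uA = red uA) (m : g ∈ Mon) :
    ∃ γ, γ ∈ PA ∧ γ ∈ Np ∧ gOf γ = g := by
  obtain ⟨γ, a, rfl⟩ := exists_PA h
  rcases mem_Np_or m with b | b
  exacts [⟨γ, a, b, rfl⟩, ⟨_, mul_mem X11_PA a, b, by simp⟩]

/-! ### the modules -/

/-- a module for the Baby Monster, given on the parabolic subgroup and the triality element -/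
structure Rp (K W : Type*) [Field K] [AddCommGroup W] [Module K W] where
  R : Gt → End K W
  T : End K W
  two : (2 : K) ≠ 0
  mul : ∀ a ∈ PA, ∀ b ∈ PA, R (a * b) = R a * R b
  one : R 1 = 1
  kap : R kap = 1
  tA : R (pauli tA) = 1
  th : ∀ a ∈ PA, ∀ b ∈ PA, TH a b → T * R a = R b * T
  cube : T * T * T = 1
  odd : T * R (pauli (X 11)) * T = R (pauli (X 11))

namespace Rp

variable {K W : Type*} [Field K] [AddCommGroup W] [Module K W] (A : Rp K W)

/-- weight spaces -/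
def Wt (s : Lab) : Submodule K W :=
  wsp (fun p : {p : Lab // bf p Mon.tA = 0} => A.R (pauli p)) fun p => ch K (bf p s)

/-- the `-1` eigenspace of the central involution -/
def Vm : Submodule K W := End.eigenspace (A.R (pauli xc)) (-1)

variable {A} {s t : Lab} {v : W} {a b : Gt}

theorem mem_Wt : v ∈ A.Wt s ↔ ∀ p, bf p Mon.tA = 0 → A.R (pauli p) v = ch K (bf p s) • v :=
  Subtype.forall

theorem mem_Vm : v ∈ A.Vm ↔ A.R (pauli xc) v = -v := by simp [Vm]

theorem mul_apply (ha : a ∈ PA) (hb : b ∈ PA) (v : W) : A.R (a * b) v = A.R a (A.R b v) := by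
  rw [A.mul a ha b hb]; rfl

theorem one_apply (v : W) : A.R 1 v = v := by rw [A.one]; rfl

theorem inv_apply (ha : a ∈ PA) (v : W) : A.R a⁻¹ (A.R a v) = v := by
  rw [← mul_apply (inv_mem ha) ha, inv_mul_cancel, one_apply]

theorem apply_inv (ha : a ∈ PA) (v : W) : A.R a (A.R a⁻¹ v) = v := by
  rw [← mul_apply ha (inv_mem ha), mul_inv_cancel, one_apply]

theorem inj (ha : a ∈ PA) : Function.Injective (A.R a) :=
  Function.LeftInverse.injective (inv_apply ha)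

theorem conj (ha : a ∈ PA) (hb : b ∈ PA) (v : W) :
    A.R (a * b * a⁻¹) (A.R a v) = A.R a (A.R b v) := by
  rw [← mul_apply (mul_mem (mul_mem ha hb) (inv_mem ha)) ha, inv_mul_cancel_right, mul_apply ha hb]

theorem bf_smul_tA (ha : a ∈ PA) (p : Lab) : bf (a • p) Mon.tA = bf p Mon.tA := by
  conv_lhs => rw [← mem_PA.1 ha, bf_smul]

theorem conj_p (ha : a ∈ PA) {p : Lab} (hp : bf p Mon.tA = 0) (v : W) :
    A.R (pauli (a • p)) (A.R a v) = A.R a (A.R (pauli p) v) := by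
  rw [← conj_pauli', conj ha (pauli_PA.2 hp)]

theorem pp {p q : Lab} (hp : bf p Mon.tA = 0) (hq : bf q Mon.tA = 0) (v : W) :
    A.R (pauli (p * q)) v = A.R (pauli p) (A.R (pauli q) v) := by
  rw [map_mul, mul_apply (pauli_PA.2 hp) (pauli_PA.2 hq)]

theorem sq {p : Lab} (hp : bf p Mon.tA = 0) (h : p * p = 1) (v : W) :
    A.R (pauli p) (A.R (pauli p) v) = v := by rw [← pp hp hp, h, map_one, one_apply]

theorem xx (v : W) : A.R (pauli xc) (A.R (pauli xc) v) = v := sq (bf_xc _) xc_mul_xc v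

theorem XX (v : W) : A.R (pauli (X 11)) (A.R (pauli (X 11)) v) = v := sq bf_11A (X_mul_X _) v

theorem xc_comm (ha : a ∈ PA) (v : W) :
    A.R (pauli xc) (A.R a v) = A.R a (A.R (pauli xc) v) := by
  rw [← conj_p ha (bf_xc _), smul_xc]

theorem Vm_map (ha : a ∈ PA) (h : v ∈ A.Vm) : A.R a v ∈ A.Vm :=
  mem_Vm.2 (by rw [xc_comm ha, mem_Vm.1 h, map_neg])

theorem Wt_congr (h : s ≈ₗ t) : A.Wt s = A.Wt t := Submodule.ext fun _ => by
  simp only [mem_Wt, (Eqv.refl _).bf h]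

theorem Wt_tA (s : Lab) : A.Wt (Mon.tA * s) = A.Wt s := Submodule.ext fun _ => by
  simp only [mem_Wt, bf_mul']
  exact forall₂_congr fun p h => by rw [h, zero_add]

theorem Wt_map (ha : a ∈ PA) (h : v ∈ A.Wt t) : A.R a v ∈ A.Wt (a • t) := mem_Wt.2 fun p hp => by
  have k : bf (a⁻¹ • p) Mon.tA = 0 := (bf_smul_tA (inv_mem ha) p).trans hp
  have := conj_p (A := A) ha k v
  rw [smul_inv_smul] at this
  rw [this, mem_Wt.1 h _ k, map_smul, ← bf_smul a, smul_inv_smul]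

theorem Wt_xc (h : v ∈ A.Wt t) : A.R (pauli xc) v = v := by
  rw [mem_Wt.1 h _ (bf_xc _), bf_xc, ch_zero, one_smul]

theorem mem_Wt_one : v ∈ A.Wt 1 ↔ ∀ p, bf p Mon.tA = 0 → A.R (pauli p) v = v := by
  simp only [mem_Wt, bf_one', ch_zero, one_smul]

theorem Wt_one_map (ha : a ∈ PA) (h : v ∈ A.Wt 1) : A.R a v ∈ A.Wt 1 := by
  simpa using Wt_map ha h

/-- on the fixed space only the lattice part matters -/
theorem Wt_one_congr (ha : a ∈ PA) (hb : b ∈ PA) (e : gOf a = gOf b) (h : v ∈ A.Wt 1) :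
    A.R a v = A.R b v := by
  obtain ⟨q, hq⟩ := exists_pauli (γ := b⁻¹ * a) (by simp [e])
  have m : pauli q ∈ PA := hq ▸ mul_mem (inv_mem hb) ha
  rw [← mul_inv_cancel_left b a, hq, mul_apply hb m, mem_Wt_one.1 h _ (pauli_PA.1 m)]

theorem TTT (v : W) : A.T (A.T (A.T v)) = v := LinearMap.congr_fun A.cube v

theorem T_inj : Function.Injective A.T :=
  Function.LeftInverse.injective (g := fun v => A.T (A.T v)) TTT

theorem TXT (v : W) : A.T (A.R (pauli (X 11)) (A.T v)) = A.R (pauli (X 11)) v :=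
  LinearMap.congr_fun A.odd v

theorem XT (v : W) : A.R (pauli (X 11)) (A.T v) = A.T (A.T (A.R (pauli (X 11)) v)) :=
  T_inj (by rw [TXT, TTT])

theorem XTT (v : W) : A.R (pauli (X 11)) (A.T (A.T v)) = A.T (A.R (pauli (X 11)) v) := by
  rw [XT, XT, TTT]

theorem T_R (ha : a ∈ PA) (h : TH a b) (v : W) : A.T (A.R a v) = A.R b (A.T v) :=
  LinearMap.congr_fun (A.th a ha b (h.pa.1 ha) h) v

theorem R_TT (ha : a ∈ PA) (h : TH a b) (v : W) :
    A.R a (A.T (A.T v)) = A.T (A.T (A.R b v)) := T_inj (by rw [T_R ha h, TTT, TTT])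

/-- the vectors on which the labels orthogonal to `S` act by the character `s` -/
def WS (A : Rp K W) (S : List Lab) (s : Lab) : Submodule K W :=
  wsp (fun p : {p : Lab // bf p Mon.tA = 0 ∧ ∀ y ∈ S, bf p y = 0} => A.R (pauli p))
    fun p => ch K (bf p s)

theorem mem_WS {S : List Lab} : v ∈ A.WS S s ↔ ∀ p, bf p Mon.tA = 0 → (∀ y ∈ S, bf p y = 0) →
    A.R (pauli p) v = ch K (bf p s) • v :=
  ⟨fun h p a b => h ⟨p, a, b⟩, fun h p => h p.1 p.2.1 p.2.2⟩

theorem WS_nil : A.WS [] s = A.Wt s := Submodule.ext fun _ => by simp [mem_WS, mem_Wt]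

/-- splitting of a partial weight space -/
theorem WS_cons (S : List Lab) (y s : Lab) : A.WS (y :: S) s ≤ A.WS S s ⊔ A.WS S (y * s) := by
  intro v hv
  have hv := mem_WS.1 hv
  by_cases h : ∃ q, bf q Mon.tA = 0 ∧ (∀ z ∈ S, bf q z = 0) ∧ bf q y = 1
  swap
  · refine Submodule.mem_sup_left (mem_WS.2 fun p a b => hv p a ?_)
    simp only [List.mem_cons, forall_eq_or_imp]
    exact ⟨(z2_cases _).resolve_right fun e => h ⟨p, a, b, e⟩, b⟩
  obtain ⟨q, q1, q2, q3⟩ := h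
  have x : ∀ z, A.R (pauli (xp z)) v = v := fun z => by
    rw [hv _ (by simp [bf, xp]) (by simp [bf, xp])]; simp [bf, xp]
  have k : ∀ p, bf p Mon.tA = 0 → (∀ z ∈ S, bf p z = 0) → bf p y = 1 →
      A.R (pauli p) v = ch K (bf p s + bf q s) • A.R (pauli q) v := fun p a b c => by
    have e : p = q * (q⁻¹ * p) := (mul_inv_cancel_left _ _).symm
    have i : ∀ z, bf (q⁻¹ * p) z = bf q z + bf p z := fun z => by
      rw [bf_mul, (inv_eqv q).bf (Eqv.refl z)]
    have a' : bf (q⁻¹ * p) Mon.tA = 0 := by rw [i, q1, a, add_zero]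
    rw [e, pp q1 a', hv _ a' (by
      simp only [List.mem_cons, forall_eq_or_imp]
      exact ⟨by rw [i, q3, c]; rfl, fun z hz => by rw [i, q2 z hz, b z hz, add_zero]⟩), map_smul,
      ← e, i, add_comm]
  have m : ∀ z : ZMod 2, ∀ p, bf p Mon.tA = 0 → (∀ z ∈ S, bf p z = 0) →
      A.R (pauli p) (v + ch K (z + bf q s) • A.R (pauli q) v) =
        ch K (bf p s + z * bf p y) • (v + ch K (z + bf q s) • A.R (pauli q) v) := fun z p a b => by
    have c : A.R (pauli p) (A.R (pauli q) v) = A.R (pauli q) (A.R (pauli p) v) := by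
      rw [← pp a q1, ← pp q1 a, mul_comm_eq p, xp_comm,
        pp (by rw [bf_mul, a, q1, add_zero]) (by simp [bf, xp]), x]
    rw [map_add, map_smul, c]
    rcases z2_cases (bf p y) with e | e
    · rw [hv p a (by simpa using ⟨e, b⟩), e, mul_zero, add_zero, map_smul, smul_add, smul_comm]
    · rw [k p a b e, map_smul, ← pp q1 q1, mul_self_eq, x, e, mul_one, smul_add, smul_smul,
        smul_smul, ← ch_add, ← ch_add, add_comm,
        show z + bf q s + (bf p s + bf q s) = bf p s + z by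
          linear_combination z2_add_self (bf q s),
        show bf p s + z + (z + bf q s) = bf p s + bf q s by linear_combination z2_add_self z]
  have e : v = (2 : K)⁻¹ • (v + ch K (0 + bf q s) • A.R (pauli q) v) +
      (2 : K)⁻¹ • (v + ch K (1 + bf q s) • A.R (pauli q) v) := by
    rw [ch_add, ch_add, ch_zero, ch_one, ← smul_add, one_mul, neg_one_mul, neg_smul,
      add_add_add_comm, add_neg_cancel, add_zero, ← two_smul K, inv_smul_smul₀ A.two]
  rw [e]
  refine Submodule.add_mem_sup (Submodule.smul_mem _ _ (mem_WS.2 fun p a b => ?_))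
    (Submodule.smul_mem _ _ (mem_WS.2 fun p a b => ?_))
  · rw [m 0 p a b, zero_mul, add_zero]
  · rw [m 1 p a b, one_mul, bf_mul', add_comm (bf p s)]

end Rp

/-- the standard odd weight -/
noncomputable def p0 : Lab := cls (vX (pt 0) ∅)

theorem p0_SS : p0 ∈ SS := (lX0 _ empty_mem_CS).2 ⟨in0, by simp⟩

theorem p0_a : p0.a = Pi.single 11 1 := by
  rw [p0, cls_a_vX _ empty_mem_CS, nrm_of (Finset.notMem_empty _), ixd_empty]

/-- the weight vectors -/
structure Fe {K W : Type*} [Field K] [AddCommGroup W] [Module K W] (A : Rp K W) (e : Lab → W)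
    (η : ZMod 2) : Prop where
  smul : ∀ γ ∈ PA, ∀ p ∈ SS, A.R γ (e p) = e (γ • p)
  ne : ∀ p ∈ SS, e p ≠ 0
  xc : ∀ p ∈ SS, e (xc * p) = -e p
  tA : ∀ p ∈ SS, e (tA * p) = ch K η • e p
  line : ∀ p ∈ SS, ∀ v ∈ A.Wt p, ∃ c : K, v = c • e p
  bot : ∀ s, s ∉ SS → ¬ s ≈ₗ 1 → ¬ s ≈ₗ Mon.tA → A.Wt s = ⊥

/-- the stabiliser of the pair `± uA` -/
noncomputable abbrev St : Subgroup Co0 := stabilizer Co0 (red uA)

theorem gOf_St {γ : Gt} (h : γ ∈ PA) : gOf γ ∈ St := red_uA_fix h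

/-- a small module for the second Conway group -/
structure R0 (K U : Type*) [Field K] [AddCommGroup U] [Module K U] where
  α : Co0 → End K U
  u : Pt → U
  η : ZMod 2
  two : (2 : K) ≠ 0
  fd : FiniteDimensional K U
  fr : finrank K U ≤ 23
  mul : ∀ a ∈ St, ∀ b ∈ St, α (a * b) = α a * α b
  one : α 1 = 1
  neg : α negCo = 1
  ne : ∀ i, ¬ In i → u i ≠ 0
  eps : ∀ c (hc : c ∈ CS), (pt 0 ∈ c ↔ pt 1 ∈ c) → ∀ i, ¬ In i →
    α (eps hc) (u i) = ch K (ib c (pt 0) + ib c i) • u i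
  perm : ∀ σ : M24, σ.1 (pt 0) = pt 0 → σ.1 (pt 1) = pt 1 → ∀ i, ¬ In i →
    α (permHom σ) (u i) = u (σ.1 i)
  swap : ∀ σ : M24, σ.1 (pt 0) = pt 1 → σ.1 (pt 1) = pt 0 → ∀ i, ¬ In i →
    α (permHom σ) (u i) = ch K η • u (σ.1 i)

namespace R0
variable {K U : Type*} [Field K] [AddCommGroup U] [Module K U] (Z : R0 K U)

/-- the vector fixed by the sign changes -/
noncomputable def f : U := Z.α xi (Z.u (pt 2) + Z.u (pt 3))

/-- the standard basis -/
noncomputable def b (k : J1) : U := if k.1 = pt 0 then Z.f else Z.u k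

end R0

/-- the basis vectors of a module -/
noncomputable def bas {K W : Type*} [Field K] [AddCommGroup W] [Module K W] (A : Rp K W)
    (e : Lab → W) (z : R0 K (A.Wt 1)) : JJ → W :=
  Sum.elim (fun k => (z.b k : W)) (Sum.elim (fun p => e p)
    fun w => A.R (pauli ⟨w, 0, 0⟩) (A.T (A.T (e p0))))

/-- a frame of a module -/
structure Fr {K W : Type*} [Field K] [AddCommGroup W] [Module K W] (A : Rp K W) where
  e : Lab → W
  z : R0 K (A.Wt 1)
  fe : Fe A e 1
  act : ∀ γ ∈ PA, ∀ v : A.Wt 1, (z.α (gOf γ) v : W) = A.R γ v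
  u : ∀ i, ¬ In i → (z.u i : W) = A.T (A.T (e (mm (pt 0) i) + e (Y0 * mm (pt 0) i)))
  li : LinearIndependent K (bas A e z)
  top : Submodule.span K (Set.range (bas A e z)) = ⊤

end CF.Bv
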