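import Cfsg.Agent.Bv.A

/-! The monomial part of the second Conway group; coordinates of joint eigenvectors;
extensions by a module. -/

set_option autoImplicit false
set_option maxHeartbeats 400000

namespace CF.Bv

open Cfsg CF.Leech CF.Comp CF.Mon CF.Mon.G CF.Mon.T CF.Mon.L CF.Mon.W4 CF.Known.Mon CF.Classical
open Module Lab MulAction

theorem uA_pt : ∀ n < 24, (uA : V) (pt n) = if n = 0 then 4 else if n = 1 then -4 else 0 := by
  decide +kernel

theorem mem_St {g : Co0} : g ∈ St ↔ g • uA = uA ∨ g • uA = -uA :=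
  smul_red_iff (by rw [nm_uA]; norm_num)

theorem neg_St : negCo ∈ St := negCo_red _

theorem xi_uA : xi • uA = -uA := LL.ext (forall_pt.2 fun n hn => by
  rw [xi_pt uA_pt n hn, AddSubgroup.coe_neg, Pi.neg_apply, uA_pt n hn]
  revert n; decide +kernel)

theorem xi_St : xi ∈ St := mem_St.2 (.inr xi_uA)

theorem xi_sq : xi * xi = 1 := co_ext (forall_pt.2 fun i hi => LL.ext (forall_pt.2 fun n hn => by
  rw [mul_smul, xi_pt (xi_pt (e8_pt i hi)) n hn, one_smul, e8_pt i hi n hn]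
  revert i n; decide +kernel))

theorem eps_St {c : Finset Pt} (hc : c ∈ CS) (h : pt 0 ∈ c ↔ pt 1 ∈ c) : eps hc ∈ St :=
  mono_m4' _ hc rfl rfl h

/-- permutations fixing or exchanging the two points -/
def Fix (σ : M24) : Prop := σ.1 (pt 0) = pt 0 ∧ σ.1 (pt 1) = pt 1
def Swp (σ : M24) : Prop := σ.1 (pt 0) = pt 1 ∧ σ.1 (pt 1) = pt 0

theorem Fix.st {σ : M24} (h : Fix σ) : permHom σ ∈ St :=
  mem_St.2 (.inl (by rw [uA, perm_m4, h.1, h.2]))

theorem Swp.st {σ : M24} (h : Swp σ) : permHom σ ∈ St :=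
  mem_St.2 (.inr (by rw [uA, perm_m4, h.1, h.2, m4_swap]))

theorem not_in {σ : M24} (h : Fix σ ∨ Swp σ) {i : Pt} (hi : ¬ In i) : ¬ In (σ.1 i) := by
  rintro (e | e) <;> rcases h with h | h
  exacts [hi (.inl (σ.1.injective (e.trans h.1.symm))), hi (.inr (σ.1.injective (e.trans h.2.symm))),
    hi (.inr (σ.1.injective (e.trans h.2.symm))), hi (.inl (σ.1.injective (e.trans h.1.symm)))]

theorem St_mon {g : Co0} (h : g ∈ St) (m : g ∈ Mon) : ∃ (σ : M24) (c : Finset Pt) (hc : c ∈ CS),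
    g = eps hc * permHom σ ∧ (pt 0 ∈ c ↔ pt 1 ∈ c) ∧ (Fix σ ∨ Swp σ) := by
  obtain ⟨σ, c, hσ, hc, rfl⟩ := m
  obtain ⟨a, b, d⟩ := mono_m4 hσ hc p01 h
  have n := σ.injective.ne p01
  refine ⟨⟨σ, hσ⟩, c, hc, mono_eq hσ hc, ?_⟩
  rcases a with a | a <;> rcases b with b | b
  · exact absurd (a.trans b.symm) n
  · exact ⟨by rwa [a, b] at d, .inl ⟨a, b⟩⟩
  · exact ⟨by rw [a, b] at d; exact d.symm, .inr ⟨a, b⟩⟩
  · exact absurd (a.trans b.symm) n

theorem CS01_check : ∀ j < 12, (Nat.xor (enc (2 ^ j)) (if j < 2 then enc 1 else 0) = 0 ∨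
    (isCode (Nat.xor (enc (2 ^ j)) (if j < 2 then enc 1 else 0)) = true ∧
      pc (Nat.xor (enc (2 ^ j)) (if j < 2 then enc 1 else 0)) = 8)) ∧
    (((enc (2 ^ j)).testBit 0 = true ↔ (enc (2 ^ j)).testBit 1 = true) ↔ ¬ j < 2) := by
  decide +kernel

/-- generators of the code words that do not separate the two points -/
def w01 (j : ℕ) : ℕ := Nat.xor (enc (2 ^ j)) (if j < 2 then enc 1 else 0)

theorem w01_CS {j : ℕ} (hj : j < 12) : ofMask (w01 j) ∈ CS := by
  rcases (CS01_check j hj).1 with a | a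
  · rw [w01, a, ofMask_zero]; exact empty_mem_CS
  · exact ofMask_mem_CS a.1

/-- induction over the code words that do not separate the two points -/
theorem CS01_bas {P : Finset Pt → Prop} (h0 : P ∅) (ho : ∀ j < 12, P (ofMask (w01 j)))
    (hs : ∀ c ∈ CS, ∀ d ∈ CS, (pt 0 ∈ c ↔ pt 1 ∈ c) → (pt 0 ∈ d ↔ pt 1 ∈ d) → P c → P d →
      P (symmDiff c d)) {c : Finset Pt} (hc : c ∈ CS) (h : pt 0 ∈ c ↔ pt 1 ∈ c) : P c := by
  classical
  let n : Finset Pt → Finset Pt := fun c => if (pt 0 ∈ c ↔ pt 1 ∈ c) then c else symmDiff c o1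
  have a0 := p0_mem
  have a1 := p1_o1
  have nc : ∀ c ∈ CS, n c ∈ CS := fun c hc => by
    simp only [n]; split_ifs; exacts [hc, symmDiff_mem_CS hc o1_CS]
  have ng : ∀ c, pt 0 ∈ n c ↔ pt 1 ∈ n c := fun c => by
    simp only [n]; split_ifs with a
    · exact a
    · simp only [Finset.mem_symmDiff]; tauto
  have := CS_induction (P := fun c => P (n c)) (by simpa [n] using h0) (fun j hj => ?_)
    (fun s t hs' ht a b => ?_) hc
  · simpa only [n, if_pos h] using this
  · obtain ⟨-, b⟩ := CS01_check j hj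
    have e : n (ofMask (enc (2 ^ j))) = ofMask (w01 j) := by
      simp only [n, pt_mem_ofMask (show 0 < 24 by norm_num), pt_mem_ofMask (show 1 < 24 by norm_num),
        b, ofMask_xor, w01]
      by_cases k : j < 2
      · simp [k, o1]
      · simp only [k, ofMask_zero, not_false_eq_true, if_true, if_false]
        exact (symmDiff_bot _).symm
    exact e ▸ ho j hj
  · have := hs _ (nc s hs') _ (nc t ht) (ng s) (ng t) a b
    have g : (pt 0 ∈ symmDiff s t ↔ pt 1 ∈ symmDiff s t) ↔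
        ((pt 0 ∈ s ↔ pt 1 ∈ s) ↔ (pt 0 ∈ t ↔ pt 1 ∈ t)) := by
      simp only [Finset.mem_symmDiff]
      generalize (pt 0 ∈ s) = a, (pt 1 ∈ s) = b, (pt 0 ∈ t) = c, (pt 1 ∈ t) = d
      tauto
    have e : n (symmDiff s t) = symmDiff (n s) (n t) := by
      simp only [n, g]
      by_cases x : (pt 0 ∈ s ↔ pt 1 ∈ s) <;> by_cases y : (pt 0 ∈ t ↔ pt 1 ∈ t)
      · rw [if_pos x, if_pos y, if_pos (iff_of_true x y)]
      · rw [if_pos x, if_neg y, if_neg fun k => y (k.1 x), symmDiff_assoc]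
      · rw [if_neg x, if_pos y, if_neg fun k => x (k.2 y), symmDiff_right_comm]
      · rw [if_neg x, if_neg y, if_pos (iff_of_false x y), symmDiff_symmDiff_symmDiff_comm,
          symmDiff_self, symmDiff_bot]
    exact e ▸ this

theorem w01_01 : ∀ j < 12, ((w01 j).testBit 0 = true ↔ (w01 j).testBit 1 = true) := by
  decide +kernel

theorem CS01_ind {P : Finset Pt → Prop} (h0 : P ∅)
    (ho : ∀ o ∈ octads, (pt 0 ∈ o ↔ pt 1 ∈ o) → P o)
    (hs : ∀ c ∈ CS, ∀ d ∈ CS, (pt 0 ∈ c ↔ pt 1 ∈ c) → (pt 0 ∈ d ↔ pt 1 ∈ d) → P c → P d →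
      P (symmDiff c d)) {c : Finset Pt} (hc : c ∈ CS) (h : pt 0 ∈ c ↔ pt 1 ∈ c) : P c :=
  CS01_bas h0 (fun j hj => by
    rcases (CS01_check j hj).1 with a | a
    · rw [w01, a, ofMask_zero]; exact h0
    · exact ho _ (M.oct_of_check a) (by
        rw [pt_mem_ofMask (by norm_num), pt_mem_ofMask (by norm_num)]; exact w01_01 j hj)) hs hc h

section coord
variable {K W ι κ : Type*} [Field K] [AddCommGroup W] [Module K W]

/-- a joint eigenvector only involves the basis vectors of the same weight -/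
theorem mem_span_wt {b : ι → W} (li : LinearIndependent K b) (f : κ → End K W) (l : ι → κ → K)
    (hb : ∀ i k, f k (b i) = l i k • b i) {v : W} (hv : v ∈ Submodule.span K (Set.range b))
    {m : κ → K} (h : ∀ k, f k v = m k • v) : v ∈ Submodule.span K (b '' {i | l i = m}) := by
  classical
  obtain ⟨c, rfl⟩ := (Finsupp.mem_span_range_iff_exists_finsupp).1 hv
  refine Submodule.sum_mem _ fun i hi => Submodule.smul_mem _ _
    (Submodule.subset_span ⟨i, funext fun k => ?_, rfl⟩)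
  have e : ∑ j ∈ c.support, (c j * l j k - m k * c j) • b j = 0 := by
    have := h k
    simp only [Finsupp.sum, map_sum, map_smul, hb, Finset.smul_sum, smul_smul] at this
    simp only [sub_smul, Finset.sum_sub_distrib, this, sub_self]
  have := linearIndependent_iff'.1 li _ _ e i hi
  rw [mul_comm (m k), ← mul_sub, mul_eq_zero, sub_eq_zero] at this
  exact this.resolve_left (Finsupp.mem_support_iff.1 hi)

end coord

/-- an extension `E` of `D` by the module `W`, and a map `j` to `D` that is multiplicative on `P` -/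
structure Xt (K W E D C : Type*) [Field K] [AddCommGroup W] [Module K W] [Group E] [Group D]
    [Group C] where
  ι : W → E
  p : E →* D
  σ : D →* End K W
  j : C → D
  P : Subgroup C
  add : ∀ v w, ι (v + w) = ι v * ι w
  inj : Function.Injective ι
  ker : ∀ e, p e = 1 ↔ ∃ w, ι w = e
  sur : Function.Surjective p
  act : ∀ e w, e * ι w * e⁻¹ = ι (σ (p e) w)
  jm : ∀ a ∈ P, ∀ b ∈ P, j (a * b) = j a * j b

/-- a splitting over `H` -/
def Xt.Sp {K W E D C : Type*} [Field K] [AddCommGroup W] [Module K W] [Group E] [Group D] [Group C]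
    (X : Xt K W E D C) (H : Subgroup C) (r : C → E) : Prop :=
  (∀ a ∈ H, ∀ b ∈ H, r (a * b) = r a * r b) ∧ ∀ a ∈ H, X.p (r a) = X.j a

/-- the part of `PA ⊓ Np` over `M22` -/
def N0 : Set Gt :=
  {n | n ∈ PA ∧ n ∈ Np ∧ ∃ σ c, ∃ hc : c ∈ CS, gOf n = eps hc * permHom σ ∧ Fix σ}

section
variable {K W W' : Type*} [Field K] [AddCommGroup W] [Module K W] [AddCommGroup W'] [Module K W']

/-- a linear map matching two frames and commuting with the parabolic subgroup -/
structure Mt {A : Rp K W} {A' : Rp K W'} (F : Fr A) (F' : Fr A') (Φ : W →ₗ[K] W') : Prop where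
  b : ∀ k, Φ (F.z.b k) = F'.z.b k
  e : ∀ p ∈ SS, Φ (F.e p) = F'.e p
  v : Φ (A.T (A.T (F.e p0))) = A'.T (A'.T (F'.e p0))
  R : ∀ γ ∈ PA, ∀ v, Φ (A.R γ v) = A'.R γ (Φ v)

/-- an extension of the Baby Monster by a module -/
structure Xb (A : Rp K W) {E D : Type*} [Group E] [Group D] (X : Xt K W E D Gt) (t : D) : Prop where
  P : X.P = PA
  R : ∀ a ∈ PA, X.σ (X.j a) = A.R a
  T : X.σ t = A.T
  kap : X.j kap = 1
  th : ∀ a ∈ PA, ∀ b ∈ PA, TH a b → t * X.j a = X.j b * t
  cube : t ^ 3 = 1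
  odd : t * X.j (pauli (Lab.X 11)) * t = X.j (pauli (Lab.X 11))
  rel : (t * X.j aE.val) ^ 3 = 1
  three : (3 : K) ≠ 0

end

end CF.Bv
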