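import Cfsg.Agent.S0465
import Cfsg.Agent.Mon.Cert

/-! The faithful representation of degree `4371` in odd characteristic. -/

set_option autoImplicit false

namespace CF.Bv

open Cfsg CF.Mon CF.Mon.G CF.Mon.T CF.Mon.W4 Module Subgroup

theorem exists_GL {G V : Type*} [Group G] [Finite G] [AddCommGroup V] [Module ℚ V] [FiniteDimensional ℚ V]
    (σ : G →* End ℚ V) {n : ℕ} (hn : finrank ℚ V = n) (F : Type*) [Field F] (h2 : (2 : F) ≠ 0) :
    ∃ φ : G →* GL (Fin n) F, (∀ g, σ g = 1 → φ g = 1) ∧ ∀ g, g * g = 1 → φ g = 1 → σ g = 1 := by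
  obtain ⟨-, L, -, -, -, _, hi, -⟩ := Fong.exists_data (ρ := σ)
  let b := Module.finBasisOfFinrankEq ℤ L ((Fong.finrank_lat L).trans hn)
  let m : G →* Matrix (Fin n) (Fin n) ℤ := (LinearMap.toMatrixAlgEquiv b).toMulEquiv.toMonoidHom.comp hi.act
  have hm : ∀ g, m g = 1 ↔ σ g = 1 := fun g =>
    (LinearMap.toMatrixAlgEquiv b).toMulEquiv.map_eq_one_iff.trans hi.act_eq_one
  let c := (Int.castRingHom F).mapMatrix (m := Fin n)
  refine ⟨(c.toMonoidHom.comp m).toHomUnits, fun g h => Units.ext ?_, fun g h e => (hm g).1 ?_⟩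
  · change c (m g) = 1
    rw [(hm g).2 h, map_one]
  have e' : c (m g) = 1 := congrArg Units.val e
  have d : (m g + 1).det ≠ 0 := fun z => by
    have := RingHom.map_det (Int.castRingHom F) (m g + 1)
    rw [z, map_zero, map_add, e', map_one, ← two_smul F, Matrix.det_smul, Matrix.det_one, mul_one] at this
    exact pow_ne_zero _ h2 this.symm
  have : (m g + 1).det • (m g - 1) = 0 := by
    rw [← one_mul (m g - 1), ← smul_mul_assoc, ← Matrix.adjugate_mul, mul_assoc,
      show (m g + 1) * (m g - 1) = m g * m g - 1 by noncomm_ring, ← map_mul, h, map_one, sub_self, mul_zero]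
  exact sub_eq_zero.1 ((smul_eq_zero.1 this).resolve_left d)

theorem exists_rep (F : Type*) [Field F] (h2 : (2 : F) ≠ 0) :
    ∃ ρ : Spor.BabyMonster →* GL (Fin 4371) F, Function.Injective ρ := by
  have h := G.outM
  haveI := h.finite
  haveI := Module.Free.of_divisionRing ℚ WQ
  haveI : FiniteDimensional ℚ WQ := Module.finite_of_finrank_pos (by rw [finrank_WQ]; norm_num)
  let σ : AA rhoM tauM →* End ℚ WQ := actW.comp
    ((MV.subtype.comp (AA rhoM tauM).subtype).codRestrict SW fun g => Agent.S0465.mem_SW h g.2)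
  obtain ⟨φ, h1, h3⟩ := exists_GL (V := WQ) σ (n := 4371) finrank_WQ F h2
  have hZ : center (AA rhoM tauM) ≤ φ.ker := by
    rw [h.center_A]
    rintro a ⟨n, e⟩
    rw [show a = (⟨_, h.t_mem_A⟩ : AA rhoM tauM) ^ n from Subtype.ext e.symm]
    exact zpow_mem (MonoidHom.mem_ker.2 (h1 _ actW_tA)) n
  obtain ⟨e⟩ := certs.equivB h
  haveI := h.isB_quot.1
  let ψ := QuotientGroup.lift _ φ hZ
  refine ⟨ψ.comp e.symm.toMonoidHom, Function.Injective.comp (g := ψ) (f := e.symm) ((MonoidHom.ker_eq_bot_iff ψ).1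
    (ψ.normal_ker.eq_bot_or_eq_top.resolve_right fun k => actW_tau ?_)) e.symm.injective⟩
  have k : ∀ g, g * g = 1 → σ g = 1 := fun g a => h3 g a (show ψ g = 1 from MonoidHom.mem_ker.1 (k ▸ mem_top _))
  let x : AA rhoM tauM := ⟨_, mem_AA _ _ (pauli_mem_stab.2 bf_11A)⟩
  let t : AA rhoM tauM := ⟨_, tau_mem_AA _ _⟩
  have xx : x * x = 1 := Subtype.ext (by
    change rhoM _ * rhoM _ = 1
    rw [← map_mul, ← map_mul, X_mul_X, map_one, map_one])
  have o : t * x * t = x := Subtype.ext h.rels.odd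
  have := k (t * x) (by rw [← mul_assoc, o, xx])
  rwa [map_mul, k x xx, mul_one] at this

end CF.Bv
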