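import Cfsg.Agent.Bv.S3

/-! Fixed vectors of the sign change groups. -/

set_option autoImplicit false
set_option maxHeartbeats 400000

namespace CF.Bv

open Cfsg CF.Leech CF.Comp CF.Mon CF.Mon.G CF.Mon.T CF.Mon.L CF.Mon.W4 CF.Known.Mon CF.Classical
open Module Lab MulAction

variable {K W : Type*} [Field K] [AddCommGroup W] [Module K W] {A : Rp K W}

theorem tB_SS : tB ∈ SS := ⟨1, one_mem _, one_smul _ _⟩

theorem YB_SS : Y0 * tB ∈ SS := mm_B ▸ Ymm_SS n2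

theorem X11_PB : pauli (X 11) ∈ PB := ⟨X11_PA, pauli_mem_stab.2 bf_11B⟩

theorem exists_NB {g : Co0} (h : g • red uA = red uA) (k : g • red uB = red uB) (m : g ∈ Mon) :
    ∃ γ, γ ∈ PB ∧ γ ∈ Np ∧ gOf γ = g := by
  obtain ⟨γ, a, rfl⟩ := map_PB.ge (show g ∈ _ from ⟨h, k⟩)
  rcases mem_Np_or m with b | b
  exacts [⟨γ, a, b, rfl⟩, ⟨_, mul_mem X11_PB a, b, by simp⟩]

theorem Fe.WS_Y {e : Lab → W} {η : ZMod 2} (h : Fe A e η) : A.WS [Y0] 1 ≤ A.Wt 1 := by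
  have := Rp.WS_cons (A := A) [] Y0 1
  rwa [Rp.WS_nil, Rp.WS_nil, mul_one, h.Y0_bot, sup_bot_eq] at this

theorem Fe.mem_one {e : Lab → W} {η : ZMod 2} (h : Fe A e η) {v : W}
    (k : ∀ q, bf q Mon.tA = 0 → q.a 11 = 0 → A.R (pauli q) v = v) : v ∈ A.Wt 1 :=
  h.WS_Y (Rp.mem_WS.2 fun q a b => by
    rw [k q a (by rw [← bf_Y0, bf_comm]; exact b _ (by simp)), bf_one', ch_zero, one_smul])

namespace Fr

variable (F : Fr A)

theorem mon_f {γ : Gt} (a : γ ∈ PA) {σ : M24} {c : Finset Pt} {hc : c ∈ CS}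
    (e : gOf γ = eps hc * permHom σ) :
    A.R γ F.z.f = if σ.1 (pt 0) = pt 0 then (F.z.f : W) else -(F.z.f : W) := by
  obtain ⟨τ, d, hd, f, g, k⟩ := St_mon (gOf_St a) (e ▸ mul_mem (mono_mem _ _) (permHom_mem _))
  obtain rfl : σ = τ := Subtype.ext (mono_inj σ.2 hc τ.2 hd
    ((mono_eq _ _).trans (e.symm.trans (f.trans (mono_eq _ _).symm)))).1
  rw [← F.act γ a, f]
  rcases k with k | k
  · rw [F.z.ap (eps_St hd g) k.st, F.z.perm_f k, F.z.eps_f hd g, if_pos k.1]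
  · rw [F.z.ap (eps_St hd g) k.st, F.z.swap_f k, map_neg, F.z.eps_f hd g,
      if_neg fun q => p01 (q.symm.trans k.1)]
    rfl

theorem RS_f {n : Gt} (h : n ∈ RS) (a : n ∈ PA) : A.R n F.z.f = F.z.f := by
  obtain ⟨-, c, hc, e⟩ := mem_RS.1 h
  exact (F.mon_f a (σ := 1) (hc := hc) (by rw [e, map_one, mul_one])).trans (if_pos rfl)

theorem fix_RS {v : W} (h : ∀ n ∈ RS ⊓ PA, A.R n v = v) : ∃ c : K, v = c • (F.z.f : W) := by
  have m := F.fe.mem_one fun q a b => h _ ⟨pauli_RS b, pauli_PA.2 a⟩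
  obtain ⟨c, e⟩ := F.z.fix5 (v := ⟨v, m⟩) fun j => Subtype.ext (by
    obtain ⟨γ, a, b, d⟩ := exists_NA (c5 j).st (mono_mem _ _)
    rw [R0.E, ← d, F.act γ a, h γ ⟨mem_RS.2 ⟨b, _, _, d⟩, a⟩])
  exact ⟨c, congrArg Subtype.val e⟩

theorem HB_f {n : Gt} (h : n ∈ PB ⊓ Np) : A.R n F.z.f = F.z.f := by
  obtain ⟨σ, c, hc, e, -⟩ := St_mon (gOf_St h.1.1) (Np_mon h.2)
  rw [F.mon_f h.1.1 e, if_pos (np_eq h.2 e ▸ (mem_F3.1 (np_F3 h.1 h.2)).1.1)]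

theorem HB_e {n : Gt} (h : n ∈ PB ⊓ Np) :
    A.R n (F.e tB) = F.e tB ∧ A.R n (F.e (Y0 * tB)) = F.e (Y0 * tB) := by
  rw [F.fe.smul n h.1.1 _ tB_SS, F.fe.smul n h.1.1 _ YB_SS, smul_mul', Np_Y0.1 h.2,
    show n • tB = tB from h.1.2]
  exact ⟨rfl, rfl⟩

theorem HB_u {n : Gt} (h : n ∈ PB ⊓ Np) : A.R n (F.z.u (pt 2)) = F.z.u (pt 2) := by
  obtain ⟨m, k⟩ := exists_TH h.2
  have := F.HB_e (n := m) ⟨⟨k.pa.1 h.1.1, (k.fix tB_mem_C0).1 h.1.2⟩, k.np'⟩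
  rw [F.u _ n2, Rp.R_TT h.1.1 k, mm_B, map_add (A.R m), this.1, this.2]

theorem w9_ck : (∀ j : Fin 12, 3 ≤ j → ((w01 j).testBit 0 = true ↔ (w01 j).testBit 2 = true)) ∧
    ∀ i, ¬ In i → (∀ j : Fin 12, 3 ≤ j → sg (w01 j) i = 0) → i = pt 2 := by
  constructor <;> decide +kernel

theorem b_E (c : C01) (k : J1) : F.z.E c (F.z.b k) =
    ch K (if k.1 = pt 0 then 0 else ib c.1 (pt 0) + ib c.1 k) • F.z.b k := by
  rw [R0.b]
  split_ifs with q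
  · rw [ch_zero, one_smul]; exact F.z.eps_f _ c.2.2
  · exact F.z.E_u c (not_or.2 ⟨q, k.2⟩)

include F in
theorem fix_RB {v : W} (h : ∀ n ∈ RS ⊓ PB, A.R n v = v) : ∀ n ∈ PB ⊓ Np, A.R n v = v := by
  have := Rp.WS_cons (A := A) [Y0] tB 1 (x := v) (Rp.mem_WS.2 fun q a b => by
    rw [h _ ⟨pauli_RS (by rw [← bf_Y0, bf_comm]; exact b _ (by simp)), pauli_PA.2 a,
      pauli_mem_stab.2 (b _ (by simp))⟩, bf_one', ch_zero, one_smul])
  obtain ⟨w, hw, y, hy, rfl⟩ := Submodule.mem_sup.1 this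
  have hy := Rp.WS_cons [] Y0 _ hy
  rw [Rp.WS_nil, Rp.WS_nil, mul_one] at hy
  have fy : ∀ n ∈ PB ⊓ Np, A.R n y = y := fun n k => by
    obtain ⟨y1, h1, y2, h2, rfl⟩ := Submodule.mem_sup.1 hy
    obtain ⟨a, rfl⟩ := F.fe.line _ tB_SS _ h1
    obtain ⟨b, rfl⟩ := F.fe.line _ YB_SS _ h2
    rw [map_add, map_smul, map_smul, (F.HB_e k).1, (F.HB_e k).2]
  have m := mem_span_wt F.z.li (fun j : {j : Fin 12 // 3 ≤ j} => F.z.E (cw j)) _
    (fun k j => F.b_E (cw j) k) (v := ⟨w, F.fe.WS_Y hw⟩) (F.z.top.ge trivial)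
    (m := fun _ => ch K 0) fun j => Subtype.ext (by
      obtain ⟨γ, a, b, d⟩ := exists_NB (cw j).st (mono_m4' _ (cw j).2.1 rfl rfl (by
        rw [cw, pt_mem_ofMask (by norm_num), pt_mem_ofMask (by norm_num)]; exact w9_ck.1 j j.2))
        (mono_mem _ _)
      have := h γ ⟨mem_RS.2 ⟨b, _, _, d⟩, a⟩
      rw [map_add, fy γ ⟨a, b⟩, add_left_inj] at this
      rw [R0.E, ← d, F.act γ a.1, this, ch_zero, one_smul])
  intro n k
  rw [map_add, fy n k, add_left_inj]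
  refine Submodule.span_induction (p := fun (x : A.Wt 1) _ => A.R n x = x) ?_ (map_zero _)
    (fun x y _ _ a b => by simp [a, b]) (fun c x _ a => by simp [a]) m
  rintro _ ⟨i, q, rfl⟩
  rw [R0.b]
  split_ifs with r
  · exact F.HB_f k
  · rw [w9_ck.2 i (not_or.2 ⟨r, i.2⟩) fun j l => ch_inj A.two (by
      simpa only [if_neg r, cw, ib_sg] using congrFun q ⟨j, l⟩)]
    exact F.HB_u k

end Fr

end CF.Bv
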