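import Cfsg.Agent.Bv.F1

/-! Fixed vectors of two further subgroups. -/

set_option autoImplicit false
set_option maxHeartbeats 400000

namespace CF.Bv

open Cfsg CF.Leech CF.Comp CF.Mon CF.Mon.G CF.Mon.T CF.Mon.L CF.Mon.W4 CF.Known.Mon CF.Classical
open Module Lab MulAction

variable {K W U : Type*} [Field K] [AddCommGroup W] [Module K W] [AddCommGroup U] [Module K U]
  {A : Rp K W}

theorem Y_oct {o δ : Finset Pt} (ho : o ∈ octads) (h : δ ⊆ o) (hδ : Even δ.card) {p : Lab}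
    (e : p ≈ₗ cls (vT o δ)) : Y0 * p ∉ SS := by
  obtain ⟨i, hi⟩ : o.Nonempty := Finset.card_pos.1 (by rw [(mem_octads.1 ho).2]; norm_num)
  have k : ∀ x : LL, cls x = cls (e8 i) → Y0 * p ≈ₗ cls (x + vT o δ) := fun x a => by
    rw [Y0, mul_assoc, ← cls_e8 i, ← a]
    exact (xc_eqv _).trans (((Eqv.refl _).mul e).trans (cls_add _ _).symm)
  by_cases c : i ∈ δ
  · refine not_SS (.inr ?_) (k _ rfl)
    rw [nm_add, nm_e8, nm_vT ho h hδ, dt_comm, dt_e8, vT_apply ho.1 hδ]; simp [ind, hi, c]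
  · refine not_SS (.inr ?_) (k _ (cls_neg _))
    rw [nm_add, nm_neg, nm_e8, nm_vT ho h hδ, dt_neg_left, dt_comm, dt_e8, vT_apply ho.1 hδ]
    simp [ind, hi, c]

theorem exists_fix {H : Subgroup Gt} {t q : Lab} (hq : pauli q ∈ H) (hb : bf q t = 1) {γ : Gt}
    (h : γ ∈ H) (e : γ • t ≈ₗ t) : ∃ δ ∈ H, gOf δ = gOf γ ∧ δ • t = t :=
  exists_of_lam hq hb h (by rw [← lam_smul, lam_eq_iff.2 e])

theorem Rp.sep (s : Lab) (L : List Lab) (h : ∀ p ∈ L, ¬ (p ≈ₗ s ∨ p ≈ₗ Mon.tA * s)) :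
    ∃ U : Submodule K W, (∀ p ∈ L, A.Wt p ≤ U) ∧ ∀ v ∈ A.Wt s, v ∈ U → v = 0 := by
  classical
  refine ⟨_, fun p a => Finset.le_sup (f := wsp fun q : {q : Lab // bf q Mon.tA = 0} =>
    A.R (pauli q)) (Finset.mem_image_of_mem (fun p (q : {q : Lab // bf q Mon.tA = 0}) =>
      ch K (bf q p)) (List.mem_toFinset.2 a)), Submodule.disjoint_def.1
    (disjoint_wsp_sup _ _ fun k => ?_)⟩
  obtain ⟨p, a, k⟩ := Finset.mem_image.1 k
  exact h p (List.mem_toFinset.1 a) (eqv_of_bf fun q hq => ch_inj A.two (congrFun k ⟨q, hq⟩))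

namespace R0

variable (Z : R0 K U)

/-- the basis -/
noncomputable def B : Basis J1 K U := Basis.mk Z.li Z.top.ge

theorem B_apply (k : J1) : Z.B k = Z.b k := Basis.mk_apply ..

theorem mon_u {σ : M24} (h : Fix σ ∨ Swp σ) (c : C01) {i : Pt} (hi : ¬ In i) :
    Z.α (G.eps c.2.1 * permHom σ) (Z.u i) = ch K ((if σ.1 (pt 0) = pt 0 then 0 else 1) +
      (ib c.1 (pt 0) + ib c.1 (σ.1 i))) • Z.u (σ.1 i) := by
  have k := Z.E_u c (not_in h hi)
  rw [E] at k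
  rcases h with h | h
  · rw [Z.ap c.st h.st, Z.perm σ h.1 h.2 i hi, k, if_pos h.1, zero_add]
  · rw [Z.ap c.st h.st, Z.swap σ h.1 h.2 i hi, map_smul, k, if_neg fun q => p01 (q.symm.trans h.1),
      smul_smul, ← ch_add, Z.eta]

theorem mon_f {σ : M24} (h : Fix σ ∨ Swp σ) (c : C01) : Z.α (G.eps c.2.1 * permHom σ) Z.f =
    ch K (if σ.1 (pt 0) = pt 0 then 0 else 1) • Z.f := by
  rcases h with h | h
  · rw [Z.ap c.st h.st, Z.perm_f h, Z.eps_f _ c.2.2, if_pos h.1, ch_zero, one_smul]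
  · rw [Z.ap c.st h.st, Z.swap_f h, map_neg, Z.eps_f _ c.2.2,
      if_neg fun q => p01 (q.symm.trans h.1), ch_one, neg_one_smul]

theorem co {σ : M24} (h : Fix σ ∨ Swp σ) (c : C01) {i : J1} (hi : ¬ In i) (e : σ.1 i = i) (w : U) :
    Z.B.repr (Z.α (G.eps c.2.1 * permHom σ) w) i = ch K ((if σ.1 (pt 0) = pt 0 then 0 else 1) +
      (ib c.1 (pt 0) + ib c.1 i)) * Z.B.repr w i := by
  classical
  refine LinearMap.congr_fun (Z.B.ext (f₁ := Z.B.coord i ∘ₗ Z.α _) (f₂ := ch K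
    ((if σ.1 (pt 0) = pt 0 then 0 else 1) + (ib c.1 (pt 0) + ib c.1 i)) • Z.B.coord i) fun k => ?_) w
  rw [LinearMap.comp_apply, LinearMap.smul_apply, Basis.coord_apply, Basis.coord_apply,
    Basis.repr_self, B_apply, b]
  by_cases a : k.1 = pt 0
  · have n : k ≠ i := fun q => hi (.inl (q ▸ a))
    rw [if_pos a, Z.mon_f h, ← b_f, ← B_apply, map_smul, Basis.repr_self,
      show (⟨pt 0, p01⟩ : J1) = k from Subtype.ext a.symm]
    simp [n]
  · have n := not_or.2 ⟨a, k.2⟩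
    rw [if_neg a, Z.mon_u h c n, ← Z.b_u (not_in h n), ← B_apply, map_smul, Basis.repr_self]
    by_cases q : k = i
    · subst q; simp [e]
    · have : (⟨σ.1 k, fun r => not_in h n (.inr r)⟩ : J1) ≠ i := fun r =>
        q (Subtype.ext (σ.1.injective ((congrArg Subtype.val r).trans e.symm)))
      simp [q, this]

theorem co0 {σ : M24} (h : Fix σ ∨ Swp σ) (c : C01) {i : J1} (hi : ¬ In i) (e : σ.1 i = i) {w : U}
    (k : Z.α (G.eps c.2.1 * permHom σ) w = ch K (if σ.1 (pt 0) = pt 0 then 0 else 1) • w)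
    (a : ib c.1 (pt 0) + ib c.1 i = 1) : Z.B.repr w i = 0 := by
  have := Z.co h c hi e w
  rw [k, a, ch_add, map_smul, Finsupp.smul_apply, smul_eq_mul, mul_assoc,
    mul_right_inj' (ch_ne _), ch_one, neg_one_mul] at this
  exact eq_zero_of_neg (W := K) Z.two this

theorem of_co {w : U} (h : ∀ i : J1, ¬ In i → Z.B.repr w i = 0) : ∃ c : K, w = c • Z.f := by
  refine ⟨Z.B.repr w ⟨pt 0, p01⟩, ?_⟩
  rw [← b_f, ← B_apply]
  conv_lhs => rw [← Z.B.sum_repr w]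
  exact Finset.sum_eq_single _ (fun k _ a => by
    rw [h k (not_or.2 ⟨fun q => a (Subtype.ext q), k.2⟩), zero_smul]) (by simp)

end R0

def fT (o δ n : ℕ) : ℤ :=
  2 * (if o.testBit n = true then 1 else 0) - 4 * if δ.testBit n = true then 1 else 0

theorem vT_pt {o δ : ℕ} (ho : ofMask o ∈ CS) (hδ : Even (ofMask δ).card) :
    ∀ n < 24, (vT (ofMask o) (ofMask δ) : V) (pt n) = fT o δ n := fun n hn => by
  rw [vT_apply ho hδ, ind, ind, fT]; simp only [pt_mem_ofMask hn]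

theorem oT : ofMask 4196943 ∈ octads := M.oct_of_check (by decide +kernel)

theorem dT : (ofMask 513 ⊆ ofMask 4196943 ∧ Even (ofMask 513).card) ∧
    ofMask 516 ⊆ ofMask 4196943 ∧ Even (ofMask 516).card := by decide +kernel

theorem t2_eq : cls (vT (ofMask 4196943) (ofMask 513)) = lab 58800 ∧
    tB * lab 58800 ≈ₗ cls (vT (ofMask 4196943) (ofMask 516)) := by
  rw [cls_eq_clsF (vT_pt oT.1 dT.1.2), cls_eq_clsF (vT_pt oT.1 dT.2.2)]
  exact ⟨lab_dec (by decide +kernel), by decide +kernel⟩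

theorem t2_SS : lab 58800 ∈ SS := t2_eq.1 ▸ (lT0 oT dT.1.1 dT.1.2).2 (by decide +kernel)

theorem exists_tri {a c : ℕ} (h : (isCode c = true ∧ (c.testBit 0 = true ↔ c.testBit 1 = true)) ∧
    isM24 a = true ∧ ((ap a 0 = 0 ∧ ap a 1 = 1) ∨ (ap a 0 = 1 ∧ ap a 1 = 0)) ∧
    clsF (sgv c fun n => fT 4196943 513 (ap a n)) ≈ₗ lab 58800) : ∃ σ : M24, (Fix σ ∨ Swp σ) ∧
    (∀ i < 24, σ.1 (pt (ap a i)) = pt i) ∧ ∃ γ ∈ PA, γ ∈ Np ∧
      gOf γ = eps (cM c h.1).2.1 * permHom σ ∧ γ • lab 58800 ≈ₗ lab 58800 ∧ γ • tB ≈ₗ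
        clsF (sgv c fun n => (if ap a n = 0 then 4 else 0) - if ap a n = 2 then 4 else 0) := by
  have p : ∀ i < 24, (⟨_, permOf_mem_M24 h.2.1⟩⁻¹ : M24).1 (pt (ap a i)) = pt i := fun i hi =>
    Equiv.Perm.inv_eq_iff_eq.2 (permOf_pt (permCheck_of_isM24 h.2.1) hi).symm
  have p0 := p 0 (by norm_num)
  have p1 := p 1 (by norm_num)
  have s : Fix (⟨_, permOf_mem_M24 h.2.1⟩⁻¹ : M24) ∨ Swp (⟨_, permOf_mem_M24 h.2.1⟩⁻¹ : M24) :=
    h.2.2.1.imp (fun k => by simp only [k.1, k.2] at p0 p1; exact ⟨p0, p1⟩)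
      fun k => by simp only [k.1, k.2] at p0 p1; exact ⟨p1, p0⟩
  obtain ⟨γ, x, y, z⟩ := exists_NA (mul_mem (cM c h.1).st (s.elim Fix.st Swp.st))
    (mul_mem (mono_mem _ _) (permHom_mem _))
  refine ⟨_, s, p, γ, x, y, z, ?_, ?_⟩
  · have := smul_cls γ (vT (ofMask 4196943) (ofMask 513))
    rw [t2_eq.1, z, mul_smul] at this
    exact (this.trans (eqv_iff.2 (.inl (cls_eps (m := c) _
      (inv_pt h.2.1 (vT_pt oT.1 dT.1.2)))))).trans h.2.2.2
  · have := smul_cls γ uB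
    rw [cls_uB, z, mul_smul] at this
    exact this.trans (eqv_iff.2 (.inl (cls_eps (m := c) _ (inv_pt h.2.1 fun _ =>
      m4_pt 0 2 (by norm_num) (by norm_num)))))

theorem tri_ck : ∀ i, ¬ In i →
    (ap 0xbdab49ca307b9ac5a928398a418820 (idx i) = idx i ∧ sg 12580272 i = 1) ∨
    (ap 0x6daa794df08b2ee5a12aa0ca430801 (idx i) = idx i ∧ sg 9347075 i = 1) ∨
    (ap 0x6d8ae7c6509d2e74a96861aa418801 (idx i) = idx i ∧ sg 5652556 i = 1) := by decide +kernel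

namespace Fr

variable (F : Fr A)
include F

theorem fix_V3 {v : W} (h : ∀ n ∈ PA, n • Y0 = Y0 →
    n • (Z 0 * Z 1 * Z 2 * Z 3) = Z 0 * Z 1 * Z 2 * Z 3 → A.R n v = v) : v = 0 := by
  have p23 : pt 2 ≠ pt 3 := by decide
  have e : Z 0 * Z 1 * Z 2 * Z 3 = tA * mm (pt 2) (pt 3) := by
    rw [mul_assoc, ← mm_Z (i := 2) (j := 3) (by decide) (by decide)]; rfl
  have z : mm (pt 2) (pt 3) = Z 2 * Z 3 := mm_Z (i := 2) (j := 3) (by decide) (by decide)
  have h : ∀ n ∈ PA, n ∈ Np → n • mm (pt 2) (pt 3) = mm (pt 2) (pt 3) → A.R n v = v :=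
    fun n a b c => h n a b (by rw [e, smul_mul', mem_PA.1 a, c])
  have m := Rp.WS_cons (A := A) [Y0] (mm (pt 2) (pt 3)) 1 (x := v) (Rp.mem_WS.2 fun q a b => by
    rw [h _ (pauli_PA.2 a) (pauli_mem_stab.2 (b _ (by simp))) (pauli_mem_stab.2 (b _ (by simp))),
      bf_one', ch_zero, one_smul])
  have b := Rp.WS_cons (A := A) [] Y0 (mm (pt 2) (pt 3) * 1)
  rw [Rp.WS_nil, Rp.WS_nil, mul_one, F.fe.bot (mm _ _) (mt (lB0 p23).1.1 (by simp [n2, n3]))
    (by rw [z]; decide +kernel) (by rw [z]; decide +kernel), F.fe.bot _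
      (fun k => (lB0 p23).2.1 (SS.congr k (Y_mm _ _).symm) (by simp [n2, n3]))
      (by rw [z]; decide +kernel) (by rw [z]; decide +kernel), sup_bot_eq, le_bot_iff] at b
  rw [mul_one, b, sup_bot_eq] at m
  have m := F.fe.WS_Y m
  have k : ∀ g ∈ St, g ∈ Mon → g • red (m4 (pt 2) (pt 3)) = red (m4 (pt 2) (pt 3)) →
      F.z.α g ⟨v, m⟩ = ⟨v, m⟩ := fun g a b c => Subtype.ext (by
    obtain ⟨γ, x, y, rfl⟩ := exists_NA a b
    obtain ⟨δ, d, f, l⟩ := exists_fix (H := PA ⊓ Np) (t := mm (pt 2) (pt 3)) (q := X 2)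
      ⟨pauli_PA.2 bf_2A, pauli_mem_Np.2 rfl⟩ (by rw [z]; decide +kernel) ⟨x, y⟩
      ((smul_eqv_iff (Eqv.refl _) (Eqv.refl _)).2 c)
    rw [← f, F.act δ d.1, h δ d.1 d.2 l])
  obtain ⟨c, f⟩ := F.z.fix5 (v := ⟨v, m⟩) fun j => k _ (c5 j).st (mono_mem _ _)
    (mono_m4' _ (c5 j).2.1 rfl rfl (by revert j; decide +kernel))
  have := k _ pX_swp.st (permHom_mem _) (by
    rw [← red_smul, perm_m4, pX_pt.2.2.1, pX_pt.2.2.2.1, m4_swap, red_neg])
  rw [f, map_smul, F.z.swap_f pX_swp, smul_neg, ← f] at this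
  exact congrArg Subtype.val (eq_zero_of_neg A.two this.symm)

theorem tri_one {g b : Gt} (hg : g ∈ PA) (hb : b ∈ PB) (g2 : g • (Y0 * tA * tB) = tB)
    (g3 : g • lab 58800 = lab 58800)
    {v : W} (h : ∀ n ∈ PB, n • Y0 = Y0 → n • lab 58800 = lab 58800 → A.R n v = v)
    (h1 : A.R g v = -v) (h2 : A.R b v = -v) : v ∈ A.Wt 1 := by
  have m := Rp.WS_cons (A := A) [tB, Y0] (lab 58800) 1 (x := v) (Rp.mem_WS.2 fun q a b => by
    simp only [List.forall_mem_cons] at b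
    rw [h _ ⟨pauli_PA.2 a, pauli_mem_stab.2 b.2.1⟩ (pauli_mem_stab.2 b.2.2.1)
      (pauli_mem_stab.2 b.1), bf_one', ch_zero, one_smul])
  have w0 : ∀ s, A.WS [Y0] s ≤ A.Wt s ⊔ A.Wt (Y0 * s) := fun s => by
    simpa only [Rp.WS_nil] using Rp.WS_cons (A := A) [] Y0 s
  have w : ∀ s, A.WS [tB, Y0] s ≤
      (A.Wt s ⊔ A.Wt (Y0 * s)) ⊔ (A.Wt (tB * s) ⊔ A.Wt (Y0 * (tB * s))) := fun s =>
    (Rp.WS_cons _ _ _).trans (sup_le_sup (w0 _) (w0 _))
  have m := sup_le_sup (w _) (w _) m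
  rw [mul_one, mul_one, mul_one, F.fe.Y0_bot, sup_bot_eq,
    F.fe.bot (Y0 * lab 58800) (Y_oct oT dT.1.1 dT.1.2 (t2_eq.1 ▸ Eqv.refl _)) (by decide +kernel)
      (by decide +kernel),
    F.fe.bot (tB * lab 58800) (fun k => absurd ((lT0 oT dT.2.1 dT.2.2).1 (SS.congr k t2_eq.2.symm))
      (by decide +kernel)) (by decide +kernel) (by decide +kernel),
    F.fe.bot (Y0 * (tB * lab 58800)) (Y_oct oT dT.2.1 dT.2.2 t2_eq.2) (by decide +kernel)
      (by decide +kernel), sup_bot_eq, sup_bot_eq, sup_bot_eq] at m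
  obtain ⟨x, hx, y3, a3, rfl⟩ := Submodule.mem_sup.1 m
  obtain ⟨y0, a0, x', hx', rfl⟩ := Submodule.mem_sup.1 hx
  obtain ⟨y1, a1, y2, a2, rfl⟩ := Submodule.mem_sup.1 hx'
  have two : ∀ {y : W}, y + y = 0 → y = 0 := fun k =>
    eq_zero_of_neg A.two (eq_neg_of_add_eq_zero_left k)
  have i1 : b⁻¹ • tA = tA := (inv_mem hb).1
  have i2 : b⁻¹ • tB = tB := (inv_mem hb).2
  have nb : ∀ p, ¬ (p ≈ₗ tB ∨ p ≈ₗ tA * tB) → ¬ (b • p ≈ₗ tB ∨ b • p ≈ₗ tA * tB) :=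
    fun p k l => k (l.imp (fun q => by simpa [i2] using q.smul b⁻¹)
      fun q => by simpa [smul_mul', i1, i2] using q.smul b⁻¹)
  obtain rfl : y1 = 0 := by
    obtain ⟨c, rfl⟩ := F.fe.line _ tB_SS _ a1
    obtain ⟨U, u1, u2⟩ := Rp.sep (A := A) tB
      [1, Y0 * tB, lab 58800, b • (Y0 * tB), b • lab 58800] (by
        simp only [List.forall_mem_cons]
        exact ⟨by decide +kernel, by decide +kernel, by decide +kernel, nb _ (by decide +kernel),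
          nb _ (by decide +kernel), by simp⟩)
    simp only [List.forall_mem_cons] at u1
    simp only [map_add, map_smul, F.fe.smul b hb.1 _ tB_SS, show b • tB = tB from hb.2] at h2
    refine two (u2 _ (add_mem a1 a1) ?_)
    rw [show c • F.e tB + c • F.e tB = -(y0 + A.R b y0 + y2 + y3 + A.R b y2 + A.R b y3) by
      linear_combination (norm := module) h2]
    exact neg_mem (add_mem (add_mem (add_mem (add_mem (u1.1 (add_mem a0
      (Rp.Wt_one_map hb.1 a0))) (u1.2.1 a2)) (u1.2.2.1 a3))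
      (u1.2.2.2.1 (Rp.Wt_map hb.1 a2))) (u1.2.2.2.2.1 (Rp.Wt_map hb.1 a3)))
  have b2 : A.R g y2 ∈ A.Wt tB := by
    rw [mul_assoc, Y0_tA, smul_mul', mem_PA.1 hg] at g2
    exact g2 ▸ (Rp.Wt_tA _).ge (Rp.Wt_map hg a2)
  have b3 : A.R g y3 = y3 := by
    obtain ⟨c, rfl⟩ := F.fe.line _ t2_SS _ a3
    rw [map_smul, F.fe.smul g hg _ t2_SS, g3]
  have b0 := add_mem a0 (Rp.Wt_one_map hg a0)
  simp only [map_add, zero_add, b3] at h1
  obtain rfl : y3 = 0 := by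
    obtain ⟨U, u1, u2⟩ := Rp.sep (A := A) (lab 58800) [1, tB, Y0 * tB] (by
      simp only [List.forall_mem_cons]
      exact ⟨by decide +kernel, by decide +kernel, by decide +kernel, by simp⟩)
    refine two (u2 _ (add_mem a3 a3) ?_)
    rw [show y3 + y3 = -(y0 + A.R g y0 + A.R g y2 + y2) by linear_combination (norm := module) h1]
    simp only [List.forall_mem_cons] at u1
    exact neg_mem (add_mem (add_mem (u1.1 b0) (u1.2.1 b2)) (u1.2.2.1 a2))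
  obtain rfl : y2 = 0 := by
    obtain ⟨U, u1, u2⟩ := Rp.sep (A := A) (Y0 * tB) [1, tB] (by
      simp only [List.forall_mem_cons]
      exact ⟨by decide +kernel, by decide +kernel, by simp⟩)
    refine u2 _ a2 ?_
    rw [show y2 = -(y0 + A.R g y0 + A.R g y2) by linear_combination (norm := module) h1]
    simp only [List.forall_mem_cons] at u1
    exact neg_mem (add_mem (u1.1 b0) (u1.2.1 b2))
  simpa using a0

theorem fix_tri {g b : Gt} (hg : g ∈ PA) (hb : b ∈ PB)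
    (g1 : g • tB = Y0 * tA * tB) (g2 : g • (Y0 * tA * tB) = tB) (g3 : g • lab 58800 = lab 58800)
    {v : W} (h : ∀ n ∈ PB, n • Y0 = Y0 → n • lab 58800 = lab 58800 → A.R n v = v)
    (h1 : A.R g v = -v) (h2 : A.R b v = -v) : ∀ n ∈ PB ⊓ Np, A.R n v = v := by
  have m := F.tri_one hg hb g2 g3 h h1 h2
  have gN := mem_Np_of_swap hg g1 g2
  have k : ∀ γ ∈ PA, γ ∈ Np → γ • tB ≈ₗ tB → γ • lab 58800 ≈ₗ lab 58800 → A.R γ v = v :=
    fun γ x y c d => by
      obtain ⟨δ, a1, b1, c1⟩ := exists_fix (H := PA ⊓ Np) (q := X 2)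
        ⟨pauli_PA.2 bf_2A, pauli_mem_Np.2 rfl⟩ bf_2B ⟨x, y⟩ c
      obtain ⟨ε, a2, b2, c2⟩ := exists_fix (H := PB ⊓ Np) (t := lab 58800) (q := X 3)
        ⟨⟨pauli_PA.2 (by decide +kernel), pauli_mem_stab.2 (by decide +kernel)⟩,
          pauli_mem_Np.2 rfl⟩ (by decide +kernel) ⟨⟨a1.1, c1⟩, a1.2⟩
        (lam_eq_iff.1 (by rw [lam_smul, b1, ← lam_smul, lam_eq_iff.2 d]))
      rw [← Rp.Wt_one_congr a2.1.1 x (b2.trans b1) m, h ε a2.1 a2.2 c2]
  have k' : ∀ γ ∈ PA, γ ∈ Np → γ • tB ≈ₗ Y0 * tA * tB → γ • lab 58800 ≈ₗ lab 58800 →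
      A.R γ v = -v := fun γ x y c d => by
    rw [← h1, ← k (g⁻¹ * γ) (mul_mem (inv_mem hg) x) (mul_mem (inv_mem gN) y)
      (by simpa [mul_smul, ← g1] using c.smul g⁻¹)
      (by simpa [mul_smul, inv_smul_eq_iff.2 g3.symm] using d.smul g⁻¹),
      ← Rp.mul_apply hg (mul_mem (inv_mem hg) x), mul_inv_cancel_left,
      k (g⁻¹ * γ) (mul_mem (inv_mem hg) x) (mul_mem (inv_mem gN) y)
      (by simpa [mul_smul, ← g1] using c.smul g⁻¹)
      (by simpa [mul_smul, inv_smul_eq_iff.2 g3.symm] using d.smul g⁻¹)]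
  have kill : ∀ a c h, (∀ γ ∈ PA, γ ∈ Np → γ • tB ≈ₗ clsF (sgv c fun n =>
      (if ap a n = 0 then 4 else 0) - if ap a n = 2 then 4 else 0) → γ • lab 58800 ≈ₗ lab 58800 →
      A.R γ v = ch K (if ap a 0 = 0 then 0 else 1) • v) → ∀ i : J1, ¬ In i →
      ap a (idx i) = idx i ∧ sg c i = 1 → F.z.B.repr ⟨v, m⟩ i = 0 := fun a c h f i hi e => by
    obtain ⟨σ, s, p, γ, x, y, z, t, u⟩ := exists_tri (a := a) (c := c) h
    have q := p _ (idx_lt i)
    rw [e.1, pt_idx] at q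
    refine F.z.co0 s (cM c h.1) hi q (Subtype.ext ?_) ((ib_sg ..).trans e.2)
    rw [← z, F.act γ x, f γ x y u t, Submodule.coe_smul]
    have := p 0 (by norm_num)
    rcases h.2.2.1 with k | k <;> rw [k.1] at this ⊢
    · rw [if_pos rfl, if_pos this]
    · rw [if_neg one_ne_zero, if_neg fun l => p01 (σ.1.injective (l.trans this.symm))]
  obtain ⟨c, e⟩ := F.z.of_co (w := ⟨v, m⟩) fun i hi => by
    rcases tri_ck i hi with a | a | a
    · exact kill _ _ (by decide +kernel) (fun γ x y z t => by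
        rw [k γ x y (z.trans (by decide +kernel)) t]; exact (one_smul _ _).symm) i hi a
    · exact kill _ _ (by decide +kernel) (fun γ x y z t => by
        rw [k' γ x y (z.trans (by decide +kernel)) t]; exact (neg_one_smul _ _).symm) i hi a
    · exact kill _ _ (by decide +kernel) (fun γ x y z t => by
        rw [k' γ x y (z.trans (by decide +kernel)) t]; exact (neg_one_smul _ _).symm) i hi a
  intro n hn
  rw [show v = c • (F.z.f : W) from congrArg Subtype.val e, map_smul, F.HB_f hn]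

end Fr

end CF.Bv
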