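import Cfsg.Agent.Bv.B

/-! The second Conway group is generated by its monomial part and the tetrad involution. -/

set_option autoImplicit false
set_option maxHeartbeats 400000

namespace CF.Bv

open Cfsg CF.Leech CF.Comp CF.Mon CF.Mon.G CF.Mon.T CF.Mon.L CF.Mon.W4 CF.Known.Mon CF.Classical
open Module Lab MulAction CF.Leech.MD
open scoped Pointwise

theorem eps_vX {c d : Finset Pt} (hc : c ∈ CS) (hd : d ∈ CS) (i : Pt) : eps hc • vX i d = vX i (symmDiff c d) :=
  LL.ext fun k => by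
    rw [eps_apply, vX_apply i hd, vX_apply i (symmDiff_mem_CS hc hd)]
    by_cases a : k ∈ c <;> by_cases b : k ∈ d <;> simp [ind, a, b, Finset.mem_symmDiff] <;> split_ifs <;> norm_num

/-- one step on packed vectors -/
noncomputable def stq (f : ℕ → ℤ) (n : ℕ) : ℤ := xiF (fun p => f (ap Dg.a22 (ap ordC p))) (ap ordI n)

theorem g_ck : isCode 4306235 = true ∧ ∀ n < 24, stq (stq fun n => xiF (fun p => (if ap ordC p = 0 then 4 else 0) +
    if ap ordC p = 1 then 4 else 0) (ap ordI n)) n =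
    (1 - 2 * if (4306235 : ℕ).testBit n = true then 1 else 0) * if n = 3 then -3 else 1 := by decide +kernel

theorem genSt {H : Subgroup Co0} (h1 : St ⊓ Mon ≤ H) (h2 : xi ∈ H) : St ≤ H := by
  have m : ∀ {σ}, Fix σ → permHom σ ∈ H ⊓ St := fun {σ} s => ⟨h1 ⟨s.st, mono_mem σ.2 empty_mem_CS⟩, s.st⟩
  have x : xi ∈ H ⊓ St := ⟨h2, xi_St⟩
  have p := permCheck_of_isM24 Dg.ab22.1.1
  have a := inv_mem (m (σ := ⟨_, permOf_mem_M24 Dg.ab22.1.1⟩) ⟨(permOf_pt p (by norm_num)).trans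
    (congrArg pt Dg.ab22.1.2.1), (permOf_pt p (by norm_num)).trans (congrArg pt Dg.ab22.1.2.2)⟩)
  rw [← map_inv] at a
  have d := ofMask_mem_CS g_ck.1
  have pe : ∀ {n k : ℕ}, n < 24 → k < 24 → (pt n = pt k ↔ n = k) := fun a b => ⟨pt_inj a b, congrArg _⟩
  have b : ∃ g ∈ H ⊓ St, g • p4 (pt 0) (pt 1) = vX (pt 3) (ofMask 4306235) :=
    ⟨_, mul_mem x (mul_mem a (mul_mem x (mul_mem a x))), LL.ext (forall_pt.2 fun n hn => by
      simp only [mul_smul]
      rw [vX_apply _ d, ind]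
      simp only [pt_mem_ofMask hn, pe hn (by norm_num : 3 < 24)]
      exact (xi_pt (inv_pt Dg.ab22.1.1 (xi_pt (inv_pt Dg.ab22.1.1 (xi_pt (f := fun n => (if n = 0 then 4 else 0) + if n = 1 then 4 else 0)
        fun k hk => by simp only [p4_apply, pe hk (by norm_num : 0 < 24), pe hk (by norm_num : 1 < 24)])))) n hn).trans
        (g_ck.2 n hn))⟩
  obtain ⟨g, g1, g2⟩ := b
  have o : ∀ i, ¬ In i → ∀ c ∈ CS, pt 0 ∉ c → pt 1 ∉ c → red uA + red (vX i c) ∈ orbIn (H ⊓ St) w8 :=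
    fun i n c hc c0 c1 => by
      obtain ⟨σ, s1, s2⟩ := Mat.M24_multi (k := 3) (by norm_num) ![pt 0, pt 1, pt 3] ![pt 0, pt 1, i] (by decide) (by
        simp only [Matrix.vecCons, Fin.cons_injective_iff, Fin.range_cons, Set.range_eq_empty, Set.mem_insert_iff,
          Set.mem_empty_iff_false, not_or, Function.injective_of_subsingleton, not_false_eq_true, and_true]
        exact ⟨⟨p01, fun q => n (.inl q.symm)⟩, fun q => n (.inr q.symm)⟩)
      have s : Fix ⟨σ, s1⟩ := ⟨s2 0, s2 1⟩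
      have e := symmDiff_mem_CS hc (smul_mem_CS s1 d)
      have k := fun j => Finset.smul_mem_smul_finset_iff (s := ofMask 4306235) (b := j) σ
      have u : σ • pt 0 = pt 0 ∧ σ • pt 1 = pt 1 := s
      have q := eps_St e (by
        have k0 := k (pt 0)
        have k1 := k (pt 1)
        rw [u.1, pt_mem_ofMask (by norm_num)] at k0
        rw [u.2, pt_mem_ofMask (by norm_num)] at k1
        simp only [Finset.mem_symmDiff, c0, c1, k0, k1]
        decide)
      have r := mul_mem (mul_mem (⟨h1 ⟨q, mono_mem _ _⟩, q⟩ : _ ∈ H ⊓ St) (m s)) g1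
      refine ⟨_, r, ?_⟩
      rw [← red_e8' (pt 1), ← sub_sub_cancel (p4 (pt 0) (pt 1)) (e8 (pt 1)), ← red_smul, smul_sub, red_sub, add_comm,
        red_smul _ (_ - _), mul_smul _ g (p4 _ _), mul_smul _ _ (g • p4 _ _), g2, perm_vX _ _ d, eps_vX _ (smul_mem_CS s1 d), symmDiff_assoc,
        symmDiff_self, symmDiff_bot, show σ (pt 3) = i from s2 2]
      exact congrArg (· + _) r.2
  have l : ({i | ¬ In i} ×ˢ {c | c ∈ CS ∧ pt 0 ∉ c ∧ pt 1 ∉ c}).ncard ≤ (orbIn (H ⊓ St) w8).ncard :=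
    Set.ncard_le_ncard_of_injOn (fun q => red uA + red (vX q.1 q.2)) (fun q r => o _ r.1 _ r.2.1 r.2.2.1 r.2.2.2)
      (fun q r s t e => by
        rcases eq_or_neg_of_red (by rw [nm_vX _ r.2.1]; norm_num) (by rw [nm_vX _ t.2.1]; norm_num)
          (add_left_cancel e) with e | e
        · exact Prod.ext (Dg.vX_inj r.2.1 t.2.1 e).1 (Dg.vX_inj r.2.1 t.2.1 e).2
        · rw [← vX_compl _ t.2.1] at e
          exact (r.2.2.1 ((Dg.vX_inj r.2.1 (compl_mem_CS t.2.1) e).2 ▸ Finset.mem_compl.2 t.2.2.1)).elim)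
      (orbIn_finite _ _)
  rw [Set.ncard_prod, ncard_CS (P := fun m => !m.testBit 0 && !m.testBit 1) (fun m _ => by
    simp [pt_mem_ofMask (by norm_num : 0 < 24), pt_mem_ofMask (by norm_num : 1 < 24)]),
    show ({i | ¬ In i} : Set Pt).ncard = 22 by rw [Set.ncard_eq_toFinset_card']; decide,
    show cntLt 4096 _ = 1024 by decide +kernel] at l
  have c := card_eq_orb_mul (H ⊓ St) w8
  rw [stab_w8, show H ⊓ St ⊓ Mon = St ⊓ Mon from le_antisymm (inf_le_inf_right _ inf_le_right)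
    (le_inf (le_inf h1 inf_le_left) inf_le_right), card_mon_A] at c
  obtain ⟨k, hk⟩ := Subgroup.card_dvd_of_le (inf_le_right : H ⊓ St ≤ St)
  have hk' := hk
  rw [card_map_PA, c] at hk'
  have : (orbIn (H ⊓ St) w8).ncard * k = 46575 := by linarith
  obtain rfl : k = 1 := by
    have : k < 3 := by by_contra q; nlinarith
    interval_cases k <;> omega
  exact (Subgroup.eq_of_le_of_card_ge inf_le_right (hk.trans (mul_one _)).le).ge.trans inf_le_left

end CF.Bv
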