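import Cfsg.Agent.Bv.B
import Cfsg.Agent.S1577
import Cfsg.Agent.S0283
import Cfsg.Agent.S0380
import Cfsg.Agent.S0249

/-! Perfect quotients of the parabolic subgroups. -/

set_option autoImplicit false
set_option maxHeartbeats 400000

namespace CF.Bv

open Cfsg CF.Leech CF.Comp CF.Mon CF.Mon.G CF.Mon.T CF.Mon.L CF.Mon.W4 CF.Known.Mon CF.Classical
open Module Lab MulAction Subgroup
open scoped commutatorElement

section gen
variable {G M K : Type*} [Group G] [Group M] [Field K]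

theorem perf_simple [Finite M] [IsSimpleGroup M] (h : ¬ (Nat.card M).Prime) : commutator M = ⊤ :=
  (Normal.eq_bot_or_eq_top inferInstance).resolve_left fun e => by
    letI : CommGroup M := { (inferInstance : Group M) with
      mul_comm := fun x y => commutatorElement_eq_one_iff_mul_comm.1
        (e.le (commutator_mem_commutator trivial trivial)) }
    exact h (IsSimpleGroup.prime_card (α := M))

theorem le_comm_sup {L N : Subgroup G} (φ : L →* M) (hs : Function.Surjective φ)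
    (hM : commutator M = ⊤) (hk : ∀ a : L, φ a = 1 → (a : G) ∈ N) : L ≤ ⁅L, L⁆ ⊔ N := fun a ha => by
  have t : (commutator L).map φ = ⊤ := by
    rw [commutator_def, map_commutator, map_top_of_surjective _ hs]; exact hM
  obtain ⟨b, hb, e⟩ := t.ge (mem_top (φ ⟨a, ha⟩))
  have m : b.1 ∈ ⁅L, L⁆ := map_subtype_commutator L ▸ mem_map_of_mem _ hb
  rw [← inv_mul_eq_one, ← map_inv, ← map_mul] at e
  exact (mul_mem_cancel_left (inv_mem (mem_sup_left m))).1 (mem_sup_right (hk _ e))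

theorem le_comm {L : Subgroup G} (h : commutator L = ⊤) : L ≤ ⁅L, L⁆ := by
  simpa using le_comm_sup (N := ⊥) (MonoidHom.id L) Function.surjective_id h fun a e =>
    congrArg Subtype.val e

/-- the kernel of a character -/
theorem exists_ker {H : Subgroup G} (χ : G → K) (hm : ∀ a ∈ H, ∀ b ∈ H, χ (a * b) = χ a * χ b)
    (h1 : χ 1 = 1) : ∃ N : Subgroup G, (∀ a, a ∈ N ↔ a ∈ H ∧ χ a = 1) ∧ ⁅H, H⁆ ≤ N := by
  have i : ∀ a ∈ H, χ a * χ a⁻¹ = 1 := fun a h => by rw [← hm a h _ (inv_mem h), mul_inv_cancel, h1]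
  refine ⟨{ carrier := {a | a ∈ H ∧ χ a = 1}
            mul_mem' := fun x y => ⟨mul_mem x.1 y.1, by rw [hm _ x.1 _ y.1, x.2, y.2, mul_one]⟩
            one_mem' := ⟨one_mem _, h1⟩
            inv_mem' := fun x => ⟨inv_mem x.1, by simpa [x.2] using i _ x.1⟩ },
    fun _ => Iff.rfl, commutator_le.2 fun a x b y => ⟨mul_mem (mul_mem (mul_mem x y) (inv_mem x))
      (inv_mem y), ?_⟩⟩
  rw [commutatorElement_def, hm _ (mul_mem (mul_mem x y) (inv_mem x)) _ (inv_mem y),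
    hm _ (mul_mem x y) _ (inv_mem x), hm _ x _ y]
  linear_combination χ b * χ b⁻¹ * i a x + i b y

end gen

variable {K : Type*} [Field K]

theorem perf_St2 : commutator (St2 uA uB) = ⊤ := by
  letI := Fintype.ofFinite (GaloisField 2 2)
  have c4 : Fintype.card (GaloisField 2 2) = 4 := by
    rw [← Nat.card_eq_fintype_card, GaloisField.card 2 2 two_ne_zero]; rfl
  obtain ⟨e⟩ := Cfsg.Agent.S1577.result uA (-uB) nm_uA ((nm_neg _).trans nm_uB)
    ((dt_neg_right _ _).trans (by rw [dt_uA_uB])) _ c4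
  replace e := (MulEquiv.subgroupCongr (St2_neg uA uB)).symm.trans e
  have := Cfsg.Agent.S0283.result (q := 2) c4 6 (by omega) (by omega)
  have := e.isSimpleGroup
  refine perf_simple ?_
  rw [Nat.card_congr e.toEquiv,
    CF.Leech.Psu.card_psu (s := 9196830720) c4 (by decide) (by decide +kernel)]
  norm_num

theorem PB_char (χ : Gt → K) (hm : ∀ a ∈ PB, ∀ b ∈ PB, χ (a * b) = χ a * χ b) (h1 : χ 1 = 1)
    (hk : χ kap = 1) (hp : ∀ p, pauli p ∈ PB → χ (pauli p) = 1) {a : Gt} (ha : a ∈ PB) : χ a = 1 := by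
  obtain ⟨N, m, c⟩ := exists_ker χ hm h1
  have s : St2 uA uB ≤ PB.map gOf := fun g h => map_PB.ge
    ⟨show g • _ = _ by rw [← red_smul, h.1], show g • _ = _ by rw [← red_smul, h.2]⟩
  have t : St2 uA uB ≤ N.map gOf := (le_comm perf_St2).trans ((commutator_mono s s).trans
    ((map_commutator _ _ _).ge.trans (map_mono c)))
  refine ((m a).1 ((eq_of_map_comap (K := N) (H := PB) (fun g h => ?_) (fun a h => ((m a).1 h).1)
    fun p h => (m _).2 ⟨h, hp p h⟩).ge ha)).2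
  rw [map_PB] at h
  have d := co_dt g uA uB
  have k := dt_uA_uB
  rcases (smul_red_iff (by rw [nm_uA]; norm_num)).1 h.1 with e | e <;>
    rcases (smul_red_iff (by rw [nm_uB]; norm_num)).1 h.2 with f | f
  · exact t ⟨e, f⟩
  · rw [e, f, dt_neg_right] at d; omega
  · rw [e, f, dt_neg_left] at d; omega
  · exact (mul_mem_cancel_left (show negCo ∈ N.map gOf from
      ⟨kap, (m _).2 ⟨⟨kap_PA, kap_mem_stab _⟩, hk⟩, gOf_kap⟩)).1 (t (mem_St2.2
        ⟨by rw [mul_smul, e, negCo_smul, neg_neg], by rw [mul_smul, f, negCo_smul, neg_neg]⟩))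

/-- the stabilisers of two and of three points -/
def F2 : Subgroup M24 := stabilizer M24 (pt 0) ⊓ stabilizer M24 (pt 1)
def F3 : Subgroup M24 := F2 ⊓ stabilizer M24 (pt 2)

theorem mem_F2 {σ : M24} : σ ∈ F2 ↔ Fix σ := Iff.rfl
theorem mem_F3 {σ : M24} : σ ∈ F3 ↔ Fix σ ∧ σ.1 (pt 2) = pt 2 := Iff.rfl

theorem exists_F2 : Nonempty (F2 ≃* Spor.M22) := by
  obtain ⟨g, hg, g0, g1⟩ := Mat.M24_two (p := none) (q := some 0) (p' := pt 0) (q' := pt 1)
    (by simp) p01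
  exact ⟨{ toFun := fun σ => ⟨g⁻¹ * σ.1.1 * g, ⟨M24.mul_mem (M24.mul_mem (M24.inv_mem hg) σ.1.2) hg,
              show g⁻¹ (σ.1.1 (g none)) = none by rw [g0, (mem_F2.1 σ.2).1, ← g0]; simp⟩,
              show g⁻¹ (σ.1.1 (g (some 0))) = some 0 by rw [g1, (mem_F2.1 σ.2).2, ← g1]; simp⟩
           invFun := fun σ => ⟨⟨g * σ.1 * g⁻¹, mul_mem (mul_mem hg σ.2.1.1) (inv_mem hg)⟩,
              show g (σ.1 (g⁻¹ (pt 0))) = pt 0 by
                rw [Equiv.Perm.inv_eq_iff_eq.2 g0.symm, ← g0]; exact congrArg g σ.2.1.2,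
              show g (σ.1 (g⁻¹ (pt 1))) = pt 1 by
                rw [Equiv.Perm.inv_eq_iff_eq.2 g1.symm, ← g1]; exact congrArg g σ.2.2⟩
           left_inv := fun σ => Subtype.ext (Subtype.ext (by simp [mul_assoc]))
           right_inv := fun σ => Subtype.ext (by simp [mul_assoc])
           map_mul' := fun σ τ => Subtype.ext (by simp [mul_assoc]) }⟩

theorem perf_M22 : commutator Spor.M22 = ⊤ :=
  haveI := Mat.isSimpleGroup_M22
  perf_simple (by rw [Mat.card_M22]; norm_num)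

theorem perf_F2 : commutator F2 = ⊤ := by
  obtain ⟨e⟩ := exists_F2
  have := Mat.isSimpleGroup_M22
  have := e.isSimpleGroup
  exact perf_simple (by rw [Nat.card_congr e.toEquiv, Mat.card_M22]; norm_num)

theorem perf_F3 : commutator F3 = ⊤ := by
  letI := Fintype.ofFinite (GaloisField 2 2)
  have c4 : Fintype.card (GaloisField 2 2) = 4 := by
    rw [← Nat.card_eq_fintype_card, GaloisField.card 2 2 two_ne_zero]; rfl
  obtain ⟨e⟩ := Cfsg.Agent.S0380.result (pt 0) (pt 1) (pt 2) p01 p02 p12 _ c4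
  have := Cfsg.Agent.S0249.result (F := GaloisField 2 2) 3 le_rfl
  have : IsSimpleGroup F3 := e.isSimpleGroup
  refine perf_simple ?_
  rw [show F3 = stabilizer M24 ((pt 0, pt 1), pt 2) from Subgroup.ext fun σ => by
    simp [F3, F2, Prod.ext_iff], card_M21]
  norm_num

theorem M22_char (χ : M24 → K) (hm : ∀ a, Fix a → ∀ b, Fix b → χ (a * b) = χ a * χ b) (h1 : χ 1 = 1)
    {a : M24} (ha : Fix a) : χ a = 1 :=
  let ⟨_, m, c⟩ := exists_ker (H := F2) χ hm h1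
  ((m a).1 (c (le_comm perf_F2 ha))).2

theorem np_eq {n : Gt} (h : n ∈ Np) {σ : M24} {c : Finset Pt} {hc : c ∈ CS}
    (e : gOf n = eps hc * permHom σ) : npPerm ⟨n, h⟩ = σ :=
  npPerm_eq (γ := ⟨n, h⟩) (e.trans (mono_eq σ.2 hc).symm)

theorem RS_iff {n : Gt} (h : n ∈ Np) : n ∈ RS ↔ npPerm ⟨n, h⟩ = 1 :=
  ⟨fun a => (mem_Sg' _).1 a.2, fun a => ⟨h, (mem_Sg' _).2 a⟩⟩

/-- lifts of permutations that commute with the triality element -/
theorem exists_C0A {σ : M24} (h : Fix σ ∨ Swp σ) : ∃ γ ∈ C0, γ ∈ PA ∧ gOf γ = permHom σ := by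
  obtain ⟨γ, a, b⟩ := exists_C0 σ
  refine ⟨γ, a, show γ • tA = tA from ?_, b⟩
  rw [← cls_uA, uA, C0_smul_cls a (four_m4 _ _), b, perm_m4]
  rcases h with h | h <;> rw [h.1, h.2]
  exact Dg.cls_m4_comm _ _

theorem exists_Swp : ∃ σ, Swp σ :=
  let ⟨g, a, b⟩ := Mat.M24_two p01 p01.symm; ⟨⟨g, a⟩, b⟩

theorem exists_N0 : ∃ (L : Subgroup Gt) (φ : L →* Spor.M22), (L : Set Gt) = N0 ∧
    L.relIndex (PA ⊓ Np) = 2 ∧ Function.Surjective φ ∧ (∀ a : L, φ a = 1 ↔ (a : Gt) ∈ RS ⊓ PA) ∧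
    L ≤ ⁅L, L⁆ ⊔ RS ⊓ PA := by
  obtain ⟨e⟩ := exists_F2
  let L : Subgroup Gt := (F2.comap npPerm).map Np.subtype ⊓ PA
  have m : ∀ {n} (h : n ∈ Np), n ∈ L ↔ Fix (npPerm ⟨n, h⟩) ∧ n ∈ PA := fun h =>
    ⟨fun ⟨⟨_, a, b⟩, c⟩ => by subst b; exact ⟨a, c⟩, fun a => ⟨⟨⟨_, h⟩, a.1, rfl⟩, a.2⟩⟩
  have le : L ≤ Np := inf_le_left.trans (map_subtype_le _)
  let ψ : L →* F2 := (npPerm.comp (inclusion le)).codRestrict _ fun n => ((m (le n.2)).1 n.2).1
  have s : Function.Surjective (e.toMonoidHom.comp ψ) := e.surjective.comp fun σ => by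
    obtain ⟨γ, a, b, c⟩ := exists_C0A (.inl σ.2)
    exact ⟨⟨γ, (m (C0_le_Np a)).2 ⟨npPerm_C0 a c ▸ σ.2, b⟩⟩, Subtype.ext (npPerm_C0 a c)⟩
  have k : ∀ a : L, e.toMonoidHom.comp ψ a = 1 ↔ (a : Gt) ∈ RS ⊓ PA := fun a =>
    (map_eq_one_iff _ e.injective).trans (Subtype.ext_iff.trans
      ((RS_iff (le a.2)).symm.trans ⟨fun h => ⟨h, a.2.2⟩, fun h => h.1⟩))
  refine ⟨L, e.toMonoidHom.comp ψ, Set.ext fun n => ⟨fun h => ?_, ?_⟩, ?_, s, k,
    le_comm_sup _ s perf_M22 fun a => (k a).1⟩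
  · obtain ⟨σ, c, hc, f, -⟩ := St_mon (gOf_St h.2) (Np_mon (le h))
    exact ⟨h.2, le h, σ, c, hc, f, np_eq (le h) f ▸ ((m (le h)).1 h).1⟩
  · rintro ⟨a, b, σ, c, hc, f, d⟩
    exact (m b).2 ⟨np_eq b f ▸ d, a⟩
  · obtain ⟨σ, hσ⟩ := exists_Swp
    obtain ⟨γ, a, b, c⟩ := exists_C0A (.inr hσ)
    refine relIndex_eq_two_iff.2 ⟨γ, ⟨b, C0_le_Np a⟩, fun n h => ?_⟩
    obtain ⟨τ, d, hd, f, -, g⟩ := St_mon (gOf_St h.1) (Np_mon h.2)
    rw [m h.2, m (mul_mem h.2 (C0_le_Np a)), np_eq h.2 f,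
      np_eq (σ := τ * σ) (hc := hd) _ (by rw [map_mul, f, c, map_mul, mul_assoc])]
    have := p01
    have x : (τ * σ).1 (pt 0) = τ.1 (pt 1) := congrArg τ.1 hσ.1
    have y : (τ * σ).1 (pt 1) = τ.1 (pt 0) := congrArg τ.1 hσ.2
    rcases g with g | g
    · exact .inr ⟨⟨g, h.1⟩, fun k => this (k.1.1.symm.trans (x.trans g.2))⟩
    · exact .inl ⟨⟨⟨x.trans g.2, y.trans g.1⟩, mul_mem h.1 b⟩, fun k => this (k.1.1.symm.trans g.1)⟩

theorem np_F3 {n : Gt} (h : n ∈ PB) (a : n ∈ Np) : npPerm ⟨n, a⟩ ∈ F3 := by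
  obtain ⟨σ, c, hσ, hc, e⟩ := Np_mon a
  have k := map_PB.le ⟨n, h, rfl⟩
  have x := mono_m4 hσ hc p01 (e ▸ k.1)
  have y := mono_m4 hσ hc p02 (e ▸ k.2)
  rw [npPerm_eq (γ := ⟨n, a⟩) e]
  have z : σ (pt 0) = pt 0 := x.1.elim id fun b => y.1.resolve_right fun d => p12 (b.symm.trans d)
  exact ⟨⟨z, x.2.1.resolve_left fun b => p01 (σ.injective (z.trans b.symm))⟩,
    y.2.1.resolve_left fun b => p02 (σ.injective (z.trans b.symm))⟩

theorem exists_C0B {σ : M24} (h : σ ∈ F3) : ∃ γ ∈ C0, γ ∈ PB ∧ gOf γ = permHom σ := by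
  obtain ⟨γ, a, b, c⟩ := exists_C0A (.inl h.1)
  refine ⟨γ, a, ⟨b, show γ • tB = tB from ?_⟩, c⟩
  rw [← cls_uB, uB, C0_smul_cls a (four_m4 _ _), c, perm_m4, (mem_F3.1 h).1.1, (mem_F3.1 h).2]

theorem perf_HB : PB ⊓ Np ≤ ⁅PB ⊓ Np, PB ⊓ Np⁆ ⊔ RS ⊓ PB :=
  le_comm_sup ((npPerm.comp (inclusion inf_le_right)).codRestrict F3 fun n => np_F3 n.2.1 n.2.2)
    (fun σ => by
      obtain ⟨γ, a, b, c⟩ := exists_C0B σ.2
      exact ⟨⟨γ, b, C0_le_Np a⟩, Subtype.ext (npPerm_C0 a c)⟩) perf_F3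
    fun a e => ⟨(RS_iff a.2.2).2 (congrArg Subtype.val e), a.2.1⟩

theorem card_RS : ∃ k, Nat.card RS = 2 ^ k := by
  have a : Nat.card (RS.map gOf) ∣ 2 ^ 12 := (card_dvd_of_le (by
    rintro _ ⟨γ, h, rfl⟩; exact h.2)).trans card_Sg.dvd
  have b : Nat.card (RS.comap pauli) ∣ 2 ^ 25 := Lab.card ▸ card_subgroup_dvd_card _
  have := mul_dvd_mul a b
  rw [← card_sub, ← pow_add] at this
  obtain ⟨k, -, e⟩ := (Nat.dvd_prime_pow Nat.prime_two).1 this
  exact ⟨k, e⟩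

theorem idx_NA : (PA ⊓ Np).relIndex PA = 93150 := (relIndex_stabIn PA Y0).trans ncard_orb_A_Y0

theorem idx_HB : (PB ⊓ Np).relIndex PB = 1782 := (relIndex_stabIn PB Y0).trans ncard_orb_B_Y0

end CF.Bv
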