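import Cfsg.Agent.Bv.S3
import Cfsg.Agent.Bv.E
import Cfsg.Agent.BabU.P1

/-! Modules of the Baby Monster as modules in the sense of `Rp`. -/

set_option autoImplicit false

namespace CF.Bv

open Cfsg CF.Mon CF.Mon.G CF.Mon.T CF.Mon.W4 Module Subgroup Lab

/-- the projection from the double cover -/
noncomputable def piB : AA rhoM tauM →* Spor.BabyMonster :=
  (certs.equivB G.outM).some.toMonoidHom.comp (QuotientGroup.mk' _)

theorem piB_sur : Function.Surjective piB :=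
  (certs.equivB G.outM).some.surjective.comp (QuotientGroup.mk'_surjective _)

theorem piB_eq {a : AA rhoM tauM} : piB a = 1 ↔ (a : MV) = 1 ∨ (a : MV) = rhoM (pauli tA) := by
  rw [← Even.mem_zpowers_invol G.outM.orderOf_t, ← mem_subgroupOf, ← G.outM.center_A, ← QuotientGroup.eq_one_iff]
  exact (certs.equivB G.outM).some.map_eq_one_iff

open _root_.Classical in
/-- the parabolic subgroup -/
noncomputable def jB (γ : Gt) : Spor.BabyMonster := if h : γ ∈ PA then piB ⟨rhoM γ, mem_AA _ _ h⟩ else 1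

/-- the triality element -/
noncomputable def tBB : Spor.BabyMonster := piB ⟨tauM, tau_mem_AA _ _⟩

theorem jB_eq {γ : Gt} (h : γ ∈ PA) : jB γ = piB ⟨rhoM γ, mem_AA _ _ h⟩ := dif_pos h

theorem jB_mul {a b : Gt} (ha : a ∈ PA) (hb : b ∈ PA) : jB (a * b) = jB a * jB b := by
  rw [jB_eq ha, jB_eq hb, jB_eq (mul_mem ha hb), ← map_mul]; exact congrArg _ (Subtype.ext (map_mul ..))

theorem jB_one : jB 1 = 1 := by rw [jB_eq (one_mem _), piB_eq]; exact .inl (map_one _)

theorem jB_kap : jB kap = 1 := by rw [jB_eq kap_PA, piB_eq]; exact .inl G.outM.kap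

theorem jB_tA : jB (pauli tA) = 1 := by rw [jB_eq tA_mem_PA, piB_eq]; exact .inr rfl

theorem jB_xc : jB (pauli xc) ≠ 1 := by
  rw [jB_eq xc_PA, Ne, piB_eq]
  exact fun h => h.elim G.outM.x_ne fun e => absurd (G.outM.inj.1 e) (by decide +kernel)

theorem jB_th {a b : Gt} (ha : a ∈ PA) (hb : b ∈ PA) (h : TH a b) : tBB * jB a = jB b * tBB := by
  rw [jB_eq ha, jB_eq hb, tBB, ← map_mul, ← map_mul]
  exact congrArg _ (Subtype.ext (C3.theta_any G.outM.r0 h))

theorem tBB_cube : tBB ^ 3 = 1 := by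
  rw [tBB, ← map_pow, piB_eq]; exact .inl G.outM.rels.cube

theorem tBB_odd : tBB * jB (pauli (Lab.X 11)) * tBB = jB (pauli (Lab.X 11)) := by
  rw [jB_eq X11_PA, tBB, ← map_mul, ← map_mul]; exact congrArg _ (Subtype.ext G.outM.rels.odd)

theorem tBB_rel : (tBB * jB aE.val) ^ 3 = 1 := by
  rw [jB_eq aE_PB.1, tBB, ← map_mul, ← map_pow, piB_eq]; exact .inl G.outM.rels.rel

theorem genB {S : Subgroup Spor.BabyMonster} (h1 : ∀ γ ∈ PA, jB γ ∈ S) (h2 : tBB ∈ S) (g : Spor.BabyMonster) :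
    g ∈ S := by
  obtain ⟨a, rfl⟩ := piB_sur g
  have : AA rhoM tauM ≤ (S.comap piB).map (AA rhoM tauM).subtype := sup_le
    (by rintro _ ⟨γ, x, rfl⟩; exact ⟨⟨_, mem_AA _ _ x⟩, mem_comap.2 (jB_eq x ▸ h1 γ x), rfl⟩)
    (zpowers_le.2 ⟨⟨_, tau_mem_AA _ _⟩, h2, rfl⟩)
  obtain ⟨b, x, e⟩ := this a.2
  exact (Subtype.ext e : b = a) ▸ x

/-- the presentation of the Baby Monster -/
theorem presB {H : Type*} [Group H] {r : Gt → H} {s : H} (h : ExtT PA r s) (k : r (pauli tA) = 1) :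
    ∃ φ : Spor.BabyMonster →* H, (∀ γ ∈ PA, φ (jB γ) = r γ) ∧ φ tBB = s := by
  obtain ⟨ψ, a, b⟩ := BabU.exists_hom G.outM certs.c certs.c2 h
  have c := piB.liftOfRightInverse_comp_apply _ (Function.rightInverse_surjInv piB_sur) ⟨ψ, fun x e => by
    rcases piB_eq.1 e with z | z
    · rw [show x = 1 from Subtype.ext z]; exact one_mem _
    · rw [show x = ⟨_, mem_AA _ _ tA_mem_PA⟩ from Subtype.ext z]; exact (a _ tA_mem_PA).trans k⟩
  exact ⟨_, fun γ x => by rw [jB_eq x, c]; exact a γ x, (c _).trans b⟩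

variable {K W : Type*} [Field K] [AddCommGroup W] [Module K W]

/-- the module attached to a representation -/
noncomputable def mkRp (σ : Spor.BabyMonster →* End K W) (h2 : (2 : K) ≠ 0) : Rp K W where
  R γ := σ (jB γ)
  T := σ tBB
  two := h2
  mul a x b y := by rw [jB_mul x y, map_mul]
  one := by rw [jB_one, map_one]
  kap := by rw [jB_kap, map_one]
  tA := by rw [jB_tA, map_one]
  th a x b y e := by rw [← map_mul, jB_th x y e, map_mul]
  cube := by rw [← pow_three', ← map_pow, tBB_cube, map_one]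
  odd := by rw [← map_mul, ← map_mul, tBB_odd]

theorem fr_eq [FiniteDimensional K W] (σ : Spor.BabyMonster →* End K W) (h2 : (2 : K) ≠ 0)
    (hn : finrank K W ≤ 4371) : σ (jB (pauli xc)) = 1 ∨ finrank K W = 4371 :=
  or_iff_not_imp_left.2 fun h => let ⟨F⟩ := (mkRp σ h2).exists_Fr h hn; F.finrank

/-- the representation on column vectors -/
noncomputable def toEnd {G : Type*} [Group G] {n : ℕ} (ρ : G →* GL (Fin n) K) : G →* End K (Fin n → K) :=
  (Matrix.toLinAlgEquiv' : Matrix (Fin n) (Fin n) K ≃ₐ[K] _).toMulEquiv.toMonoidHom.comp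
    ((Units.coeHom _).comp ρ)

theorem toEnd_apply {G : Type*} [Group G] {n : ℕ} (ρ : G →* GL (Fin n) K) (g : G) (v : Fin n → K) :
    toEnd ρ g v = (ρ g : Matrix (Fin n) (Fin n) K).mulVec v := Matrix.toLinAlgEquiv'_apply ..

theorem toEnd_x {ρ : Spor.BabyMonster →* GL (Fin 4371) K} (h : Function.Injective ρ) :
    toEnd ρ (jB (pauli xc)) ≠ 1 := fun e => jB_xc (h (Units.ext
  (((Matrix.toLinAlgEquiv' : Matrix (Fin 4371) (Fin 4371) K ≃ₐ[K] _).toMulEquiv.map_eq_one_iff.1 e).trans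
    (by rw [map_one]; rfl))))

theorem exists_FrB {ρ : Spor.BabyMonster →* GL (Fin 4371) K} (h : Function.Injective ρ) (h2 : (2 : K) ≠ 0) :
    Nonempty (Fr (mkRp (toEnd ρ) h2)) := Rp.exists_Fr _ (toEnd_x h) (by simp)

end CF.Bv
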