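import Cfsg.Agent.Bv.P

/-! The weights of a small module for the Baby Monster. -/

set_option autoImplicit false
set_option maxHeartbeats 400000

namespace CF.Bv

open Cfsg CF.Leech CF.Comp CF.Mon CF.Mon.G CF.Mon.T CF.Mon.L CF.Mon.W4 CF.Known.Mon CF.Classical
open Module Lab MulAction Matrix

variable {K W : Type*} [Field K] [AddCommGroup W] [Module K W]

theorem fr_map [FiniteDimensional K W] {T : End K W} (hT : Function.Injective T)
    {A B : Submodule K W} (h : ∀ v ∈ A, T v ∈ B) : finrank K A ≤ finrank K B := by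
  rw [(Submodule.equivMapOfInjective T hT A).finrank_eq]
  exact Submodule.finrank_mono (by rintro _ ⟨v, hv, rfl⟩; exact h v hv)

theorem fr_add [FiniteDimensional K W] {A B U : Submodule K W} (h : Disjoint A B) (h1 : A ≤ U)
    (h2 : B ≤ U) : finrank K A + finrank K B ≤ finrank K U := by
  rw [← Submodule.finrank_sup_add_finrank_inf_eq, h.eq_bot, finrank_bot]
  exact Submodule.finrank_mono (sup_le h1 h2)

theorem disj_eig (h2 : (2 : K) ≠ 0) (g : End K W) :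
    Disjoint (End.eigenspace g (ch K 0)) (End.eigenspace g (ch K 1)) :=
  Submodule.disjoint_def.2 fun v a b => eq_zero_of_neg h2 (by
    simpa using (End.mem_eigenspace_iff.1 a).symm.trans (End.mem_eigenspace_iff.1 b))

theorem bf_Y0 (p : Lab) : bf Y0 p = p.a 11 := Dg.bf_Y0 p

theorem bf_dg {z : Lab} (h : z.a = 0) (p : Lab) : bf z p = z.b ⬝ᵥ p.a := by simp [bf, h]

theorem tA01 {p : Lab} (h : bf tA p = 0) : p.a 0 = p.a 1 := by
  rw [bf_tA, tA_dot] at h
  linear_combination h - z2_add_self (p.a 1)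

/-- two labels with the same character on the orthogonal of `tA` -/
theorem eqv_of_bf {s t : Lab} (h : ∀ p, bf p tA = 0 → bf p s = bf p t) :
    s ≈ₗ t ∨ s ≈ₗ tA * t := by
  by_contra n
  rw [not_or] at n
  obtain ⟨q, a, b⟩ := exists_bf2 (p := s * t⁻¹) (t := tA) (fun e => n.1 (eqv_iff_mul.2 e))
    fun e => n.2 (by simpa using e.mul (Eqv.refl t))
  rw [bf_mul', (Eqv.refl q).bf (inv_eqv t), h q a, z2_add_self] at b
  exact zero_ne_one b

/-- sign changes shift the odd labels -/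
theorem eps_a {γ : Gt} {c : Finset Pt} {hc : c ∈ CS} (e : gOf γ = eps hc) {s : Lab}
    (hs : s.a 11 = 1) : (γ • s).a = s.a + (cls (tw hc)).a := by
  obtain ⟨x, a⟩ := exists_cls s
  obtain ⟨m, d, hm, hd, h4, -⟩ := exists_LS x.2
  have h2 : ¬ (2 : ℤ) ∣ (x : V) (pt 11) := fun k => by
    have := cls_a_11.2 k
    rw [← a.1, hs] at this
    exact one_ne_zero this
  have h5 := h4 (pt 11)
  obtain rfl : m = 1 := by omega
  rw [((a.smul γ).trans (smul_cls γ x)).1, e, a.1, ← mul_a, ← (cls_add _ _).1,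
    ← sub_add_cancel (eps hc • x) (x + tw hc), (cls_add _ _).1, mul_a, cls_a_four, zero_add]
  intro i
  have := h4 i
  simp only [AddSubgroup.coe_sub, AddSubgroup.coe_add, Pi.sub_apply, Pi.add_apply, eps_apply,
    tw_apply]
  rcases ind_cases c i with k | k <;> rw [k.2] <;> simp only [k.1, if_true, if_false] <;> omega

theorem exists_shift {s : Lab} (hs : s.a 11 = 1) (h : bf tA s = 0) {w : Ix} (a : w 11 = 1)
    (b : w 0 = w 1) : ∃ γ ∈ PA, gOf γ ∈ Mon ∧ (γ • s).a = w := by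
  have k : (s.a + w) 11 = 0 := by simp [hs, a, z2_add_self]
  obtain ⟨γ, h1, -, h2⟩ := exists_NA (eps_St (cd_mem (s.a + w)) (by
    have e0 := mem_cd (s.a + w) 0
    have e1 := mem_cd (s.a + w) 1
    simp only [Pi.add_apply, tA01 h, b] at e0 e1
    exact e0.trans (Iff.trans (by simp) e1.symm))) (mono_mem _ _)
  refine ⟨γ, h1, h2 ▸ mono_mem _ _, ?_⟩
  have := ixd_cd (s.a + w)
  rw [k] at this
  rw [eps_a h2 hs, cls_a_tw, nrm_of (not_mem_cd _), this, add_comm s.a w, add_left_comm,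
    ix_add_self, add_zero]

namespace Rp

/-- joint eigenspaces of the four-group -/
def Ez (A : Rp K W) (a b : ZMod 2) : Submodule K W :=
  End.eigenspace (A.R (pauli xc)) (ch K a) ⊓ End.eigenspace (A.R (pauli Y0)) (ch K b)

/-- joint eigenspaces of the diagonal labels -/
def UD (A : Rp K W) (w : Ix) : Submodule K W :=
  wsp (fun z : {z : Lab // z.a = 0} => A.R (pauli z)) fun z => ch K (z.1.b ⬝ᵥ w)

variable {A : Rp K W} {v : W} {s t : Lab}

theorem mem_Ez {a b : ZMod 2} :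
    v ∈ A.Ez a b ↔ A.R (pauli xc) v = ch K a • v ∧ A.R (pauli Y0) v = ch K b • v := by
  simp [Ez]

theorem mem_UD {w : Ix} : v ∈ A.UD w ↔ ∀ z : Lab, z.a = 0 → A.R (pauli z) v = ch K (z.b ⬝ᵥ w) • v :=
  Subtype.forall

theorem T_Ez {a b : ZMod 2} (hv : v ∈ A.Ez a b) : A.T v ∈ A.Ez (a + b) a := by
  obtain ⟨e, f⟩ := mem_Ez.1 hv
  have z : Z 11 = xc * Y0 := by rw [Y0, ← mul_assoc, xc_mul_xc, one_mul]
  refine mem_Ez.2 ⟨?_, ?_⟩
  · rw [← T_R (diag_PA rfl) rels0.tau_z, z, pp (bf_xc _) (pauli_PA.1 Y0_PA), f, map_smul, e,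
      smul_smul, ch_add, mul_comm, map_smul]
  · rw [← T_R xc_PA rels0.tau_x, e, map_smul]

theorem Ez_ne (hx : A.R (pauli xc) ≠ 1) : A.Ez 0 1 ≠ ⊥ := fun e => hx (by
  have a : ∀ v ∈ A.Ez 1 1, v = 0 := fun v hv => T_inj (A := A) (by
    have := T_Ez hv
    rwa [z2_add_self, e, Submodule.mem_bot, ← map_zero A.T] at this)
  have b : ∀ v ∈ A.Ez 1 0, v = 0 := fun v hv => T_inj (A := A) (by
    have := T_Ez hv
    rw [add_zero] at this
    rw [a _ this, map_zero])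
  ext u
  have n : A.R (pauli xc) (u - A.R (pauli xc) u) = -(u - A.R (pauli xc) u) := by
    rw [map_sub, xx, neg_sub]
  generalize hw : u - A.R (pauli xc) u = w at n
  have k := a w (mem_Ez.2 ⟨by rw [n, ch_one, neg_one_smul], by
    have := b (w + A.R (pauli Y0) w) (mem_Ez.2 ⟨by
      rw [map_add, xc_comm Y0_PA, n, map_neg, ch_one, neg_one_smul, neg_add], by
      rw [map_add, sq (pauli_PA.1 Y0_PA) Dg.YY, ch_zero, one_smul, add_comm]⟩)
    rw [ch_one, neg_one_smul, eq_neg_iff_add_eq_zero, add_comm, this]⟩)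
  rw [← hw] at k
  exact (sub_eq_zero.1 k).symm)

theorem Wt_le_UD (s : Lab) : A.Wt s ≤ A.UD s.a := fun v hv => mem_UD.2 fun z hz => by
  rw [mem_Wt.1 hv z (bf_diag hz tA_a), bf_dg hz]

theorem UD_map {γ : Gt} (h : γ ∈ PA) (m : gOf γ ∈ Mon) (hv : v ∈ A.UD s.a) :
    A.R γ v ∈ A.UD (γ • s).a := mem_UD.2 fun z hz => by
  have k : (γ⁻¹ • z).a = 0 := smul_a_zero (by rw [map_inv]; exact inv_mem m) hz
  have := conj_p (A := A) h (bf_diag k tA_a) v
  rw [smul_inv_smul] at this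
  rw [this, mem_UD.1 hv _ k, map_smul, ← bf_dg k, ← bf_dg hz, ← bf_smul γ, smul_inv_smul]

theorem bf_of_Wt (h : A.Wt s ≠ ⊥) : bf Mon.tA s = 0 := by
  obtain ⟨v, hv, v0⟩ := (Submodule.ne_bot_iff _).1 h
  have := mem_Wt.1 hv _ (bf_self _)
  rw [A.tA] at this
  exact (ch_inj A.two (eq_of_smul_eq v0 ((by simp : ch K 0 • v = (1 : End K W) v).trans this))).symm

theorem Wt_ne {γ : Gt} (a : γ ∈ PA) (h : A.Wt s ≠ ⊥) : A.Wt (γ • s) ≠ ⊥ := by
  obtain ⟨v, hv, v0⟩ := (Submodule.ne_bot_iff _).1 h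
  exact (Submodule.ne_bot_iff _).2 ⟨_, Wt_map a hv, fun e => v0 (inj a (e.trans (map_zero _).symm))⟩

variable [FiniteDimensional K W]

theorem Ez_le : 3 * finrank K (A.Ez 0 1) ≤ finrank K W := by
  have a := fr_add (disj_eig A.two (A.R (pauli xc))) le_top le_top
  have b := fr_add (U := End.eigenspace (A.R (pauli xc)) (ch K 1)) (A := A.Ez 1 0)
    (B := A.Ez 1 1) ((disj_eig A.two _).mono inf_le_right inf_le_right) inf_le_left inf_le_left
  have c := fr_map (T_inj (A := A)) fun _ => T_Ez (A := A) (a := 0) (b := 1)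
  have d := fr_map (T_inj (A := A)) fun _ => T_Ez (A := A) (a := 1) (b := 0)
  have e : finrank K (A.Ez 0 1) ≤ finrank K (End.eigenspace (A.R (pauli xc)) (ch K 0)) :=
    Submodule.finrank_mono inf_le_left
  rw [zero_add] at c
  rw [add_zero] at d
  rw [finrank_top] at a
  omega

/-- the odd indices -/
def ow (u : Fin 10 → ZMod 2) : Ix := fun k => if h : k.1 < 11 then u ⟨k - 1, by omega⟩ else 1

theorem UD_le (hn : finrank K W ≤ 4371) (hs : s.a 11 = 1) (h : bf Mon.tA s = 0) :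
    finrank K (A.UD s.a) ≤ 1 := by
  classical
  let L : (Fin 10 → ZMod 2) → {z : Lab // z.a = 0} → K := fun u z => ch K (z.1.b ⬝ᵥ ow u)
  have inj : Function.Injective L := fun u u' e => funext fun j => by
    have := ch_inj A.two (congrFun e ⟨Z ⟨j + 1, by omega⟩, rfl⟩)
    simpa [Z, ow, show (j : ℕ) + 1 < 11 by omega] using this
  have h2 : (Finset.univ.image L).card * finrank K (A.UD s.a) ≤ finrank K (A.Ez 0 1) := by
    refine le_trans ?_ ((sum_finrank_wsp_eq (fun z : {z : Lab // z.a = 0} => A.R (pauli z))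
      (Finset.univ.image L)).trans_le (Submodule.finrank_mono (Finset.sup_le fun l hl => ?_)))
    · refine Finset.card_nsmul_le_sum _ _ _ fun l hl => ?_
      obtain ⟨u, -, rfl⟩ := Finset.mem_image.1 hl
      obtain ⟨γ, a, b, c⟩ := exists_shift hs h (w := ow u) rfl rfl
      exact fr_map (Rp.inj a) fun v hv => (c ▸ UD_map a b hv : _ ∈ A.UD (ow u))
    · obtain ⟨u, -, rfl⟩ := Finset.mem_image.1 hl
      intro v hv
      exact mem_Ez.2 ⟨by simpa [L] using hv ⟨xc, rfl⟩, by simpa [L, Y0, Z, ow] using hv ⟨Y0, Y0_a⟩⟩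
  have := Ez_le (A := A)
  rw [Finset.card_image_of_injective _ inj, Finset.card_univ, Fintype.card_fun, ZMod.card,
    Fintype.card_fin] at h2
  omega

omit A in
theorem line {S : Submodule K W} (h : finrank K S ≤ 1) {v u : W} (hv : v ∈ S) (v0 : v ≠ 0)
    (hu : u ∈ S) : ∃ c : K, u = c • v := by
  obtain ⟨⟨w, hw⟩, k⟩ := finrank_le_one_iff.1 h
  obtain ⟨a, ha⟩ := k ⟨v, hv⟩
  obtain ⟨b, hb⟩ := k ⟨u, hu⟩
  obtain rfl : a • w = v := congrArg Subtype.val ha
  obtain rfl : b • w = u := congrArg Subtype.val hb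
  exact ⟨b / a, by rw [smul_smul, div_mul_cancel₀ _ (left_ne_zero_of_smul v0)]⟩

theorem uq_odd (hn : finrank K W ≤ 4371) (hs : s.a 11 = 1) (h : A.Wt s ≠ ⊥) (h' : A.Wt t ≠ ⊥)
    (e : t.a = s.a) : t ≈ₗ s ∨ t ≈ₗ Mon.tA * s := by
  obtain ⟨v, hv, v0⟩ := (Submodule.ne_bot_iff _).1 h
  obtain ⟨u, hu, u0⟩ := (Submodule.ne_bot_iff _).1 h'
  obtain ⟨c, rfl⟩ := line (UD_le hn hs (bf_of_Wt h)) (Wt_le_UD s hv) v0 (e ▸ Wt_le_UD t hu)
  exact eqv_of_bf fun p hp => ch_inj A.two (eq_of_smul_eq u0 (by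
    rw [← mem_Wt.1 hu p hp, map_smul, mem_Wt.1 hv p hp, smul_comm]))

end Rp

def sE : ℕ := 0xab92b51da5811e235a5788d1464c20
def m11 : List ℕ := [6990012, 14709264, 14023156, 5983592, 8773776, 3788592, 10605492, 9869772,
  2810896, 13667400]
/-- the index of a code word -/
def aM (m : ℕ) : Ix := fun k => (bit m k + bit m 11 : ℕ)

theorem sE_check : (isM24 sE = true ∧ ap sE 0 = 0 ∧ ap sE 1 = 1) ∧ ∀ j : Fin 10,
    isCode (nth 0 m11 j) = true ∧ aM (nth 0 m11 j) 0 = aM (nth 0 m11 j) 1 ∧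
    aM (img (ap sE) (nth 0 m11 j)) 0 = aM (img (ap sE) (nth 0 m11 j)) 1 ∧
    aM (nth 0 m11 j) + aM (img (ap sE) (nth 0 m11 j)) =
      Pi.single ⟨j + 1, by omega⟩ 1 + if j = 0 then Pi.single 0 1 else 0 := by
  decide +kernel

theorem tw_aM {m : ℕ} (h : ofMask m ∈ CS) : (cls (tw h)).a = aM m := funext fun k => by
  rw [cls_a_tw, aM, Nat.cast_add, ← Dg.ib_mask (by omega), ← Dg.ib_mask (by omega), ← ib_nrm, ixd]
  split_ifs with a b
  · rw [a]; exact (if_neg (not_mem_nrm _)).symm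
  · exact (if_pos b).symm
  · exact (if_neg b).symm

/-- diagonal labels fixed by an element of order eleven -/
theorem fix11 {γ : Gt} (e : gOf γ = permHom (MD.tE sE)) {z : Lab} (hz : z.a = 0)
    (h : γ • z ≈ₗ z ∨ γ • z ≈ₗ tA * z) :
    z ≈ₗ 1 ∨ z ≈ₗ tA ∨ z ≈ₗ Z 11 ∨ z ≈ₗ tA * Z 11 := by
  have k : ∀ j : Fin 10, z.b ⟨j + 1, by omega⟩ + (if j = 0 then z.b 0 else 0) = 0 := fun j => by
    obtain ⟨a, -, c, d⟩ := sE_check.2 j
    have a := ofMask_mem_CS a
    have r := smul_ofMask (MD.rp_tE sE_check.1.1) (nth 0 m11 j)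
    have f := smul_cls γ (tw a)
    rw [e, perm_tw] at f
    have f : (γ • cls (tw a)).a = aM (img (ap sE) (nth 0 m11 j)) := by
      rw [f.1, ← tw_aM (r ▸ smul_mem_CS (MD.tE sE).2 a)]
      congr 3
    have g := bf_smul γ z (cls (tw a))
    have i : bf (γ • z) (γ • cls (tw a)) = bf z (γ • cls (tw a)) := by
      rcases h with h | h <;> rw [h.bf (Eqv.refl _)]
      rw [bf_mul, bf_tA, tA_dot, f, c, z2_add_self, zero_add]
    rw [i, bf_dg hz, bf_dg hz, f, tw_aM] at g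
    have := congrArg (z.b ⬝ᵥ ·) d
    simp only [dotProduct_add, g, z2_add_self] at this
    by_cases j0 : j = 0 <;> simpa [j0] using this.symm
  have k0 := k 0
  have k1 := k 1; have k2 := k 2; have k3 := k 3; have k4 := k 4; have k5 := k 5
  have k6 := k 6; have k7 := k 7; have k8 := k 8; have k9 := k 9
  have b : z.b = z.b 0 • tA.b + z.b 11 • (Z 11).b := by
    simp at k0 k1 k2 k3 k4 k5 k6 k7 k8 k9
    have k0 : z.b 1 = z.b 0 := by linear_combination k0 - z2_add_self (z.b 0)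
    funext i
    fin_cases i <;> simp [tA, Z] <;> assumption
  rcases z2_cases (z.b 0) with x | x <;> rcases z2_cases (z.b 11) with y | y <;>
    rw [x, y] at b <;> simp only [zero_smul, one_smul, add_zero, zero_add] at b
  exacts [.inl ⟨hz, b⟩, .inr (.inr (.inl ⟨hz, b⟩)), .inr (.inl ⟨hz.trans tA_a.symm, b⟩),
    .inr (.inr (.inr ⟨hz.trans (by simp [tA_a, Z]), b⟩))]

def f5 (n : ℕ) : ℤ := if n = 0 then 5 else 1

theorem f5_check : (clsF f5).a = Pi.single 11 1 ∧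
    (clsF fun n => xiF (fun p => f5 (ap ordC p)) (ap ordI n)).a = Pi.single 11 1 ∧
    ¬ (clsF fun n => xiF (fun p => f5 (ap ordC p)) (ap ordI n)) ≈ₗ clsF f5 ∧
    ¬ (clsF fun n => xiF (fun p => f5 (ap ordC p)) (ap ordI n)) ≈ₗ tA * clsF f5 := by
  decide +kernel

namespace Rp

variable {A : Rp K W} {v : W} {s t : Lab} [FiniteDimensional K W]

theorem not5 (hn : finrank K W ≤ 4371) : A.Wt (p0 * Z 11) = ⊥ := by
  by_contra h
  have a : ∀ n < 24, ((vX (pt 0) ∅ + e8 (pt 0) : LL) : V) (pt n) = f5 n := fun n hn => by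
    rw [AddSubgroup.coe_add, Pi.add_apply, vX_apply _ empty_mem_CS, e8_pt 0 (by norm_num) n hn, f5]
    simp only [show pt n = pt 0 ↔ n = 0 from ⟨pt_inj hn (by norm_num), congrArg _⟩, ind]
    split_ifs <;> simp_all
  have b := cls_add (vX (pt 0) ∅) (e8 (pt 0))
  rw [cls_e8] at b
  rw [p0, ← Wt_congr b] at h
  obtain ⟨γ, c, d⟩ := exists_PA xi_St
  have k := Wt_ne c h
  rw [Wt_congr (smul_cls γ _), d, cls_eq_clsF (xi_pt a)] at k
  rw [cls_eq_clsF a] at h
  exact (uq_odd hn (by rw [f5_check.1]; rfl) h k (f5_check.2.1.trans f5_check.1.symm)).elim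
    f5_check.2.2.1 f5_check.2.2.2

theorem odd_SS (hn : finrank K W ≤ 4371) (hs : s.a 11 = 1) (h : A.Wt s ≠ ⊥) : s ∈ SS := by
  obtain ⟨δ, a, -, c⟩ := exists_shift hs (bf_of_Wt h) (w := Pi.single 11 1) rfl rfl
  suffices δ • s ∈ SS by simpa using SS.smul this (inv_mem a)
  have h := Wt_ne a h
  generalize δ • s = t at h c
  obtain ⟨γ, g, e⟩ := Dg.exists_PA22 sE_check.1
  obtain ⟨z, rfl⟩ : ∃ z, t = p0 * z := ⟨p0⁻¹ * t, (mul_inv_cancel_left _ _).symm⟩
  have hz : z.a = 0 := by simpa [p0_a] using c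
  have f : γ • p0 ≈ₗ p0 := by
    have := smul_cls γ (vX (pt 0) ∅)
    rwa [e, perm_vX _ _ empty_mem_CS, Finset.smul_finset_empty, ← pt_idx ((MD.tE sE).1 _),
      MD.rp_tE sE_check.1.1 0 (by norm_num), sE_check.1.2.1] at this
  have m : gOf γ ∈ Mon := e ▸ permHom_mem _
  have u := uq_odd hn (by rw [c]; rfl) h (Wt_ne g h) (by
    rw [smul_mul', mul_a, mul_a, f.1, smul_a_zero m hz, hz])
  rw [smul_mul'] at u
  have cm : ∀ {x y : Lab}, x ≈ₗ y → p0 * x ≈ₗ p0 * y := fun k => (Eqv.refl _).mul k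
  have ct : ∀ x : Lab, p0 * (Mon.tA * x) ≈ₗ Mon.tA * (p0 * x) := fun x =>
    ⟨by simp [add_left_comm], by simp [add_left_comm]⟩
  have cc : ∀ {x y : Lab}, p0 * x ≈ₗ p0 * y → x ≈ₗ y := fun k =>
    ⟨add_left_cancel k.1, add_left_cancel k.2⟩
  have w := (f.mul (Eqv.refl (γ • z))).symm
  rcases fix11 e hz (u.imp (fun k => cc (w.trans k)) fun k => cc ((w.trans k).trans (ct _).symm))
    with k | k | k | k
  · exact SS.congr p0_SS (by simpa using cm k)
  · exact SS.congr (SS.tA p0_SS) (by simpa using (cm k).trans (by simpa using ct 1))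
  · exact absurd ((Wt_congr (cm k)).trans (not5 hn)) h
  · exact absurd ((Wt_congr ((cm k).trans (ct _))).trans ((Wt_tA _).trans (not5 hn))) h

theorem all_SS (hn : finrank K W ≤ 4371) (h : A.Wt s ≠ ⊥) (h1 : ¬ s ≈ₗ 1) (h2 : ¬ s ≈ₗ Mon.tA) :
    s ∈ SS := by
  by_cases k : ∃ γ ∈ PA, (γ • s).a 11 = 1
  · obtain ⟨γ, a, b⟩ := k
    simpa using SS.smul (odd_SS hn b (Wt_ne a h)) (inv_mem a)
  obtain ⟨q, a, b⟩ := exists_bf2 h1 h2
  let R : Subgroup Lab :=
    { carrier := {p | ∀ γ ∈ PA, bf p (γ • s) = 0}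
      mul_mem' := fun x y γ g => by rw [bf_mul, x γ g, y γ g, add_zero]
      one_mem' := fun γ _ => bf_one _
      inv_mem' := fun x γ g => ((inv_eqv _).bf (Eqv.refl _)).trans (x γ g) }
  have := perp_le (R := R) (fun γ g p x δ d => by
      rw [← bf_smul γ⁻¹, inv_smul_smul, ← mul_smul]; exact x _ (mul_mem (inv_mem g) d))
    (fun γ g => (bf_Y0 _).trans ((z2_cases _).resolve_right fun e => k ⟨γ, g, e⟩)) a 1 (one_mem _)
  rw [one_smul, b] at this
  exact absurd this one_ne_zero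

theorem exists_odd (hx : A.R (pauli xc) ≠ 1) : ∃ t, t.a 11 = 1 ∧ A.Wt t ≠ ⊥ := by
  classical
  have x0 : ∀ v ∈ A.Ez 0 1, ∀ z, A.R (pauli (xp z)) v = v := fun v hv z => by
    rcases z2_cases z with rfl | rfl
    · rw [xp_zero, map_one, one_apply]
    · simpa using (mem_Ez.1 hv).1
  have cm : ∀ p q, bf p Mon.tA = 0 → bf q Mon.tA = 0 → ∀ v ∈ A.Ez 0 1,
      A.R (pauli p) (A.R (pauli q) v) = A.R (pauli q) (A.R (pauli p) v) := fun p q a b v hv => by
    rw [← pp a b, ← pp b a, mul_comm_eq p, xp_comm,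
      pp (by rw [bf_mul, a, b, add_zero]) (by simp [bf, xp]), x0 v hv]
  obtain ⟨l, v, hv, v0, hl⟩ := exists_joint A.two
    (fun p : {p : Lab // bf p Mon.tA = 0} => A.R (pauli p)) _ (Ez_ne hx) (fun p v hv => mem_Ez.2
      ⟨by rw [cm _ _ (bf_xc _) p.2 v hv, (mem_Ez.1 hv).1, map_smul], by
        rw [cm _ _ (pauli_PA.1 Y0_PA) p.2 v hv, (mem_Ez.1 hv).2, map_smul]⟩)
    (fun p q => cm _ _ p.2 q.2) fun p v hv => by rw [← pp p.2 p.2, mul_self_eq, x0 v hv]
  let χ : Lab → ZMod 2 := fun p => if h : bf p Mon.tA = 0 then l ⟨p, h⟩ else 0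
  have hl : ∀ p, bf p Mon.tA = 0 → A.R (pauli p) v = ch K (χ p) • v := fun p h => by
    simp only [χ, dif_pos h]; exact hl ⟨p, h⟩
  obtain ⟨t, ht⟩ := exists_bf_char (R := PA.comap pauli) xc_PA χ
    (fun p a q b => ch_inj A.two (eq_of_smul_eq v0 (by
      have a := pauli_PA.1 a
      have b := pauli_PA.1 b
      rw [← hl _ (by rw [bf_mul, a, b, add_zero]), pp a b, hl q b, map_smul, hl p a, smul_smul,
        ch_add, mul_comm])))
    (ch_inj A.two (eq_of_smul_eq v0 (by rw [← hl _ (bf_xc _), (mem_Ez.1 hv).1])))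
  refine ⟨t, ?_, (Submodule.ne_bot_iff _).2 ⟨v, mem_Wt.2 fun p a => by
    rw [hl p a, bf_comm, ht p (pauli_PA.2 a)], v0⟩⟩
  rw [← bf_Y0, bf_comm, ht _ Y0_PA]
  exact ch_inj A.two (eq_of_smul_eq v0 ((hl _ (pauli_PA.1 Y0_PA)).symm.trans (mem_Ez.1 hv).2))

theorem exists_Fe (A : Rp K W) (hx : A.R (pauli xc) ≠ 1) (hn : finrank K W ≤ 4371) :
    ∃ e η, Fe A e η := by
  classical
  obtain ⟨t, t1, t0⟩ := exists_odd hx
  obtain ⟨β, b, rfl⟩ := odd_SS hn t1 t0
  have h1 : finrank K (A.Wt tB) ≤ 1 := (fr_map (inj b) fun v hv =>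
    Wt_le_UD _ (Wt_map b hv)).trans (UD_le hn t1 (bf_of_Wt t0))
  obtain ⟨v, hv, v0⟩ := (Submodule.ne_bot_iff _).1 (Wt_ne (inv_mem b) t0)
  rw [inv_smul_smul] at hv
  have sc : ∀ γ, ∃ c : K, γ ∈ PB → A.R γ v = c • v := fun γ => by
    by_cases h : γ ∈ PB
    · obtain ⟨c, e⟩ := line h1 hv v0 ((show γ • tB = tB from h.2) ▸ Wt_map h.1 hv)
      exact ⟨c, fun _ => e⟩
    · exact ⟨0, fun k => absurd k h⟩
  choose χ hχ using sc
  have fx : ∀ γ ∈ PB, A.R γ v = v := fun γ h => by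
    rw [hχ γ h, PB_char χ (fun a x b y => eq_of_smul_eq v0 (by
      rw [← hχ _ (mul_mem x y), mul_apply x.1 y.1, hχ b y, map_smul, hχ a x, smul_smul, mul_comm]))
      (eq_of_smul_eq v0 (by rw [← hχ _ (one_mem _), one_apply, one_smul]))
      (eq_of_smul_eq v0 (by rw [← hχ _ ⟨kap_PA, kap_mem_stab _⟩, A.kap, one_smul]; rfl))
      (fun p x => eq_of_smul_eq v0 (by
        rw [← hχ _ x, mem_Wt.1 hv p (pauli_PA.1 x.1), pauli_mem_stab.1 x.2, ch_zero])) h, one_smul]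
  let e : Lab → W := fun p => if h : p ∈ SS then A.R (show ∃ γ ∈ PA, γ • tB = p from h).choose v
    else 0
  have k : ∀ γ ∈ PA, A.R γ v = e (γ • tB) := fun γ g => by
    have s : γ • tB ∈ SS := ⟨γ, g, rfl⟩
    have c := (show ∃ δ ∈ PA, δ • tB = γ • tB from s).choose_spec
    simp only [e, dif_pos s]
    generalize (show ∃ δ ∈ PA, δ • tB = γ • tB from s).choose = δ at c
    have m := mul_mem (inv_mem c.1) g
    rw [← fx (δ⁻¹ * γ) ⟨m, show _ • tB = tB by rw [mul_smul, ← c.2, inv_smul_smul]⟩,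
      ← mul_apply c.1 m, mul_inv_cancel_left, fx (δ⁻¹ * γ) ⟨m, show _ • tB = tB by
        rw [mul_smul, ← c.2, inv_smul_smul]⟩]
  obtain ⟨δ, d, f⟩ := SS.tA (show tB ∈ SS from ⟨1, one_mem _, one_smul _ _⟩)
  obtain ⟨c, hc⟩ := line h1 hv v0 (Wt_tA (A := A) tB ▸ f ▸ Wt_map d hv)
  obtain ⟨η, rfl⟩ := exists_ch (c := c) (eq_of_smul_eq v0 (by
    rw [mul_smul, ← hc, ← map_smul, ← hc, ← mul_apply d d, one_smul, fx _ ⟨mul_mem d d,
      show _ • tB = tB by rw [mul_smul, f, smul_mul', mem_PA.1 d, f, tA_tA]⟩]))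
  have x2 := pauli_PA.2 bf_2A
  refine ⟨e, η, ?_, ?_, ?_, ?_, ?_, fun s a b c => by_contra fun h => a (all_SS hn h b c)⟩
  · rintro γ g _ ⟨α, a, rfl⟩
    rw [← k α a, ← mul_smul, ← k _ (mul_mem g a), mul_apply g a]
  · rintro _ ⟨α, a, rfl⟩
    rw [← k α a]
    exact fun e => v0 (inj a (e.trans (map_zero _).symm))
  · rintro _ ⟨α, a, rfl⟩
    rw [← smul_xc_mul, ← pauli_smul_of_one bf_2B, ← mul_smul, ← k _ (mul_mem a x2), ← k α a,
      mul_apply a x2, mem_Wt.1 hv _ bf_2A, bf_2B, ch_one, neg_one_smul, map_neg]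
  · rintro _ ⟨α, a, rfl⟩
    rw [← mem_PA.1 a, ← smul_mul', ← f, ← mul_smul, ← k _ (mul_mem a d), ← k α a, mul_apply a d, hc,
      map_smul]
  · rintro _ ⟨α, a, rfl⟩ u hu
    have := Wt_map (inv_mem a) hu
    rw [inv_smul_smul] at this
    obtain ⟨c, e⟩ := line h1 hv v0 this
    exact ⟨c, by rw [← k α a, ← map_smul, ← e, apply_inv a]⟩

end Rp

end CF.Bv
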