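import Cfsg.Agent.Bv.S1

/-! The action of the second Conway group on the fixed space. -/

set_option autoImplicit false
set_option maxHeartbeats 400000

namespace CF.Bv

open Cfsg CF.Leech CF.Comp CF.Mon CF.Mon.G CF.Mon.T CF.Mon.L CF.Mon.W4 CF.Known.Mon CF.Classical
open Module Lab MulAction
open scoped Pointwise

variable {K W : Type*} [Field K] [AddCommGroup W] [Module K W]

theorem ne0 {i : Pt} (h : ¬ In i) : pt 0 ≠ i := fun a => h (.inl a.symm)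

theorem mm_SS {i : Pt} (h : ¬ In i) : mm (pt 0) i ∈ SS := (lB0 (ne0 h)).1.2 (by simp [h])

theorem Y_mm (i j : Pt) : Y0 * mm i j ≈ₗ cls (p4 i j) := by
  rw [Y0, mul_assoc, ← cls_e8 j, show p4 i j = e8 j + m4 i j by rw [m4]; abel]
  exact (xc_eqv _).trans (cls_add _ _).symm

theorem Ymm_SS {i : Pt} (h : ¬ In i) : Y0 * mm (pt 0) i ∈ SS :=
  SS.congr ((lB0 (ne0 h)).2.2 (by simp [h])) (Y_mm _ _)

theorem mm_a (i j : Pt) : (mm i j).a = 0 := cls_a_four (four_m4 i j)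

theorem bf_X11_mm (i j : Pt) : bf (X 11) (mm i j) = 0 := by rw [bf_X, mm, cls_b, b11_m4]

theorem tA_mm {i : Pt} (h : ¬ In i) : tA * mm (pt 0) i = mm (pt 1) i := (lB1 h).1

theorem Y0_tA (p : Lab) : Y0 * (tA * p) = tA * (Y0 * p) := by
  rw [← mul_assoc, comm_iff.2 (bf_diag Y0_a tA_a), mul_assoc]

theorem Y0_Y0 (p : Lab) : Y0 * (Y0 * p) = p := by rw [← mul_assoc, Dg.YY, one_mul]

theorem not_SS {x : LL} (h : nm x = 48 ∨ nm x = 64) {p : Lab} (e : p ≈ₗ cls x) : p ∉ SS := fun k => by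
  obtain ⟨z, a, -, c⟩ := mem_SS.1 k
  rcases eq_or_neg_of_cls (by omega) (by omega) (c.symm.trans e) with rfl | rfl
  · omega
  · rw [nm_neg] at a; omega

theorem Y0_SS : Y0 ∉ SS := not_SS (.inr (nm_e8 (pt 0))) (cls_e8 _ ▸ xc_eqv _)

namespace Fe

variable {A : Rp K W} {e : Lab → W} {η : ZMod 2} (h : Fe A e η)
include h

theorem wt {p : Lab} (hp : p ∈ SS) : e p ∈ A.Wt p := Rp.mem_Wt.2 fun q hq => by
  rw [h.smul _ (pauli_PA.2 hq) p hp, pauli_smul']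
  rcases z2_cases (bf q p) with a | a <;> rw [a]
  · rw [xp_zero, one_mul, ch_zero, one_smul]
  · rw [xp_one, h.xc p hp, ch_one, neg_one_smul]

theorem pl {p q : Lab} (hp : p ∈ SS) (hq : bf q Mon.tA = 0) :
    A.R (pauli q) (e p) = ch K (bf q p) • e p := Rp.mem_Wt.1 (h.wt hp) q hq

theorem Y0_bot : A.Wt Y0 = ⊥ := h.bot _ Y0_SS (by decide +kernel) (by decide +kernel)

/-- the sum and the difference of the two diagonal weight vectors -/
theorem X_s {i : Pt} (hi : ¬ In i) : A.R (pauli (X 11)) (e (mm (pt 0) i) + e (Y0 * mm (pt 0) i)) =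
    e (mm (pt 0) i) - e (Y0 * mm (pt 0) i) := by
  rw [map_add, h.pl (mm_SS hi) bf_11A, h.pl (Ymm_SS hi) bf_11A, bf_mul', bf_11Y, bf_X11_mm, add_zero,
    ch_zero, ch_one, one_smul, neg_one_smul, sub_eq_add_neg]

theorem s_ne {i : Pt} (hi : ¬ In i) : e (mm (pt 0) i) + e (Y0 * mm (pt 0) i) ≠ 0 := fun a => by
  have b := h.X_s hi
  rw [a, map_zero, eq_comm, sub_eq_zero] at b
  rw [← b, add_eq_zero_iff_eq_neg] at a
  exact h.ne _ (mm_SS hi) (eq_zero_of_neg A.two a)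

theorem R_s {i : Pt} (hi : ¬ In i) {γ : Gt} (a : γ ∈ PA) (b : γ ∈ Np) :
    A.R γ (e (mm (pt 0) i) + e (Y0 * mm (pt 0) i)) =
      e (γ • mm (pt 0) i) + e (Y0 * γ • mm (pt 0) i) := by
  rw [map_add, h.smul γ a _ (mm_SS hi), h.smul γ a _ (Ymm_SS hi), smul_mul', Np_Y0.1 b]

theorem u_mem {i : Pt} (hi : ¬ In i) :
    A.T (A.T (e (mm (pt 0) i) + e (Y0 * mm (pt 0) i))) ∈ A.Wt 1 := by
  have := Rp.WS_cons (A := A) [] Y0 1 (x := A.T (A.T (e (mm (pt 0) i) + e (Y0 * mm (pt 0) i))))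
    (Rp.mem_WS.2 fun q a b => by
      have a := pauli_PA.2 a
      obtain ⟨n, k⟩ := exists_TH (pauli_mem_Np.2 (by rw [← bf_Y0, bf_comm]; exact b _ (by simp)))
      rw [Rp.R_TT a k, h.R_s hi (k.pa.1 a) k.np', bf_one', ch_zero, one_smul]
      rcases Dg.smul_diag rels0 rho_xc_ne k (Dg.m4_C0 (pt 0) i) with c | c <;> rw [mm, c]
      rw [Y0_Y0, add_comm])
  rwa [Rp.WS_nil, Rp.WS_nil, mul_one, h.Y0_bot, sup_bot_eq] at this

theorem r0 [FiniteDimensional K W] (hn : finrank K (A.Wt 1) ≤ 23) : ∃ z : R0 K (A.Wt 1), z.η = η ∧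
    (∀ γ ∈ PA, ∀ v : A.Wt 1, (z.α (gOf γ) v : W) = A.R γ v) ∧
    ∀ i, ¬ In i → (z.u i : W) = A.T (A.T (e (mm (pt 0) i) + e (Y0 * mm (pt 0) i))) := by
  classical
  let α : Co0 → End K (A.Wt 1) := fun g => if k : g ∈ St then
    (A.R (exists_PA k).choose).restrict fun _ => Rp.Wt_one_map (exists_PA k).choose_spec.1 else 1
  have hα : ∀ γ ∈ PA, ∀ v : A.Wt 1, (α (gOf γ) v : W) = A.R γ v := fun γ a v => by
    simp only [α, dif_pos (gOf_St a)]
    exact Rp.Wt_one_congr (exists_PA (gOf_St a)).choose_spec.1 a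
      (exists_PA (gOf_St a)).choose_spec.2 v.2
  let u : Pt → A.Wt 1 := fun i => if hi : ¬ In i then ⟨_, h.u_mem hi⟩ else 0
  have hu : ∀ i, ¬ In i → (u i : W) = A.T (A.T (e (mm (pt 0) i) + e (Y0 * mm (pt 0) i))) :=
    fun i hi => by simp only [u, dif_pos hi]
  have mul : ∀ a ∈ St, ∀ b ∈ St, α (a * b) = α a * α b := fun a x b y => by
    obtain ⟨γ, c, rfl⟩ := exists_PA x
    obtain ⟨δ, d, rfl⟩ := exists_PA y
    ext v
    rw [← map_mul, hα _ (mul_mem c d), Rp.mul_apply c d, End.mul_apply, hα _ c, hα _ d]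
  have one : α 1 = 1 := by
    ext v; rw [← map_one gOf, hα _ (one_mem _), Rp.one_apply]; rfl
  have pm : ∀ {σ : M24}, Fix σ ∨ Swp σ → ∀ i, ¬ In i → (α (permHom σ) (u i) : W) =
      A.T (A.T (e (mm (σ.1 (pt 0)) (σ.1 i)) + e (Y0 * mm (σ.1 (pt 0)) (σ.1 i)))) :=
    fun k i hi => by
      obtain ⟨γ, a, b, c⟩ := exists_C0A k
      rw [← c, hα _ b, hu i hi, Rp.R_TT b (TH.c0 a), h.R_s hi b (C0_le_Np a), C0_mm a c]
  refine ⟨⟨α, u, η, A.two, inferInstance, hn, mul, one, ?_, fun i hi k => ?_, fun c hc k => ?_,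
    fun σ a b i hi => Subtype.ext ?_, fun σ a b i hi => Subtype.ext ?_⟩, rfl, hα, hu⟩
  · ext v; rw [← gOf_kap, hα _ kap_PA, A.kap]; rfl
  · exact h.s_ne hi (Rp.T_inj (Rp.T_inj ((hu i hi).symm.trans
      ((congrArg _ k).trans (by simp)))))
  · refine CS01_ind (P := fun c => ∀ hc : c ∈ CS, ∀ i, ¬ In i →
      α (eps hc) (u i) = ch K (ib c (pt 0) + ib c i) • u i) (fun _ i _ => ?_)
      (fun o ho k hc i hi => Subtype.ext ?_) (fun c hc d hd x y a b _ i hi => ?_) hc k hc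
    · simp [eps, mono_one, ib_empty, one]
    · obtain ⟨σ, rfl⟩ := exists_oct ho
      obtain ⟨p, n, a, b, c⟩ := rels0.theta_oct σ
      have d : X 11 * p * X 11 ≈ₗ cls (tw hc) := Eqv.trans
        ⟨by simp [ix_aba], by simp [ix_aba]⟩ a
      have f : ∀ i j, bf (X 11 * p * X 11) (mm i j) = ib (σ.1 • o1) i + ib (σ.1 • o1) j :=
        fun i j => by rw [d.bf (Eqv.refl _), mm, bf_cls, d8_comm, d8_m4_tw]
      have g : bf (X 11 * p * X 11) Y0 = 0 := by rw [bf_comm, bf_Y0, d.1, cls_a_tw]; rfl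
      have t : bf (X 11 * p * X 11) Mon.tA = 0 := by
        rw [← mm_A, f]; simp only [ib, k, z2_add_self]
      have l : TH (pauli (X 11) * n * pauli (X 11)) (pauli (X 11 * p * X 11)) := by
        rw [map_mul, map_mul]; exact rels0.flip c
      have m := l.pa.2 (pauli_PA.2 t)
      rw [show eps hc = gOf (pauli (X 11) * n * pauli (X 11)) by simp [b], hα _ m,
        Submodule.coe_smul, hu i hi, Rp.R_TT m l, map_add (A.R _), h.pl (mm_SS hi) t,
        h.pl (Ymm_SS hi) t, bf_mul' Y0, f, g, zero_add, ← smul_add, map_smul, map_smul]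
    · rw [← eps_mul hc hd, mul _ (eps_St hc x) _ (eps_St hd y), End.mul_apply, b hd i hi, map_smul,
        a hc i hi, smul_smul, ← ch_add, ib_symmDiff, ib_symmDiff]
      congr 2; ring
  · rw [pm (.inl ⟨a, b⟩) i hi, hu _ (not_in (.inl ⟨a, b⟩) hi), a]
  · have k := not_in (.inr ⟨a, b⟩) hi
    rw [pm (.inr ⟨a, b⟩) i hi, Submodule.coe_smul, hu _ k, a, ← tA_mm k, Y0_tA, h.tA _ (mm_SS k),
      h.tA _ (Ymm_SS k), ← smul_add, map_smul, map_smul]

end Fe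

end CF.Bv
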