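import Cfsg.Agent.Bv.P

/-! The small module for the second Conway group: basis and monomial action. -/

set_option autoImplicit false
set_option maxHeartbeats 400000

namespace CF.Bv

open Cfsg CF.Leech CF.Comp CF.Mon CF.Mon.G CF.Mon.T CF.Mon.L CF.Mon.W4 CF.Known.Mon CF.Classical
open Module Lab MulAction CF.Leech.MD
open scoped Pointwise

variable {K U : Type*} [Field K] [AddCommGroup U] [Module K U]

theorem wt_one {ι κ : Type*} {b : ι → U} (li : LinearIndependent K b) (f : κ → End K U) (l : ι → κ → K)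
    (hb : ∀ i k, f k (b i) = l i k • b i) {v : U} (hv : v ∈ Submodule.span K (Set.range b))
    {m : κ → K} (h : ∀ k, f k v = m k • v) {i : ι} (u : ∀ j, l j = m → j = i) :
    (∃ c : K, v = c • b i) ∧ (v ≠ 0 → l i = m) := by
  have := mem_span_wt li f l hb hv h
  refine ⟨(Submodule.mem_span_singleton.1 (Submodule.span_mono ?_ this)).imp fun _ => Eq.symm, fun n => ?_⟩
  · rintro _ ⟨j, q, rfl⟩
    exact congrArg b (u j q)
  · by_contra q
    rw [show {j | l j = m} = ∅ from Set.eq_empty_of_forall_notMem fun j r => q (u j r ▸ r)] at this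
    exact n (by simpa using this)

/-- the code words that do not separate the two points -/
abbrev C01 : Type := {c : Finset Pt // c ∈ CS ∧ (pt 0 ∈ c ↔ pt 1 ∈ c)}

/-- the sign of a point under a mask -/
def sg (m : ℕ) (i : Pt) : ZMod 2 := (if m.testBit 0 then 1 else 0) + if m.testBit (idx i) then 1 else 0

theorem ib_sg (m : ℕ) (i : Pt) : ib (ofMask m) (pt 0) + ib (ofMask m) i = sg m i := by
  simp only [ib, mem_ofMask]; rfl

def m5 : Fin 5 → ℕ := ![9347075, 628112, 3421328, 4202192, 8541360]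

theorem m5_ck : ∀ j, isCode (m5 j) = true ∧ ((m5 j).testBit 0 = true ↔ (m5 j).testBit 1 = true) := by decide +kernel

/-- the word of a mask -/
def cM (m : ℕ) (h : isCode m = true ∧ (m.testBit 0 = true ↔ m.testBit 1 = true)) : C01 :=
  ⟨ofMask m, ofMask_mem_CS h.1, by rw [pt_mem_ofMask (by norm_num), pt_mem_ofMask (by norm_num)]; exact h.2⟩

def c5 (j : Fin 5) : C01 := cM _ (m5_ck j)

def cw (j : Fin 12) : C01 :=
  ⟨ofMask (w01 j), w01_CS j.2, by rw [pt_mem_ofMask (by norm_num), pt_mem_ofMask (by norm_num)]; exact w01_01 j j.2⟩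

theorem m5_xi : ∀ j : Fin 5, j ≠ 0 → ∀ i < 24, ∀ n < 24,
    xiF (fun p => sgv (m5 j) (fun n => if n = i then 8 else 0) (ap ordC p)) (ap ordI n) =
    sgv (m5 j) (fun n => xiF (fun p => if ap ordC p = i then 8 else 0) (ap ordI n)) n := by decide +kernel

theorem xi_c5 {j : Fin 5} (h : j ≠ 0) : xi * eps (c5 j).2.1 = eps (c5 j).2.1 * xi :=
  co_ext (forall_pt.2 fun i hi => LL.ext (forall_pt.2 fun n hn => by
    rw [mul_smul, mul_smul]
    exact (xi_pt (Dg.eps_pt (m := m5 j) _ (e8_pt i hi)) n hn).trans ((m5_xi j h i hi n hn).trans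
      (Dg.eps_pt (m := m5 j) _ (xi_pt (e8_pt i hi)) n hn).symm)))

theorem sg_ck : (∀ i, ¬ In i → ∀ k, ¬ In k → (∀ j : Fin 12, sg (w01 j) i = sg (w01 j) k) → i = k) ∧
    (∀ i, ¬ In i → ¬ ∀ j, sg (m5 j) i = 0) ∧ (∀ i, ¬ In i → ¬ ∀ j, sg (m5 j) i = if j = 0 then 0 else 1) ∧
    (∀ j, j ≠ 0 → sg (m5 j) (pt 2) = 0 ∧ sg (m5 j) (pt 3) = 0 ∧ sg (m5 j) (pt 4) = 1) ∧
    ∀ i, ¬ (i = pt 0 ∨ i = pt 1 ∨ i = pt 2 ∨ i = pt 3) → ∃ j, j ≠ 0 ∧ sg (m5 j) i = 1 := by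
  refine ⟨?_, ?_, ?_, ?_, ?_⟩ <;> decide +kernel

theorem pX_pt : (tE Dg.pX).1 (pt 0) = pt 1 ∧ (tE Dg.pX).1 (pt 1) = pt 0 ∧ (tE Dg.pX).1 (pt 2) = pt 3 ∧
    (tE Dg.pX).1 (pt 3) = pt 2 ∧ (tE Dg.pX).1 (pt 4) = pt 4 := by
  have k : ∀ i < 24, (tE Dg.pX).1 (pt i) = pt (ap Dg.pX i) := fun i h => by
    rw [← rp_tE Dg.pX_check.2.2.1 i h, pt_idx]
  simp only [k _ (by norm_num : 0 < 24), k _ (by norm_num : 1 < 24), k _ (by norm_num : 2 < 24),
    k _ (by norm_num : 3 < 24), k _ (by norm_num : 4 < 24)]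
  decide +kernel

theorem pX_swp : Swp (tE Dg.pX) := ⟨pX_pt.1, pX_pt.2.1⟩

def cY : C01 := cM Dg.cY (by decide +kernel)

theorem n2 : ¬ In (pt 2) := by decide
theorem n3 : ¬ In (pt 3) := by decide
theorem n4 : ¬ In (pt 4) := by decide

theorem C01.st (c : C01) : eps c.2.1 ∈ St := eps_St _ c.2.2

/-- the image of a word -/
def C01.sm {σ : M24} (h : Fix σ) (c : C01) : C01 := ⟨σ.1 • c.1, smul_mem_CS σ.2 c.2.1, by
  have k := fun i => Finset.smul_mem_smul_finset_iff (s := c.1) (b := i) σ.1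
  have a := k (pt 0)
  have b := k (pt 1)
  rw [Equiv.Perm.smul_def] at a b
  rw [h.1] at a
  rw [h.2] at b
  exact a.trans (c.2.2.trans b.symm)⟩

theorem Fix.inv {σ : M24} (h : Fix σ) : Fix σ⁻¹ :=
  ⟨Equiv.Perm.inv_eq_iff_eq.2 h.1.symm, Equiv.Perm.inv_eq_iff_eq.2 h.2.symm⟩

namespace R0

variable (Z : R0 K U)

theorem ap {a b : Co0} (ha : a ∈ St) (hb : b ∈ St) (v : U) : Z.α (a * b) v = Z.α a (Z.α b v) := by
  rw [Z.mul a ha b hb]; rfl

theorem sw {a b c d : Co0} (ha : a ∈ St) (hb : b ∈ St) (hc : c ∈ St) (hd : d ∈ St) (e : a * b = c * d) (v : U) :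
    Z.α a (Z.α b v) = Z.α c (Z.α d v) := by rw [← Z.ap ha hb, e, Z.ap hc hd]

theorem inj {a : Co0} (ha : a ∈ St) : Function.Injective (Z.α a) :=
  Function.LeftInverse.injective (g := Z.α a⁻¹) fun v => by rw [← Z.ap (inv_mem ha) ha, inv_mul_cancel, Z.one]; rfl

theorem AA (v : U) : Z.α xi (Z.α xi v) = v := by rw [← Z.ap xi_St xi_St, xi_sq, Z.one]; rfl

/-- the sign changes -/
def E (c : C01) : End K U := Z.α (G.eps c.2.1)

theorem E_u (c : C01) {i : Pt} (h : ¬ In i) : Z.E c (Z.u i) = ch K (ib c.1 (pt 0) + ib c.1 i) • Z.u i :=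
  Z.eps _ _ c.2.2 i h

theorem E_comm (c d : C01) (v : U) : Z.E c (Z.E d v) = Z.E d (Z.E c v) :=
  Z.sw c.st d.st d.st c.st (by rw [eps_mul, eps_mul]; exact mono_congr _ _ _ _ rfl (symmDiff_comm ..)) v

theorem E_one {c : Finset Pt} (h : c ∈ CS) (e : c = ∅) : Z.α (G.eps h) = 1 := by
  subst e; exact (congrArg Z.α mono_one).trans Z.one

theorem EE (c : C01) (v : U) : Z.E c (Z.E c v) = v := by
  rw [E, ← Z.ap c.st c.st, eps_mul, Z.E_one _ (symmDiff_self _)]; rfl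

theorem E_A {j : Fin 5} (h : j ≠ 0) (v : U) : Z.E (c5 j) (Z.α xi v) = Z.α xi (Z.E (c5 j) v) :=
  Z.sw (C01.st _) xi_St xi_St (C01.st _) (xi_c5 h).symm v

theorem g2_A (v : U) : Z.E cY (Z.α (permHom (tE Dg.pX)) (Z.α xi v)) = Z.α xi (Z.E (c5 0) v) := by
  rw [E, ← Z.ap (C01.st _) pX_swp.st]
  exact Z.sw (mul_mem (C01.st _) pX_swp.st) xi_St xi_St (C01.st _) (mul_inv_eq_iff_eq_mul.1 Dg.xi_conj).symm v

theorem g1_A (v : U) : Z.E (c5 0) (Z.α xi v) = Z.α xi (Z.E cY (Z.α (permHom (tE Dg.pX)) v)) :=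
  Z.inj xi_St (by rw [← g2_A, AA, AA])

theorem li_u : LinearIndependent K fun i : {i // ¬ In i} => Z.u i :=
  Dg.li_of_wsp (fun j => Z.E (cw j)) (L := fun (i : {i // ¬ In i}) j => ch K (sg (w01 j) i))
    (fun i k e => Subtype.ext (sg_ck.1 i i.2 k k.2 fun j => ch_inj Z.two (congrFun e j))) (fun i => Z.ne _ i.2)
    fun i j => (Z.E_u _ i.2).trans (congrArg (ch K · • _) (ib_sg ..))

theorem E5 (j : Fin 5) {i : Pt} (h : ¬ In i) : Z.E (c5 j) (Z.u i) = ch K (sg (m5 j) i) • Z.u i :=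
  (Z.E_u _ h).trans (congrArg (ch K · • _) (ib_sg ..))

theorem EY {i : Pt} (h : ¬ In i) : Z.E cY (Z.u i) = ch K (sg Dg.cY i) • Z.u i :=
  (Z.E_u _ h).trans (congrArg (ch K · • _) (ib_sg ..))

/-- the basis before the sign is known -/
noncomputable def b0 (k : J1) : U := if k.1 = pt 0 then Z.α xi (Z.u (pt 2) - ch K Z.η • Z.u (pt 3)) else Z.u k

theorem b0_wt (k : J1) (j : Fin 5) : Z.E (c5 j) (Z.b0 k) = ch K (if k.1 = pt 0 then 0 else sg (m5 j) k) • Z.b0 k := by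
  rw [b0]
  split_ifs with h
  swap
  · exact Z.E5 j (not_or.2 ⟨h, k.2⟩)
  rw [ch_zero, one_smul]
  by_cases c : j = 0
  · rw [c, g1_A, map_sub, map_smul, Z.swap _ pX_pt.1 pX_pt.2.1 _ n2, Z.swap _ pX_pt.1 pX_pt.2.1 _ n3, pX_pt.2.2.1,
      pX_pt.2.2.2.1, ch_ch, map_sub, map_smul, EY _ n2, EY _ n3, show sg Dg.cY (pt 2) = 1 by decide +kernel,
      show sg Dg.cY (pt 3) = 1 by decide +kernel]
    congr 1
    simp only [ch_one, neg_smul, one_smul, smul_neg]; abel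
  · rw [E_A _ c, map_sub, map_smul, E5 _ _ n2, E5 _ _ n3, (sg_ck.2.2.2.1 j c).1, (sg_ck.2.2.2.1 j c).2.1, ch_zero,
      one_smul, one_smul]

theorem li0 : LinearIndependent K Z.b0 := by
  let e : Option {i // ¬ In i} ≃ J1 :=
    { toFun := fun o => o.elim ⟨pt 0, p01⟩ fun i => ⟨i, fun q => i.2 (.inr q)⟩
      invFun := fun k => if h : k.1 = pt 0 then none else some ⟨k, not_or.2 ⟨h, k.2⟩⟩
      left_inv := by
        rintro (_ | i)
        exacts [dif_pos rfl, dif_neg fun q => i.2 (.inl q)]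
      right_inv := fun k => by
        beta_reduce
        split_ifs with h
        exacts [Subtype.ext h.symm, rfl] }
  have n : Z.b0 ⟨pt 0, p01⟩ ≠ 0 := by
    rw [b0, if_pos rfl, map_ne_zero_iff _ (Z.inj xi_St), sub_ne_zero]
    intro q
    exact Z.li_u.notMem_span_image (s := {⟨_, n3⟩}) (x := ⟨_, n2⟩) (by decide)
      (q ▸ Submodule.smul_mem _ _ (Submodule.subset_span ⟨_, rfl, rfl⟩))
  rw [← linearIndependent_equiv e]
  convert Z.li_u.option (x := Z.b0 ⟨pt 0, p01⟩) fun q => sg_ck.2.1 _ n2 fun j => ch_inj Z.two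
    (congrFun ((wt_one Z.li_u (fun j => Z.E (c5 j)) (fun i j => ch K (sg (m5 j) i)) (fun i j => Z.E5 j i.2) q
      (m := fun _ => ch K 0) (fun j => (Z.b0_wt _ j).trans (by rw [if_pos rfl])) (i := ⟨_, n2⟩) fun k r =>
        (sg_ck.2.1 _ k.2 fun j => ch_inj Z.two (congrFun r j)).elim).2 n) j) with o
  rcases o with _ | i
  exacts [rfl, if_neg fun q => i.2 (.inl q)]

theorem top0 : Submodule.span K (Set.range Z.b0) = ⊤ := by
  haveI := Z.fd
  refine Submodule.eq_top_of_finrank_eq (le_antisymm (Submodule.finrank_le _) (Z.fr.trans ?_))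
  rw [finrank_span_eq_card Z.li0]
  decide

theorem eta : Z.η = 1 := (z2_cases _).resolve_left fun h => by
  have := (wt_one Z.li0 (fun j => Z.E (c5 j)) _ Z.b0_wt (v := Z.α xi (Z.u (pt 4))) (Z.top0.ge trivial)
    (m := fun j => ch K (if j = 0 then 0 else 1)) (fun j => ?_) (i := ⟨pt 0, p01⟩) fun k r => ?_).2
    ((map_ne_zero_iff _ (Z.inj xi_St)).2 (Z.ne _ n4))
  · exact absurd (ch_inj Z.two (congrFun this 1)) (by decide)
  · split_ifs with c
    · rw [c, g1_A, Z.swap _ pX_pt.1 pX_pt.2.1 _ n4, pX_pt.2.2.2.2, h, ch_zero, one_smul, one_smul, EY _ n4,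
        show sg Dg.cY (pt 4) = 0 by decide +kernel, ch_zero, one_smul]
    · rw [E_A _ c, E5 _ _ n4, (sg_ck.2.2.2.1 j c).2.2, map_smul]
  · by_contra q
    have q : k.1 ≠ pt 0 := fun s => q (Subtype.ext s)
    exact sg_ck.2.2.1 k (not_or.2 ⟨q, k.2⟩) fun j => ch_inj Z.two (by simpa only [if_neg q] using congrFun r j)

theorem b_eq : Z.b = Z.b0 := funext fun k => by rw [b, b0, Z.eta, ch_one, neg_one_smul, sub_neg_eq_add, f]

theorem li : LinearIndependent K Z.b := Z.b_eq ▸ Z.li0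

theorem top : Submodule.span K (Set.range Z.b) = ⊤ := Z.b_eq ▸ Z.top0

theorem b_wt (k : J1) (j : Fin 5) : Z.E (c5 j) (Z.b k) = ch K (if k.1 = pt 0 then 0 else sg (m5 j) k) • Z.b k :=
  Z.b_eq ▸ Z.b0_wt k j

theorem b_f : Z.b ⟨pt 0, p01⟩ = Z.f := if_pos rfl

theorem b_u {i : Pt} (h : ¬ In i) : Z.b ⟨i, fun q => h (.inr q)⟩ = Z.u i := if_neg fun q => h (.inl q)

theorem f_ne : Z.f ≠ 0 := Z.b_f ▸ Z.li.ne_zero _

theorem E5_f (j : Fin 5) : Z.E (c5 j) Z.f = Z.f := by simpa [b_f] using Z.b_wt ⟨pt 0, p01⟩ j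

theorem xi_u {i : Pt} (h : i ∉ ({pt 0, pt 1, pt 2, pt 3} : Set Pt)) :
    Z.α xi (Z.u i) ∈ Submodule.span K (Z.u '' ({pt 0, pt 1, pt 2, pt 3} : Set Pt)ᶜ) := by
  obtain ⟨j, j1, j2⟩ := sg_ck.2.2.2.2 i h
  have n : ¬ In i := fun q => h (q.imp_right .inl)
  refine Submodule.span_mono ?_ (mem_span_wt Z.li (fun _ : Unit => Z.E (c5 j)) _ (fun k _ => Z.b_wt k j)
    (Z.top.ge trivial) (m := fun _ => ch K 1) fun _ => by rw [E_A _ j1, E5 _ _ n, j2, map_smul])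
  rintro _ ⟨k, q, rfl⟩
  have q := ch_inj Z.two (congrFun q ())
  have s := sg_ck.2.2.2.1 j j1
  split_ifs at q with c
  · cases q
  refine ⟨k, ?_, (if_neg c).symm⟩
  rintro (r | r | r | r)
  exacts [c r, k.2 r, absurd (s.1.symm.trans (r ▸ q)) (by decide), absurd (s.2.1.symm.trans (r ▸ q)) (by decide)]

theorem fix5 {v : U} (h : ∀ j, Z.E (c5 j) v = v) : ∃ c : K, v = c • Z.f :=
  Z.b_f ▸ (wt_one Z.li (fun j => Z.E (c5 j)) _ Z.b_wt (Z.top.ge trivial) (m := fun _ => ch K 0)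
    (fun j => by rw [h, ch_zero, one_smul]) (i := ⟨pt 0, p01⟩) fun k r => by
      by_contra q
      have q : k.1 ≠ pt 0 := fun s => q (Subtype.ext s)
      exact sg_ck.2.1 k (not_or.2 ⟨q, k.2⟩) fun j => ch_inj Z.two (by simpa only [if_neg q] using congrFun r j)).1

theorem perm_E {σ : M24} (h : Fix σ) (c : C01) (v : U) :
    Z.E (c.sm h) (Z.α (permHom σ) v) = Z.α (permHom σ) (Z.E c v) :=
  Z.sw (C01.st _) h.st h.st c.st (mul_inv_eq_iff_eq_mul.1 (perm_eps σ c.2.1)).symm v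

theorem perm_f0 {σ : M24} (h : Fix σ) : (∃ x : K, Z.α (permHom σ) Z.f = x • Z.f) ∧
    ∀ c : C01, Z.E (c.sm h) Z.f = Z.E c Z.f := by
  choose ψ hψ using fun c => Z.fix5 (v := Z.E c Z.f) fun j => by rw [E_comm, E5_f]
  have i : ∀ c : C01, (c.sm h).sm h.inv = c := fun c => Subtype.ext (inv_smul_smul _ _)
  have := wt_one Z.li Z.E (fun k c => if k.1 = pt 0 then ψ c else ch K (ib c.1 (pt 0) + ib c.1 k)) (fun k c => by
    rw [b]
    split_ifs with q
    exacts [hψ c, Z.E_u c (not_or.2 ⟨q, k.2⟩)]) (v := Z.α (permHom σ) Z.f) (Z.top.ge trivial)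
    (m := fun c => ψ (c.sm h.inv)) (fun c => by
      rw [← map_smul, ← hψ, ← Z.perm_E h, show (c.sm h.inv).sm h = c from Subtype.ext (smul_inv_smul _ _)])
    (i := ⟨pt 0, p01⟩) fun k r => by
      by_contra q
      have q : k.1 ≠ pt 0 := fun s => q (Subtype.ext s)
      refine sg_ck.2.1 _ (not_in (.inl h.inv) (not_or.2 ⟨q, k.2⟩)) fun j => ch_inj Z.two ?_
      have := congrFun r ((c5 j).sm h)
      simp only [if_neg q, i] at this
      rw [ch_zero, ← smul_left_injective K Z.f_ne ((hψ _).symm.trans ((Z.E5_f j).trans (one_smul K _).symm)), ← this,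
        ← ib_sg, ← ib_smul σ.1 _ (pt 0), ← ib_smul σ.1 _ (σ⁻¹.1 k), h.1]
      simp [C01.sm, c5, cM]
  refine ⟨Z.b_f ▸ this.1, fun c => ?_⟩
  have := congrFun (this.2 ((map_ne_zero_iff _ (Z.inj h.st)).2 Z.f_ne)) (c.sm h)
  rw [hψ, hψ, ← i c, ← this, if_pos rfl, i]

theorem perm_f {σ : M24} (h : Fix σ) : Z.α (permHom σ) Z.f = Z.f := by
  have : ∀ σ, ∃ x : K, Fix σ → Z.α (permHom σ) Z.f = x • Z.f := fun σ => (em (Fix σ)).elim
    (fun q => (Z.perm_f0 q).1.imp fun _ r _ => r) fun q => ⟨0, fun r => (q r).elim⟩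
  choose χ hχ using this
  rw [hχ σ h, M22_char χ (fun a p b q => smul_left_injective K Z.f_ne (by
    beta_reduce
    rw [← hχ _ (F2.mul_mem p q), map_mul, Z.ap p.st q.st, hχ b q, map_smul, hχ a p, smul_smul, mul_comm]))
    (smul_left_injective K Z.f_ne (by
      beta_reduce
      rw [← hχ 1 ⟨rfl, rfl⟩, map_one, Z.one, one_smul]; rfl)) h, one_smul]

end R0

def s11 : ℕ := 0xab92b51da5811e235a5788d1464c20

noncomputable def mW (j : ℕ) : ℕ := nth 0 [0, 0, 14709264, 14023156, 5983592, 8773776, 3788592, 10605492, 9869772, 2810896,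
  13667400, 7693232] j

theorem s11_ck : (isM24 s11 = true ∧ ap s11 0 = 0 ∧ ap s11 1 = 1) ∧ ∀ j < 12, j ≠ 1 → (isCode (mW j) = true ∧
    ((mW j).testBit 0 = true ↔ (mW j).testBit 1 = true)) ∧ w01 j = Nat.xor (mW j) (img (ap s11) (mW j)) := by
  decide +kernel

namespace R0

variable (Z : R0 K U)

theorem eps_f {c : Finset Pt} (hc : c ∈ CS) (h : pt 0 ∈ c ↔ pt 1 ∈ c) : Z.α (G.eps hc) Z.f = Z.f := by
  have r := rp_tE s11_ck.1.1
  have s : Fix (tE s11) := ⟨(idx_eq_iff (by norm_num)).1 ((r 0 (by norm_num)).trans s11_ck.1.2.1),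
    (idx_eq_iff (by norm_num)).1 ((r 1 (by norm_num)).trans s11_ck.1.2.2)⟩
  refine CS01_bas (P := fun c => ∀ hc : c ∈ CS, Z.α (G.eps hc) Z.f = Z.f) (fun q => by rw [Z.E_one q rfl]; rfl)
    (fun j hj q => ?_) (fun c p d q a b x y _ => ?_) hc h hc
  · by_cases e : j = 1
    · subst e; exact Z.E5_f 0
    obtain ⟨a, b⟩ := s11_ck.2 j hj e
    have := Z.EE (cM _ a) Z.f
    rw [← (Z.perm_f0 s).2, E, E, ← Z.ap (C01.st _) (C01.st _), eps_mul] at this
    exact (congrArg (Z.α · Z.f) (mono_congr _ _ _ _ rfl (by rw [b, ofMask_xor, ← smul_ofMask r]; rfl))).trans this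
  · rw [← eps_mul p q, Z.ap (eps_St p a) (eps_St q b), y, x]

theorem swap_f {σ : M24} (h : Swp σ) : Z.α (permHom σ) Z.f = -Z.f := by
  have a : Z.α (permHom (tE Dg.pX)) Z.f = -Z.f := by
    rw [← Z.EE cY (Z.α _ _), f, g2_A, map_add, E5 _ _ n2, E5 _ _ n3, show sg (m5 0) (pt 2) = 1 by decide +kernel,
      show sg (m5 0) (pt 3) = 1 by decide +kernel, ← smul_add, ch_one, neg_one_smul, map_neg, map_neg]
    exact congrArg _ (Z.eps_f _ cY.2.2)
  have b : Fix (σ * (tE Dg.pX)⁻¹) := ⟨(congrArg σ.1 (Equiv.Perm.inv_eq_iff_eq.2 pX_pt.2.1.symm)).trans h.2,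
    (congrArg σ.1 (Equiv.Perm.inv_eq_iff_eq.2 pX_pt.1.symm)).trans h.1⟩
  rw [← inv_mul_cancel_right σ (tE Dg.pX), map_mul, Z.ap b.st pX_swp.st, a, map_neg, Z.perm_f b]

end R0

end CF.Bv
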