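import Cfsg.Agent.Bv.S2
import Cfsg.Agent.Bv.Z1

/-! The frame of a small module. -/

set_option autoImplicit false
set_option maxHeartbeats 400000

namespace CF.Bv

open Cfsg CF.Leech CF.Comp CF.Mon CF.Mon.G CF.Mon.T CF.Mon.L CF.Mon.W4 CF.Known.Mon CF.Classical
open Module Lab MulAction Matrix

variable {K W : Type*} [Field K] [AddCommGroup W] [Module K W]

theorem bf_J3 {w : Ix} (h : w 0 = w 1) : bf ⟨w, 0, 0⟩ tA = 0 := by
  rw [bf_comm, bf_tA, tA_dot]; exact (congrArg (· + w 1) h).trans (z2_add_self _)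

theorem J2_eq {p q : J2} (h : p.1 ≈ₗ q.1 ∨ p.1 ≈ₗ tA * q.1) : p = q := by
  refine Subtype.ext (Lab.ext ?_ ?_ (p.2.2.1.trans q.2.2.1.symm)) <;> rcases h with h | h
  exacts [h.1, by simpa [tA_a] using h.1, h.2, absurd (congrFun h.2 0) (by
    rw [mul_b, Pi.add_apply, p.2.2.2, q.2.2.2, tA_b0]; decide)]

theorem SS_ne {p : Lab} (h : p ∈ SS) : ¬ (p ≈ₗ 1 ∨ p ≈ₗ tA) := by
  obtain ⟨γ, a, rfl⟩ := h
  rintro (e | e) <;> have := e.smul γ⁻¹ <;> rw [inv_smul_smul] at this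
  · rw [smul_one] at this; exact absurd this (by decide +kernel)
  · rw [mem_PA.1 (inv_mem a)] at this; exact absurd this (by decide +kernel)

namespace Fe

variable {A : Rp K W} {e : Lab → W} {η : ZMod 2} (h : Fe A e η)
include h

theorem v0_dg {z : Lab} (hz : z.a = 0) :
    A.R (pauli z) (A.T (A.T (e p0))) = ch K z.s • A.T (A.T (e p0)) := by
  let R : Subgroup Lab :=
    { carrier := {z | z.a = 0 ∧ A.R (pauli z) (A.T (A.T (e p0))) = ch K z.s • A.T (A.T (e p0))}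
      mul_mem' := fun {p q} x y => ⟨by rw [mul_a, x.1, y.1, add_zero], by
        rw [Rp.pp (bf_diag x.1 tA_a) (bf_diag y.1 tA_a), y.2, map_smul, x.2, smul_smul, mul_s, y.1,
          dotProduct_zero, add_zero, ch_add, mul_comm]⟩
      one_mem' := ⟨rfl, by rw [map_one, Rp.one_apply, one_s, ch_zero, one_smul]⟩
      inv_mem' := fun {p} x => by rwa [show p⁻¹ = p from Lab.ext rfl rfl (by simp [x.1])] }
  refine (mem_of_Z (R := R) ⟨rfl, ?_⟩ (fun k => ⟨rfl, ?_⟩) hz).2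
  · rw [Rp.R_TT xc_PA rels0.tau_x, h.pl p0_SS (pauli_PA.1 Y0_PA), bf_Y0, p0_a, map_smul, map_smul]
    rfl
  · by_cases a : k = 11
    · rw [a, Rp.R_TT (diag_PA rfl) rels0.tau_z, h.pl p0_SS (bf_xc _), bf_xc, map_smul, map_smul]
      rfl
    · rw [Rp.R_TT (diag_PA rfl) (TH.c0 (Z_mem_C0 a)), h.pl p0_SS (bf_diag rfl tA_a), bf_Z, p0_a,
        Pi.single_eq_of_ne a, map_smul, map_smul]
      rfl

theorem g_dg {z : Lab} (hz : z.a = 0) {w : Ix} (hw : w 0 = w 1) :
    A.R (pauli z) (A.R (pauli ⟨w, 0, 0⟩) (A.T (A.T (e p0)))) =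
      ch K (z.s + z.b ⬝ᵥ w) • A.R (pauli ⟨w, 0, 0⟩) (A.T (A.T (e p0))) := by
  have a : (xp (z.b ⬝ᵥ w) * z).a = 0 := by simp [hz]
  have := Rp.conj_p (A := A) (pauli_PA.2 (bf_J3 hw)) (bf_diag a tA_a) (A.T (A.T (e p0)))
  rw [pauli_smul', bf_comm, bf_dg a, ← mul_assoc, ← xp_add, h.v0_dg a, map_smul] at this
  simpa [z2_add_self, add_comm, hz] using this

theorem g_Vm {w : Ix} (hw : w 0 = w 1) : A.R (pauli ⟨w, 0, 0⟩) (A.T (A.T (e p0))) ∈ A.Vm :=
  Rp.mem_Vm.2 (by simpa using h.g_dg (z := Lab.xc) rfl hw)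

theorem g_ne {w : Ix} (hw : w 0 = w 1) : A.R (pauli ⟨w, 0, 0⟩) (A.T (A.T (e p0))) ≠ 0 := fun k =>
  h.ne _ p0_SS (Rp.T_inj (Rp.T_inj (Rp.inj (pauli_PA.2 (bf_J3 hw)) (k.trans (by simp)))))

theorem li3 : LinearIndependent K fun w : J3 => A.R (pauli ⟨w, 0, 0⟩) (A.T (A.T (e p0))) :=
  Dg.li_of_wsp (fun k => A.R (pauli (Z k))) (L := fun (w : J3) k => ch K (w.1 k))
    (fun _ _ a => Subtype.ext (funext fun k => ch_inj A.two (congrFun a k))) (fun w => h.g_ne w.2)
    fun w k => by simpa [Z] using h.g_dg (z := Z k) rfl w.2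

omit h in
theorem wt_inj (h2 : (2 : K) ≠ 0) : Function.Injective fun (p : J2) (q : {q : Lab // bf q Mon.tA = 0}) =>
    ch K (bf q p) := fun _ _ a => J2_eq (eqv_of_bf fun q hq => ch_inj h2 (congrFun a ⟨q, hq⟩))

theorem li2 : LinearIndependent K fun p : J2 => e p := by
  have := Fintype.ofFinite J2
  exact Dg.li_of_wsp (fun q : {q : Lab // bf q Mon.tA = 0} => A.R (pauli q)) (wt_inj A.two)
    (fun p => h.ne _ p.2.1) fun p => h.wt p.2.1

theorem li' {ι : Type*} {b : ι → W} (hb : ∀ k, b k ∈ A.Wt 1) (hz : LinearIndependent K b) :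
    LinearIndependent K (Sum.elim b (Sum.elim (fun p : J2 => e p)
      fun w : J3 => A.R (pauli ⟨w, 0, 0⟩) (A.T (A.T (e p0))))) := by
  classical
  have := Fintype.ofFinite J2
  have s2 : Submodule.span K (Set.range fun p : J2 => e p) ≤
      End.eigenspace (A.R (pauli Lab.xc)) (ch K 0) := Submodule.span_le.2 (by
    rintro _ ⟨p, rfl⟩
    exact End.mem_eigenspace_iff.2 (by simpa using Rp.Wt_xc (h.wt p.2.1)))
  have s3 : Submodule.span K (Set.range fun w : J3 => A.R (pauli ⟨w, 0, 0⟩) (A.T (A.T (e p0)))) ≤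
      End.eigenspace (A.R (pauli Lab.xc)) (ch K 1) := Submodule.span_le.2 (by
    rintro _ ⟨w, rfl⟩
    exact End.mem_eigenspace_iff.2 (by simpa using Rp.mem_Vm.1 (h.g_Vm w.2)))
  refine hz.sum_type (h.li2.sum_type h.li3 ((disj_eig A.two _).mono s2 s3))
    (Disjoint.mono_left (b := A.Wt 1) (Submodule.span_le.2 (by rintro _ ⟨k, rfl⟩; exact hb k))
      (Submodule.disjoint_def.2 fun v a c => ?_))
  rw [Set.Sum.elim_range, Submodule.span_union] at c
  obtain ⟨x, hx, y, hy, rfl⟩ := Submodule.mem_sup.1 c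
  obtain rfl : y = 0 := Submodule.disjoint_def.1 (disj_eig A.two _) y ((Submodule.add_mem_iff_right _
    (s2 hx)).1 (End.mem_eigenspace_iff.2 (by simpa using Rp.Wt_xc a))) (s3 hy)
  rw [add_zero] at a ⊢
  refine Submodule.disjoint_def.1 (disjoint_wsp_sup _ (Finset.univ.image
    fun (p : J2) (q : {q : Lab // bf q Mon.tA = 0}) => ch K (bf q p)) fun k => ?_) x a
    (Submodule.span_le.2 ?_ hx)
  · obtain ⟨p, -, k⟩ := Finset.mem_image.1 k
    exact SS_ne p.2.1 (by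
      simpa using eqv_of_bf fun q hq => ch_inj A.two (congrFun k ⟨q, hq⟩))
  · rintro _ ⟨p, rfl⟩
    exact Finset.le_sup (f := wsp fun q : {q : Lab // bf q Mon.tA = 0} => A.R (pauli q))
      (Finset.mem_image_of_mem _ (Finset.mem_univ p)) (h.wt p.2.1)

theorem dim [FiniteDimensional K W] : finrank K (A.Wt 1) + 4348 ≤ finrank K W := by
  have := Fintype.ofFinite J2
  have := (h.li' (fun k => (finBasis K (A.Wt 1) k).2) ((finBasis K (A.Wt 1)).linearIndependent.map'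
    (A.Wt 1).subtype (Submodule.ker_subtype _))).fintype_card_le_finrank
  rwa [← Nat.card_eq_fintype_card, Nat.card_sum, Nat.card_sum, card_J2, card_J3, Nat.card_fin]
    at this

theorem li (z : R0 K (A.Wt 1)) (hz : LinearIndependent K z.b) : LinearIndependent K (bas A e z) :=
  h.li' (fun k => (z.b k).2) (hz.map' (A.Wt 1).subtype (Submodule.ker_subtype _))

end Fe

theorem Rp.exists_Fr [FiniteDimensional K W] (A : Rp K W) (hx : A.R (pauli xc) ≠ 1)
    (hn : finrank K W ≤ 4371) : Nonempty (Fr A) := by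
  obtain ⟨e, η, h⟩ := A.exists_Fe hx hn
  obtain ⟨z, a, b, c⟩ := h.r0 (by have := h.dim; omega)
  obtain rfl : η = 1 := a.symm.trans z.eta
  have := Fintype.ofFinite JJ
  have l := h.li z z.li
  exact ⟨⟨e, z, h, b, c, l, Submodule.eq_top_of_finrank_eq (le_antisymm (Submodule.finrank_le _) (by
    rwa [finrank_span_eq_card l, ← Nat.card_eq_fintype_card, card_JJ]))⟩⟩

/-- the basis of a frame -/
noncomputable def Fr.B {A : Rp K W} (F : Fr A) : Basis JJ K W := Basis.mk F.li F.top.ge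

theorem Fr.B_apply {A : Rp K W} (F : Fr A) (j : JJ) : F.B j = bas A F.e F.z j := Basis.mk_apply ..

theorem Fr.finrank {A : Rp K W} (F : Fr A) : finrank K W = 4371 := by
  have := Fintype.ofFinite JJ
  rw [finrank_eq_card_basis F.B, ← Nat.card_eq_fintype_card, card_JJ]

end CF.Bv
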