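import Cfsg.Agent.Bv.Z1
import Cfsg.Agent.Bv.G

/-! Uniqueness of the small module for the second Conway group. -/

set_option autoImplicit false
set_option maxHeartbeats 400000

namespace CF.Bv

open Cfsg CF.Leech CF.Comp CF.Mon CF.Mon.G CF.Mon.T CF.Mon.L CF.Mon.W4 CF.Known.Mon CF.Classical
open Module Lab MulAction CF.Leech.MD

variable {K U U' : Type*} [Field K] [AddCommGroup U] [Module K U] [AddCommGroup U'] [Module K U']

/-- the first tetrad -/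
abbrev T0 : Set Pt := {pt 0, pt 1, pt 2, pt 3}

theorem T0_in {i : Pt} (h : i ∉ T0) : ¬ In i := fun q => h (q.imp_right .inl)

theorem x0_zero {i : Pt} (h : i ∉ T0) : ((xi • e8 (pt 0) : LL) : V) i = 0 := by
  obtain ⟨n, hn, rfl⟩ : ∃ n < 24, pt n = i := ⟨_, idx_lt i, pt_idx i⟩
  rw [xi_pt (e8_pt 0 (by norm_num)) n hn]
  change ¬ (pt n = pt 0 ∨ pt n = pt 1 ∨ pt n = pt 2 ∨ pt n = pt 3) at h
  revert n; decide +kernel

theorem xi_mon {g : Co0} (h : g • xi • e8 (pt 0) = xi • e8 (pt 0)) : xi * g * xi ∈ Mon :=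
  smul_w8_iff.1 (by rw [← red_e8' (pt 0), ← red_smul, mul_smul, mul_smul, h, ← mul_smul, xi_sq, one_smul])

theorem xi_eps {c : Finset Pt} (hc : c ∈ CS) (h : ∀ i ∈ c, i ∉ T0) : xi * eps hc * xi ∈ Mon :=
  xi_mon (LL.ext fun i => by
    rw [eps_apply]
    split_ifs with q
    exacts [by rw [x0_zero (h i q), neg_zero], rfl])

theorem xi_perm {σ : M24} (h : ∀ i ∈ T0, σ.1 i = i) : xi * permHom σ * xi ∈ Mon :=
  xi_mon (LL.ext fun i => by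
    rw [permHom_smul]
    by_cases q : i ∈ T0
    · rw [(Equiv.symm_apply_eq _).2 (h i q).symm]
    · rw [x0_zero q, x0_zero fun r => q (by rw [← σ.1.apply_symm_apply i, h _ r]; exact r)])

def cx : C01 := cM 13938692 (by decide +kernel)
def c3 : C01 := cM 3416079 (by decide +kernel)

/-- one step of the braid relation on packed vectors -/
def stp (f : ℕ → ℤ) (n : ℕ) : ℤ := xiF (fun p => sgv 13938692 f (ap ordC p)) (ap ordI n)

theorem cx_ck : ∀ i < 24, ∀ n < 24, stp (stp (stp fun n => if n = i then 8 else 0)) n =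
    sgv 3416079 (fun n => if n = i then 8 else 0) n := by decide +kernel

theorem xi_cx : xi * eps cx.2.1 * (xi * eps cx.2.1 * (xi * eps cx.2.1)) = eps c3.2.1 :=
  co_ext (forall_pt.2 fun i hi => LL.ext (forall_pt.2 fun n hn => by
    simp only [mul_smul]
    exact (xi_pt (Dg.eps_pt (m := 13938692) _ (xi_pt (Dg.eps_pt (m := 13938692) _ (xi_pt (Dg.eps_pt (m := 13938692) _
      (e8_pt i hi)))))) n hn).trans ((cx_ck i hi n hn).trans (Dg.eps_pt (m := 3416079) _ (e8_pt i hi) n hn).symm)))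

theorem w_ck : (∀ j : Fin 8, ∀ i, (w01 (j + 4)).testBit (idx i) = true → ¬ (i = pt 0 ∨ i = pt 1 ∨ i = pt 2 ∨ i = pt 3)) ∧
    ∀ i, ¬ (i = pt 0 ∨ i = pt 1 ∨ i = pt 2 ∨ i = pt 3) → ∀ k, ¬ (k = pt 0 ∨ k = pt 1 ∨ k = pt 2 ∨ k = pt 3) →
      (∀ j : Fin 8, sg (w01 (j + 4)) k = sg (w01 (j + 4)) i) → k = i := by
  refine ⟨?_, ?_⟩ <;> decide +kernel

namespace R0

variable (Z : R0 K U) (Z' : R0 K U') (Φ : U →ₗ[K] U')

theorem braid (v : U) : Z.α xi (Z.E cx (Z.α xi (Z.E cx (Z.α xi (Z.E cx v))))) = Z.E c3 v := by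
  have s := mul_mem xi_St cx.st
  rw [E, E, ← xi_cx, Z.ap s (mul_mem s s), Z.ap s s, Z.ap xi_St cx.st, Z.ap xi_St cx.st, Z.ap xi_St cx.st]

theorem A23 : Z.α xi (Z.u (pt 3) - Z.u (pt 2)) = Z.u (pt 3) - Z.u (pt 2) := by
  have x : Z.E cx (Z.u (pt 2) + Z.u (pt 3)) = Z.u (pt 3) - Z.u (pt 2) := by
    rw [map_add, E_u _ _ n2, E_u _ _ n3, show ib cx.1 (pt 0) + ib cx.1 (pt 2) = 1 from (ib_sg ..).trans (by decide +kernel),
      show ib cx.1 (pt 0) + ib cx.1 (pt 3) = 0 from (ib_sg ..).trans (by decide +kernel)]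
    simp only [ch_one, ch_zero, neg_smul, one_smul]; abel
  have := Z.braid Z.f
  rw [show Z.E cx Z.f = Z.f from Z.eps_f _ cx.2.2, show Z.E c3 Z.f = Z.f from Z.eps_f _ c3.2.2, f, AA, x] at this
  rw [← Z.EE cx (Z.α xi _), Z.inj xi_St this, x]

/-- the span of the vectors outside the tetrad -/
def S : Submodule K U := Submodule.span K (Set.range fun i : {i // i ∉ T0} => Z.u i)

theorem u_S {i : Pt} (h : i ∉ T0) : Z.u i ∈ Z.S := Submodule.subset_span ⟨⟨i, h⟩, rfl⟩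

theorem map_S {Z : R0 K U} {Z' : R0 K U'} {Φ : U →ₗ[K] U'} (h : ∀ i ∉ T0, Φ (Z.u i) ∈ S Z') {v : U} (hv : v ∈ S Z) : Φ v ∈ S Z' :=
  (Submodule.span_le (p := (S Z').comap Φ)).2 (by rintro _ ⟨i, rfl⟩; exact h i i.2) hv

theorem A_S {v : U} (hv : v ∈ Z.S) : Z.α xi v ∈ Z.S :=
  map_S (fun _ h => Submodule.span_mono (by rintro _ ⟨k, q, rfl⟩; exact ⟨⟨k, q⟩, rfl⟩) (Z.xi_u h)) hv

theorem E_S (c : C01) {v : U} (hv : v ∈ Z.S) : Z.E c v ∈ Z.S :=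
  map_S (fun _ h => Z.E_u c (T0_in h) ▸ Submodule.smul_mem _ _ (Z.u_S h)) hv

theorem Ew (i : {i // i ∉ T0}) (j : Fin 8) :
    Z.E (cw ⟨j + 4, by omega⟩) (Z.u i) = ch K (sg (w01 (j + 4)) i) • Z.u i :=
  (Z.E_u _ (T0_in i.2)).trans (congrArg (ch K · • _) (ib_sg ..))

/-- the elements that commute with a linear map -/
def Hs : Subgroup Co0 where
  carrier := {g | g ∈ St ∧ ∀ v, Φ (Z.α g v) = Z'.α g (Φ v)}
  one_mem' := ⟨one_mem _, fun v => by rw [Z.one, Z'.one]; rfl⟩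
  mul_mem' := fun {a b} p q => ⟨mul_mem p.1 q.1, fun v => by rw [Z.ap p.1 q.1, Z'.ap p.1 q.1, p.2, q.2]⟩
  inv_mem' := fun {a} p => ⟨inv_mem p.1, fun v => Z'.inj p.1 (by
    rw [← p.2, ← Z.ap p.1 (inv_mem p.1), ← Z'.ap p.1 (inv_mem p.1), mul_inv_cancel, Z.one, Z'.one]; rfl)⟩

variable (h : ∀ k, Φ (Z.b k) = Z'.b k)
include h

theorem ph_f : Φ Z.f = Z'.f := by rw [← b_f, h, b_f]

theorem ph_u {i : Pt} (n : ¬ In i) : Φ (Z.u i) = Z'.u i := by rw [← Z.b_u n, h, b_u]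

theorem of_bas {g : Co0} (hg : g ∈ St) (a : Φ (Z.α g Z.f) = Z'.α g Z'.f)
    (b : ∀ i, ¬ In i → Φ (Z.α g (Z.u i)) = Z'.α g (Z'.u i)) : g ∈ Z.Hs Z' Φ :=
  ⟨hg, LinearMap.congr_fun (LinearMap.ext_on_range (f := Φ ∘ₗ Z.α g) (g := Z'.α g ∘ₗ Φ) Z.top fun k => by
    rw [LinearMap.comp_apply, LinearMap.comp_apply, h, R0.b, R0.b]
    split_ifs with q
    exacts [a, b k (not_or.2 ⟨q, k.2⟩)])⟩

theorem mon_Hs : St ⊓ Mon ≤ Z.Hs Z' Φ := fun g q => by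
  obtain ⟨σ, c, hc, rfl, a, b⟩ := St_mon q.1 q.2
  have f := Z.ph_f Z' Φ h
  refine mul_mem (Z.of_bas Z' Φ h (eps_St hc a) (by rw [Z.eps_f hc a, Z'.eps_f hc a, f]) fun i n => by
    rw [Z.eps _ hc a i n, Z'.eps _ hc a i n, map_smul, Z.ph_u Z' Φ h n]) ?_
  rcases b with s | s
  · exact Z.of_bas Z' Φ h s.st (by rw [Z.perm_f s, Z'.perm_f s, f]) fun i n => by
      rw [Z.perm σ s.1 s.2 i n, Z'.perm σ s.1 s.2 i n, Z.ph_u Z' Φ h (not_in (.inl s) n)]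
  · exact Z.of_bas Z' Φ h s.st (by rw [Z.swap_f s, Z'.swap_f s, map_neg, f]) fun i n => by
      rw [Z.swap σ s.1 s.2 i n, Z'.swap σ s.1 s.2 i n, map_smul, Z.ph_u Z' Φ h (not_in (.inr s) n), Z.eta, Z'.eta]

theorem psi {g : Co0} (hg : g ∈ St) (m : xi * g * xi ∈ Mon) (v : U) :
    Z'.α xi (Φ (Z.α xi (Z.α g v))) = Z'.α g (Z'.α xi (Φ (Z.α xi v))) := by
  have s := mul_mem (mul_mem xi_St hg) xi_St
  rw [Z.sw xi_St hg s xi_St (by rw [mul_assoc _ xi, xi_sq, mul_one]), (Z.mon_Hs Z' Φ h ⟨s, m⟩).2,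
    Z'.sw xi_St s hg xi_St (by rw [← mul_assoc, ← mul_assoc, xi_sq, one_mul])]

theorem lam : ∃ l : K, ∀ v ∈ Z.S, Φ (Z.α xi v) = l • Z'.α xi (Φ v) := by
  have pS : ∀ {v}, v ∈ Z.S → Φ v ∈ Z'.S := map_S fun _ q => Z.ph_u Z' Φ h (T0_in q) ▸ Z'.u_S q
  have li : LinearIndependent K fun i : {i // i ∉ T0} => Z'.u i :=
    Z'.li_u.comp (fun i : {i // i ∉ T0} => ⟨i, T0_in i.2⟩) fun i k e => Subtype.ext (congrArg Subtype.val e :)
  have n : pt 4 ∉ T0 := by simp only [Set.mem_insert_iff, Set.mem_singleton_iff]; decide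
  obtain ⟨l, e⟩ := (wt_one li _ _ Z'.Ew (Z'.A_S (pS (Z.A_S (Z.u_S n)))) (m := fun j => ch K (sg (w01 (j + 4)) (pt 4)))
    (fun j => (Z.psi Z' Φ h (C01.st _) (xi_eps _ fun i q => w_ck.1 j i (mem_ofMask.1 q)) _).symm.trans (by
      rw [show Z.α _ (Z.u (pt 4)) = _ from Z.Ew ⟨_, n⟩ j, map_smul, map_smul, map_smul])) (i := ⟨_, n⟩)
    fun k r => Subtype.ext (w_ck.2 _ n k k.2 fun j => ch_inj Z.two (congrFun r j))).1
  refine ⟨l, fun v hv => LinearMap.eqOn_span (f := Φ ∘ₗ Z.α xi) (g := l • Z'.α xi ∘ₗ Φ) ?_ hv⟩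
  rintro _ ⟨i, rfl⟩
  have t := fun {x} (q : x ∈ T0) (r : x = i.1) => i.2 (r ▸ q)
  obtain ⟨g, g1, g2⟩ := Mat.M24_five ![pt 0, pt 1, pt 2, pt 3, pt 4] ![pt 0, pt 1, pt 2, pt 3, i] (by decide) (by
    simp only [Matrix.vecCons, Fin.cons_injective_iff, Fin.range_cons, Set.range_eq_empty, Set.mem_insert_iff,
      Set.mem_empty_iff_false, not_or, Function.injective_of_subsingleton, not_false_eq_true, and_true]
    exact ⟨⟨p01, p02, by decide, t (by simp)⟩, ⟨p12, by decide, t (by simp)⟩,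
      ⟨by decide, t (by simp)⟩, t (by simp)⟩)
  have s : Fix ⟨g, g1⟩ := ⟨g2 0, g2 1⟩
  have := Z.psi Z' Φ h s.st (xi_perm (by rintro _ (rfl | rfl | rfl | rfl); exacts [g2 0, g2 1, g2 2, g2 3])) (Z.u (pt 4))
  rw [e, map_smul, Z.perm _ s.1 s.2 _ n4, Z'.perm _ s.1 s.2 _ n4, show g (pt 4) = i from g2 4] at this
  exact Z'.inj xi_St (this.trans (by simp [Z'.AA, Z.ph_u Z' Φ h (T0_in i.2)]))

theorem xi_Hs : xi ∈ Z.Hs Z' Φ := by
  obtain ⟨l, e⟩ := Z.lam Z' Φ h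
  have n : pt 4 ∉ T0 := by simp only [Set.mem_insert_iff, Set.mem_singleton_iff]; decide
  have u := Z.u_S n
  have c := fun c : C01 => (Z.mon_Hs Z' Φ h ⟨c.st, mono_mem _ _⟩).2
  have c' : ∀ (c : C01) v, Φ (Z.E c v) = Z'.E c (Φ v) := c
  have l2 : l * l = 1 := smul_left_injective K (Z'.ne _ n4) (by
    beta_reduce
    rw [one_smul, ← Z.ph_u Z' Φ h n4, mul_smul, ← Z'.AA (l • Φ _), map_smul, ← e _ u, ← e _ (Z.A_S u), AA])
  have l3 : l * l * l = 1 := smul_left_injective K ((map_ne_zero_iff _ (Z'.inj c3.st)).2 (Z'.ne _ n4)) (by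
    have := congrArg Φ (Z.braid (Z.u (pt 4)))
    rw [e _ (Z.E_S _ (Z.A_S (Z.E_S _ (Z.A_S (Z.E_S _ u))))), c', e _ (Z.E_S _ (Z.A_S (Z.E_S _ u))), c',
      e _ (Z.E_S _ u), c', c', Z.ph_u Z' Φ h n4] at this
    simp only [map_smul, smul_smul, braid, ← mul_assoc] at this
    exact this.trans (one_smul K _).symm)
  rw [l2, one_mul] at l3
  have p2 := Z.ph_u Z' Φ h n2
  have p3 := Z.ph_u Z' Φ h n3
  have a : Φ (Z.α xi (Z.u (pt 2))) + Φ (Z.α xi (Z.u (pt 3))) = Z'.α xi (Z'.u (pt 2)) + Z'.α xi (Z'.u (pt 3)) := by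
    rw [← map_add, ← map_add, ← map_add]; exact Z.ph_f Z' Φ h
  have b : Φ (Z.α xi (Z.u (pt 3))) - Φ (Z.α xi (Z.u (pt 2))) = Z'.α xi (Z'.u (pt 3)) - Z'.α xi (Z'.u (pt 2)) := by
    rw [← map_sub, ← map_sub, ← map_sub, A23, A23, map_sub, p2, p3]
  refine Z.of_bas Z' Φ h xi_St (by rw [f, f, AA, AA, map_add, p2, p3]) fun i q => ?_
  by_cases r : i ∈ T0
  · rcases r with r | r | r | r
    exacts [(q (.inl r)).elim, (q (.inr r)).elim,
      r ▸ smul_right_injective _ Z.two (by beta_reduce; linear_combination (norm := module) a - b),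
      r ▸ smul_right_injective _ Z.two (by beta_reduce; linear_combination (norm := module) a + b)]
  · rw [e _ (Z.u_S r), l3, one_smul, Z.ph_u Z' Φ h q]

theorem uniq {g : Co0} (hg : g ∈ St) (v : U) : Φ (Z.α g v) = Z'.α g (Φ v) :=
  (genSt (Z.mon_Hs Z' Φ h) (Z.xi_Hs Z' Φ h) hg).2 v

end R0

end CF.Bv
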