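import Cfsg.Agent.Bv.F1
import Cfsg.Agent.Bv.Z2

/-! Two frames are matched by a map commuting with the parabolic subgroup. -/

set_option autoImplicit false
set_option maxHeartbeats 400000

namespace CF.Bv

open Cfsg CF.Leech CF.Comp CF.Mon CF.Mon.G CF.Mon.T CF.Mon.L CF.Mon.W4 CF.Known.Mon CF.Classical
open Module Lab MulAction Matrix
open scoped commutatorElement

variable {K W W' : Type*} [Field K] [AddCommGroup W] [Module K W] [AddCommGroup W'] [Module K W']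
  {A : Rp K W} {A' : Rp K W'}

theorem PA_char (χ : Gt → K) (hm : ∀ a ∈ PA, ∀ b ∈ PA, χ (a * b) = χ a * χ b) (h1 : χ 1 = 1)
    (hk : χ kap = 1) (hp : ∀ p, pauli p ∈ PA → χ (pauli p) = 1) {a : Gt} (ha : a ∈ PA) : χ a = 1 := by
  obtain ⟨N, m, c⟩ := exists_ker χ hm h1
  have s : stabilizer Co0 uA ≤ PA.map gOf := fun g h => map_PA.ge
    (show g • _ = _ by rw [← red_smul, h])
  haveI := (isCo2 nm_uA).1
  have t : stabilizer Co0 uA ≤ N.map gOf := (le_comm (perf_simple (by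
    rw [card_stab_32 nm_uA]; norm_num))).trans ((Subgroup.commutator_mono s s).trans
    ((Subgroup.map_commutator _ _ _).ge.trans (Subgroup.map_mono c)))
  refine ((m a).1 ((eq_of_map_comap (K := N) (H := PA) (fun g h => ?_) (fun a h => ((m a).1 h).1)
    fun p h => (m _).2 ⟨h, hp p h⟩).ge ha)).2
  rw [map_PA] at h
  rcases mem_St.1 h with e | e
  · exact t e
  · exact (Subgroup.mul_mem_cancel_left _ (show negCo ∈ N.map gOf from
      ⟨kap, (m _).2 ⟨kap_PA, hk⟩, gOf_kap⟩)).1 (t (show _ • _ = _ by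
        rw [mul_smul, e, negCo_smul, neg_neg]))

theorem SS_ind {P : Lab → Prop} (h0 : ∀ p : J2, P p) (hx : ∀ p ∈ SS, P p → P (xc * p))
    (ht : ∀ p ∈ SS, P p → P (tA * p)) {p : Lab} (hp : p ∈ SS) : P p := by
  have r := (rep ⟨p, hp⟩).2.1
  have k : ∀ q ∈ SS, P q → p ≈ₗ q → P p := fun q a b e => by
    rcases e.cases with rfl | rfl
    exacts [b, hx q a b]
  rcases z2_cases (p.b 0) with a | a
  · exact k _ r (h0 _) ⟨rfl, by simp [rep, sh, a]⟩
  · exact k _ (SS.tA r) (ht _ r (h0 _)) ⟨by simp [rep, sh, tA_a], by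
      simp [rep, sh, a, add_left_comm, ix_add_self]⟩

/-- the vectors of the odd part -/
noncomputable def gv (A : Rp K W) (e : Lab → W) (w : Ix) : W :=
  A.R (pauli ⟨w, 0, 0⟩) (A.T (A.T (e p0)))

theorem gv_zero (e : Lab → W) : gv A e 0 = A.T (A.T (e p0)) :=
  (congrArg (A.R · _) (map_one pauli)).trans (Rp.one_apply _)

theorem Fe.q_g {e : Lab → W} {η : ZMod 2} (h : Fe A e η) {q : Lab} (hq : bf q Mon.tA = 0) {w : Ix}
    (hw : w 0 = w 1) : A.R (pauli q) (gv A e w) = ch K (q.s + q.b ⬝ᵥ w) • gv A e (w + q.a) := by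
  have a : (w + q.a) 0 = (w + q.a) 1 := by simp [hw, tA01 (bf_comm _ _ ▸ hq)]
  rw [gv, gv, ← Rp.pp hq (bf_J3 hw), show q * ⟨w, 0, 0⟩ = ⟨w + q.a, 0, 0⟩ * ⟨0, q.b, q.s + q.b ⬝ᵥ w⟩
    from Lab.ext (by simp [add_comm]) (by simp) (by simp), Rp.pp (bf_J3 a) (bf_diag rfl tA_a),
    h.v0_dg rfl, map_smul]

namespace Fr

variable (F : Fr A)

/-- the weights of the basis vectors on the diagonal labels -/
noncomputable def dw (K : Type*) [Field K] : JJ → {z : Lab // z.a = 0} → K :=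
  Sum.elim (fun _ _ => 1) (Sum.elim (fun p z => ch K (bf z p)) fun w z => ch K (z.1.s + z.1.b ⬝ᵥ w))

theorem bas_dg (j : JJ) (z : {z : Lab // z.a = 0}) :
    A.R (pauli z) (bas A F.e F.z j) = dw K j z • bas A F.e F.z j := by
  have a := bf_diag z.2 tA_a
  rcases j with k | p | w
  exacts [(Rp.mem_Wt_one.1 (F.z.b k).2 _ a).trans (one_smul _ _).symm, F.fe.pl p.2.1 a,
    F.fe.g_dg z.2 w.2]

theorem line0 {u : W} (h : ∀ z : Lab, z.a = 0 → A.R (pauli z) u = ch K z.s • u) :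
    ∃ c : K, u = c • A.T (A.T (F.e p0)) := by
  have n : ¬ ((1 : K) = -1) := fun e => A.two (by linear_combination e)
  simpa only [bas, Sum.elim_inr, ← gv.eq_1, gv_zero] using (wt_one F.li _ _ F.bas_dg
    (F.top.ge trivial) (fun z => h z z.2) (i := .inr (.inr ⟨0, rfl⟩)) fun j e => by
      rcases j with k | p | w
      · exact absurd (by simpa [dw] using congrFun e ⟨xc, rfl⟩) n
      · exact absurd (by simpa [dw] using congrFun e ⟨xc, rfl⟩) n
      · refine congrArg _ (congrArg _ (Subtype.ext (funext fun k => ch_inj A.two ?_)))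
        simpa [dw, Z] using congrFun e ⟨Z k, rfl⟩).1

theorem Vm_ind {P : W → Prop} (h0 : P 0) (ha : ∀ x y, P x → P y → P (x + y))
    (hs : ∀ (c : K) x, P x → P (c • x)) (hg : ∀ w : Ix, w 0 = w 1 → P (gv A F.e w)) {u : W}
    (h : u ∈ A.Vm) : P u := by
  have n : ¬ ((1 : K) = -1) := fun e => A.two (by linear_combination e)
  refine Submodule.span_induction (p := fun x _ => P x) ?_ h0 (fun x y _ _ => ha x y)
    (fun c x _ => hs c x) (mem_span_wt F.li (fun _ : Unit => A.R (pauli xc)) _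
      (fun j _ => F.bas_dg j ⟨xc, rfl⟩) (F.top.ge trivial) (m := fun _ => -1)
      fun _ => by rw [Rp.mem_Vm.1 h, neg_one_smul])
  rintro _ ⟨k | p | w, e, rfl⟩
  · exact absurd (by simpa [dw] using congrFun e ()) n
  · exact absurd (by simpa [dw] using congrFun e ()) n
  · exact hg w w.2

theorem ext {f g : W →ₗ[K] W'} (h1 : ∀ k, f (F.z.b k) = g (F.z.b k))
    (h2 : ∀ p ∈ SS, f (F.e p) = g (F.e p)) (h3 : ∀ w : Ix, w 0 = w 1 →
      f (gv A F.e w) = g (gv A F.e w)) : f = g := F.B.ext fun j => by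
  rw [B_apply]
  rcases j with k | p | w
  exacts [h1 k, h2 p p.2.1, h3 w w.2]

end Fr

theorem exists_Mt (F : Fr A) (F' : Fr A') : ∃ Φ : W ≃ₗ[K] W', Mt F F' Φ.toLinearMap := by
  let Φ := (F.B.equiv F'.B (Equiv.refl _)).toLinearMap
  have hB : ∀ j, Φ (bas A F.e F.z j) = bas A' F'.e F'.z j := fun j => by
    rw [← F.B_apply, ← F'.B_apply]; exact F.B.equiv_apply ..
  have hb : ∀ k, Φ (F.z.b k) = F'.z.b k := fun k => hB (.inl k)
  have he : ∀ p ∈ SS, Φ (F.e p) = F'.e p := fun p => SS_ind (P := fun p => Φ (F.e p) = F'.e p)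
    (fun p => hB (.inr (.inl p)))
    (fun p a b => by rw [F.fe.xc p a, F'.fe.xc p a, map_neg, b])
    fun p a b => by rw [F.fe.tA p a, F'.fe.tA p a, map_smul, b]
  have hg : ∀ w : Ix, w 0 = w 1 → Φ (gv A F.e w) = gv A' F'.e w := fun w a =>
    hB (.inr (.inr ⟨w, a⟩))
  have hv : Φ (A.T (A.T (F.e p0))) = A'.T (A'.T (F'.e p0)) := by simpa only [gv_zero] using hg 0 rfl
  let Φ0 := (Basis.mk F.z.li F.z.top.ge).constr K F'.z.b
  have h0 : ∀ k, Φ0 (F.z.b k) = F'.z.b k := fun k => by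
    rw [← Basis.mk_apply F.z.li F.z.top.ge]; exact Basis.constr_basis ..
  have h1 : ∀ v : A.Wt 1, Φ v = Φ0 v := fun v => LinearMap.congr_fun
    ((Basis.mk F.z.li F.z.top.ge).ext (f₁ := Φ ∘ₗ (A.Wt 1).subtype) (f₂ := (A'.Wt 1).subtype ∘ₗ Φ0)
      fun k => by simp [hb, h0]) v
  have k : ∀ γ ∈ PA, (∀ w : Ix, w 0 = w 1 → Φ (A.R γ (gv A F.e w)) = A'.R γ (gv A' F'.e w)) →
      ∀ v, Φ (A.R γ v) = A'.R γ (Φ v) := fun γ a h => LinearMap.congr_fun
    (F.ext (f := Φ ∘ₗ A.R γ) (g := A'.R γ ∘ₗ Φ) (fun k => by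
      rw [LinearMap.comp_apply, LinearMap.comp_apply, ← F.act γ a, h1, h1,
        F.z.uniq F'.z Φ0 h0 (gOf_St a), F'.act γ a])
      (fun p b => by simp [F.fe.smul γ a p b, F'.fe.smul γ a p b, he p b, he _ (SS.smul b a)])
      fun w b => by simp [h w b, hg w b])
  have kq : ∀ q, bf q tA = 0 → ∀ v, Φ (A.R (pauli q) v) = A'.R (pauli q) (Φ v) := fun q a =>
    k _ (pauli_PA.2 a) fun w b => by
      rw [F.fe.q_g a b, F'.fe.q_g a b, map_smul, hg _ (by simp [b, tA01 (bf_comm _ _ ▸ a)])]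
  have kc : ∀ γ, ∃ c : K, γ ∈ PA → ∀ u ∈ A.Vm, Φ (A.R γ u) = c • A'.R γ (Φ u) := fun γ => by
    by_cases a : γ ∈ PA
    swap
    · exact ⟨0, fun b => absurd b a⟩
    have t : ∀ q, bf q tA = 0 → ∀ v, A'.R γ⁻¹ (Φ (A.R γ (A.R (pauli q) v))) =
        A'.R (pauli q) (A'.R γ⁻¹ (Φ (A.R γ v))) := fun q b v => by
      have d := (Rp.bf_smul_tA a q).trans b
      rw [← Rp.conj_p a b, kq _ d, ← Rp.conj_p (inv_mem a) d, inv_smul_smul]
    obtain ⟨c, e⟩ := F'.line0 (u := A'.R γ⁻¹ (Φ (A.R γ (A.T (A.T (F.e p0)))))) fun z b => by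
      rw [← t z (bf_diag b tA_a), F.fe.v0_dg b, map_smul, map_smul, map_smul]
    refine ⟨c, fun _ u => F.Vm_ind (P := fun u => Φ (A.R γ u) = c • A'.R γ (Φ u)) (by simp) 
      (fun x y b d => by simp [b, d]) (fun d x b => by simp [b, smul_comm c]) fun w b => ?_⟩
    rw [hg w b, gv, gv, ← map_smul, ← map_smul, ← e, ← t _ (bf_J3 b), Rp.apply_inv a]
  choose χ hχ using kc
  have m0 := F.fe.g_Vm (w := 0) rfl
  have n0 : ∀ γ ∈ PA, A'.R γ (Φ (gv A F.e 0)) ≠ 0 := fun γ a e => F'.fe.g_ne (w := 0) rfl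
    (Rp.inj a ((congrArg _ (hg 0 rfl).symm).trans (e.trans (map_zero _).symm)))
  have one : ∀ γ ∈ PA, Φ (A.R γ (gv A F.e 0)) = A'.R γ (Φ (gv A F.e 0)) → χ γ = 1 :=
    fun γ a e => eq_of_smul_eq (n0 γ a) ((hχ γ a _ m0).symm.trans (e.trans (one_smul _ _).symm))
  refine ⟨F.B.equiv F'.B (Equiv.refl _), hb, he, hv, fun γ a => k γ a fun w b => ?_⟩
  rw [hχ γ a (gv A F.e w) (F.fe.g_Vm b), hg w b, PA_char χ (fun a x b y => eq_of_smul_eq
    (n0 _ (mul_mem x y)) (by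
      rw [← hχ _ (mul_mem x y) (gv A F.e 0) m0, Rp.mul_apply x y, Rp.mul_apply x y,
        hχ a x (A.R b (gv A F.e 0)) (Rp.Vm_map y m0), hχ b y (gv A F.e 0) m0, map_smul, smul_smul]))
    (one _ (one_mem _) (by rw [Rp.one_apply, Rp.one_apply]))
    (one _ kap_PA (by rw [A.kap, A'.kap]; rfl)) (fun p x => one _ x (kq p (pauli_PA.1 x) _)) a,
    one_smul]

end CF.Bv
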