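import Cfsg.Agent.Bv.U1
import Cfsg.Agent.Bv.F2
import Cfsg.Agent.Mon.Gr2

/-! A map matching two frames commutes with the triality element. -/

set_option autoImplicit false
set_option maxHeartbeats 400000

namespace CF.Bv

open Cfsg CF.Leech CF.Comp CF.Mon CF.Mon.G CF.Mon.T CF.Mon.L CF.Mon.W4 CF.Known.Mon CF.Classical
open Module Lab MulAction Matrix

variable {K W W' : Type*} [Field K] [AddCommGroup W] [Module K W] [AddCommGroup W'] [Module K W']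
  {A : Rp K W} {A' : Rp K W'}

theorem SS_tr {P : Lab → Prop} (hx : ∀ p ∈ SS, P p → P (xc * p)) (ht : ∀ p ∈ SS, P p → P (tA * p))
    {p q : Lab} (hq : q ∈ SS) (h : P q) (e : p ≈ₗ q ∨ p ≈ₗ tA * q) : P p := by
  rcases e with e | e <;> rcases e.cases with rfl | rfl
  exacts [h, hx _ hq h, ht _ hq h, hx _ (SS.tA hq) (ht _ hq h)]

theorem nrm_inj {c d : Finset Pt} (hc : c ∈ CS) (hd : d ∈ CS) {m : ZMod 2}
    (e : ixd (T.nrm c) m = ixd (T.nrm d) m) : T.nrm c = T.nrm d := by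
  rw [← cd_ixd (nrm_mem hc) (not_mem_nrm c) m, e, cd_ixd (nrm_mem hd) (not_mem_nrm d)]

theorem nrm_card {c d : Finset Pt} (e : T.nrm c = T.nrm d) : c = d ∨ c.card + d.card = 24 := by
  have a := Finset.card_add_card_compl c
  have b := Finset.card_add_card_compl d
  rw [card_pts] at a b
  unfold T.nrm at e
  split_ifs at e
  exacts [.inl (compl_injective e), .inr (e ▸ a), .inr (by rw [e]; omega), .inl e]

theorem SS_cases {p : Lab} (hp : p ∈ SS) :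
    (p.a = 0 ∧ ∃ i, ¬ In i ∧ ∃ q, (q = mm (pt 0) i ∨ q = Y0 * mm (pt 0) i) ∧
      (p ≈ₗ q ∨ p ≈ₗ tA * q)) ∨
    ((p.a 11 = 0 ∧ p.a ≠ 0) ∧ ∃ o ∈ octads, ∃ δ ⊆ o, Even δ.card ∧ p ≈ₗ cls (vT o δ)) ∨
    (p.a 11 = 1 ∧ ∃ n ∈ PA, n ∈ Np ∧ (p ≈ₗ n • p0 ∨ p ≈ₗ tA * n • p0)) := by
  obtain ⟨z, a, -, e⟩ := mem_SS.1 hp
  have hz := SS.congr hp e.symm
  have mk : ∀ {i j}, ¬ (In i ↔ In j) → ∃ k, ¬ In k ∧
      (mm i j = mm (pt 0) k ∨ mm i j = tA * mm (pt 0) k) := fun {i j} h => by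
    rcases in_cases i with rfl | rfl | x
    · exact ⟨j, by simpa using h, .inl rfl⟩
    · exact ⟨j, by simpa using h, .inr (tA_mm (by simpa using h)).symm⟩
    rcases in_cases j with rfl | rfl | y
    exacts [⟨i, x, .inl (mm_swap _ _)⟩, ⟨i, x, .inr ((mm_swap _ _).trans (tA_mm x).symm)⟩,
      absurd (iff_of_false x y) h]
  have p4c : ∀ {i j}, i ≠ j → p ≈ₗ cls (p4 i j) → p.a = 0 ∧ ∃ i, ¬ In i ∧ ∃ q,
      (q = mm (pt 0) i ∨ q = Y0 * mm (pt 0) i) ∧ (p ≈ₗ q ∨ p ≈ₗ tA * q) := fun {i j} ij e => by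
    obtain ⟨k, x, y⟩ := mk ((lB0 ij).2.1 (SS.congr hp e.symm))
    have f := e.trans (Y_mm i j).symm
    exact ⟨by rw [f.1, mul_a, Y0_a, mm_a, add_zero], k, x, _, .inr rfl,
      y.imp (fun y => by rwa [y] at f) fun y => by rwa [y, Y0_tA] at f⟩
  rcases short_cases a with ⟨i, j, ij, rfl | rfl | rfl⟩ | ⟨o, ho, δ, h1, h2, rfl⟩ | ⟨i, d, hd, rfl⟩
  · obtain ⟨k, x, y⟩ := mk ((lB0 ij).1.1 hz)
    exact .inl ⟨e.1.trans (mm_a i j), k, x, _, .inl rfl,
      y.imp (fun y => by rw [← y]; exact e) fun y => by rw [← y]; exact e⟩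
  · exact .inl (p4c ij e)
  · exact .inl (p4c ij (cls_neg _ ▸ e))
  · refine .inr (.inl ⟨⟨by rw [e.1, cls_a_vT ho.1 h2, ixd_11], fun k => ?_⟩, o, ho, δ, h1, h2, e⟩)
    have := nrm_card (nrm_inj ho.1 empty_mem_CS (m := 0) (by
      rw [← cls_a_vT ho.1 h2, ← e.1, k, nrm_of (Finset.notMem_empty _), ixd_empty, Pi.single_zero]))
    have c := (mem_octads.1 ho).2
    rcases this with rfl | k <;> simp_all
  · obtain ⟨x, y⟩ := (lX0 i hd).1 hz
    obtain ⟨n, b, c, f⟩ := exists_NA (eps_St hd y) (mono_mem _ _)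
    have g := smul_cls n (vX (pt 0) ∅)
    rw [f, eps_vX hd empty_mem_CS, show symmDiff d ∅ = d from symmDiff_bot d] at g
    refine .inr (.inr ⟨by rw [e.1, cls_a_vX _ hd, ixd_11], n, b, c, ?_⟩)
    rcases x with rfl | rfl
    · exact .inl (e.trans g.symm)
    · exact .inr ((e.trans (lX1 hd y ▸ Eqv.refl _)).trans ((Eqv.refl _).mul g.symm))

theorem cube_sq {c : K} (h3 : c * c * c = 1) (h2 : c * c = 1) : c = 1 := by
  rwa [h2, one_mul] at h3

namespace Fr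

variable (F : Fr A)

theorem T_f : A.T F.z.f = F.z.f := by
  obtain ⟨c, e⟩ := F.fix_RS (v := A.T F.z.f) fun n h => by
    obtain ⟨m, k⟩ := exists_TH' h.1.1
    rw [← Rp.T_R (k.pa.2 h.2) k, F.RS_f (k.rs.2 h.1) (k.pa.2 h.2)]
  have n : (F.z.f : W) ≠ 0 := fun k => F.z.f_ne (Subtype.ext k)
  have x := Rp.mem_Wt_one.1 F.z.f.2 _ bf_11A
  have a := Rp.TTT (A := A) F.z.f
  have b := Rp.TXT (A := A) F.z.f
  simp only [e, map_smul, smul_smul, x] at a b
  rw [e, cube_sq (c := c) (eq_of_smul_eq n (by rw [one_smul]; exact a))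
    (eq_of_smul_eq n (by rw [one_smul]; exact b)), one_smul]

theorem T_u {i : Pt} (h : ¬ In i) :
    A.T (F.z.u i) = F.e (mm (pt 0) i) + F.e (Y0 * mm (pt 0) i) := by rw [F.u i h, Rp.TTT]

theorem T_s {i : Pt} (h : ¬ In i) : A.T (F.e (mm (pt 0) i)) + A.T (F.e (Y0 * mm (pt 0) i)) =
    F.e (mm (pt 0) i) - F.e (Y0 * mm (pt 0) i) := by
  rw [← map_add, ← F.fe.X_s h, ← F.T_u h, Rp.XT, Rp.mem_Wt_one.1 (F.z.u i).2 _ bf_11A]

theorem T_d {i : Pt} (h : ¬ In i) :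
    A.T (F.e (mm (pt 0) i)) - A.T (F.e (Y0 * mm (pt 0) i)) = F.z.u i := by
  rw [← map_sub, ← F.fe.X_s h, ← Rp.XTT, ← F.u i h, Rp.mem_Wt_one.1 (F.z.u i).2 _ bf_11A]

theorem T_g {w : Ix} (a : w 0 = w 1) (b : w 11 = 0) {n : Gt} (k : TH (pauli ⟨w, 0, 0⟩) n) :
    gv A F.e w = A.T (A.T (F.e (n • p0))) := by
  have c := pauli_PA.2 (bf_J3 a)
  rw [gv, Rp.R_TT c k, F.fe.smul n (k.pa.1 c) _ p0_SS]

theorem T_UD {w : Ix} (a : w 11 = 0) {v : W} (h : v ∈ A.UD w) : A.T v ∈ A.UD w := by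
  have h := Rp.mem_UD.1 h
  let R : Subgroup Lab :=
    { carrier := {z | z.a = 0 ∧ A.R (pauli z) (A.T v) = ch K (z.b ⬝ᵥ w) • A.T v}
      mul_mem' := fun {p q} x y => ⟨by rw [mul_a, x.1, y.1, add_zero], by
        rw [Rp.pp (bf_diag x.1 tA_a) (bf_diag y.1 tA_a), y.2, map_smul, x.2, smul_smul, mul_b,
          add_dotProduct, ch_add, mul_comm]⟩
      one_mem' := ⟨rfl, by simp [Rp.one_apply]⟩
      inv_mem' := fun {p} x => by rwa [show p⁻¹ = p from Lab.ext rfl rfl (by simp [x.1])] }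
  refine Rp.mem_UD.2 fun z hz => (mem_of_Z (R := R) ⟨rfl, ?_⟩ (fun k => ⟨rfl, ?_⟩) hz).2
  · rw [← Rp.T_R (diag_PA rfl) rels0.tau_z, h _ rfl, map_smul]; simp [Z, a]
  · by_cases c : k = 11
    · rw [c, ← Rp.T_R Y0_PA rels0.tau_y, h _ Y0_a, map_smul]; simp [Z, Y0]
    · rw [← Rp.T_R (diag_PA rfl) (TH.c0 (Z_mem_C0 c)), h _ rfl, map_smul]

theorem UD_ind {w : Ix} (a : w ≠ 0) {P : W → Prop} (h0 : P 0) (ha : ∀ x y, P x → P y → P (x + y))
    (hs : ∀ (c : K) x, P x → P (c • x)) (hg : ∀ q ∈ SS, q.a = w → P (F.e q)) {u : W}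
    (h : u ∈ A.UD w) : P u := by
  have n : ¬ ((-1 : K) = 1) := fun e => A.two (by linear_combination -e)
  refine Submodule.span_induction (p := fun x _ => P x) ?_ h0 (fun x y _ _ => ha x y)
    (fun c x _ => hs c x) (mem_span_wt F.li _ _ F.bas_dg (F.top.ge trivial) h)
  rintro _ ⟨k | p | u, e, rfl⟩
  · exact absurd (funext fun k => ch_inj A.two (by
      simpa [dw, Z] using (congrFun e ⟨Z k, rfl⟩).symm)) a
  · exact hg p p.2.1 (funext fun k => ch_inj A.two (by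
      simpa [dw, bf, Z] using congrFun e ⟨Z k, rfl⟩))
  · exact absurd (by simpa [dw] using congrFun e ⟨xc, rfl⟩) n

end Fr

namespace Mt

variable {F : Fr A} {F' : Fr A'} {Φ : W →ₗ[K] W'} (h : Mt F F' Φ)
include h

theorem tt {p : Lab} (hp : p ∈ SS) (a : p.a 11 = 1) :
    Φ (A.T (A.T (F.e p))) = A'.T (A'.T (F'.e p)) := by
  rcases SS_cases hp with ⟨b, -⟩ | ⟨b, -⟩ | ⟨-, n, b, c, e⟩
  · rw [b] at a; exact absurd a (by decide)
  · rw [b.1] at a; exact absurd a (by decide)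
  refine SS_tr (P := fun p => Φ (A.T (A.T (F.e p))) = A'.T (A'.T (F'.e p)))
    (fun p a b => by simp [F.fe.xc p a, F'.fe.xc p a, b])
    (fun p a b => by simp [F.fe.tA p a, F'.fe.tA p a, b]) (SS.smul p0_SS b) ?_ e
  obtain ⟨m, k⟩ := exists_TH' c
  have d := k.pa.2 b
  rw [← F.fe.smul n b _ p0_SS, ← F'.fe.smul n b _ p0_SS, ← Rp.R_TT d k, ← Rp.R_TT d k, h.R m d, h.v]

theorem odd {p : Lab} (hp : p ∈ SS) (a : p.a 11 = 1) : Φ (A.T (F.e p)) = A'.T (F'.e p) := by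
  have := congrArg (A'.R (pauli (X 11))) (h.tt hp a)
  rw [← h.R _ X11_PA, Rp.XTT, Rp.XTT, F.fe.pl hp bf_11A, F'.fe.pl hp bf_11A, map_smul, map_smul,
    map_smul] at this
  exact smul_right_injective _ (ch_ne _) this

theorem g {w : Ix} (a : w 0 = w 1) : Φ (gv A F.e w) = gv A' F'.e w := by
  rw [gv, h.R _ (pauli_PA.2 (bf_J3 a)), h.v, gv]

theorem vm' {w : Ix} (a : w 0 = w 1) : Φ (A.T (gv A F.e w)) = A'.T (gv A' F'.e w) := by
  rcases z2_cases (w 11) with b | b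
  · obtain ⟨n, k⟩ := exists_TH (pauli_mem_Np.2 (show (⟨w, 0, 0⟩ : Lab).a 11 = 0 from b))
    rw [F.T_g a b k, F'.T_g a b k, Rp.TTT, Rp.TTT,
      h.e _ (SS.smul p0_SS (k.pa.1 (pauli_PA.2 (bf_J3 a))))]
  · obtain ⟨u, rfl⟩ : ∃ u, w = u + (X 11).a := ⟨w + (X 11).a, (ix_add_add _ _).symm⟩
    have c : u 0 = u 1 := by simpa [X] using a
    have d : u 11 = 0 := by simpa [X] using b
    obtain ⟨n, k⟩ := exists_TH (pauli_mem_Np.2 (show (⟨u, 0, 0⟩ : Lab).a 11 = 0 from d))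
    have s := SS.smul p0_SS (k.pa.1 (pauli_PA.2 (bf_J3 c)))
    have x := F.fe.q_g bf_11A c
    have y := F'.fe.q_g bf_11A c
    rw [show (X 11).s + (X 11).b ⬝ᵥ u = 0 by simp [X], ch_zero, one_smul] at x y
    rw [← x, ← y, F.T_g c d k, F'.T_g c d k, Rp.XTT, Rp.XTT, F.fe.pl s bf_11A, F'.fe.pl s bf_11A]
    simp only [map_smul]
    rw [h.tt s (by rw [← bf_Y0, ← Np_Y0.1 k.np', bf_smul, bf_Y0, p0_a]; rfl)]

theorem vm (w : J3) : Φ (A.T (bas A F.e F.z (.inr (.inr w)))) =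
    A'.T (Φ (bas A F.e F.z (.inr (.inr w)))) := (h.vm' w.2).trans (congrArg _ (h.g w.2).symm)

theorem u {i : Pt} (a : ¬ In i) : Φ (F.z.u i) = F'.z.u i := by
  rw [← F.z.b_u a, ← F'.z.b_u a, h.b]

theorem w0 (k : J1) : Φ (A.T (F.z.b k)) = A'.T (F'.z.b k) := by
  by_cases a : k.1 = pt 0
  · obtain rfl : k = ⟨pt 0, p01⟩ := Subtype.ext a
    have := h.b ⟨pt 0, p01⟩
    rwa [R0.b_f, R0.b_f, ← F.T_f, ← F'.T_f, ← R0.b_f, ← R0.b_f] at this
  · have n := not_or.2 ⟨a, k.2⟩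
    rw [R0.b, R0.b, if_neg a, if_neg a, F.T_u n, F'.T_u n, map_add, h.e _ (mm_SS n),
      h.e _ (Ymm_SS n)]

theorem diag {p : Lab} (hp : p ∈ SS) (a : p.a = 0) : Φ (A.T (F.e p)) = A'.T (F'.e p) := by
  rcases SS_cases hp with ⟨-, i, n, q, c, e⟩ | ⟨b, -⟩ | ⟨b, -⟩
  swap
  · exact absurd a b.2
  swap
  · rw [a] at b; exact absurd b (by decide)
  have s := congrArg Φ (F.T_s n)
  have d := congrArg Φ (F.T_d n)
  rw [map_add, map_sub, h.e _ (mm_SS n), h.e _ (Ymm_SS n), ← F'.T_s n] at s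
  rw [map_sub, h.u n, ← F'.T_d n] at d
  refine SS_tr (P := fun p => Φ (A.T (F.e p)) = A'.T (F'.e p))
    (fun p a b => by simp [F.fe.xc p a, F'.fe.xc p a, b])
    (fun p a b => by simp [F.fe.tA p a, F'.fe.tA p a, b])
    (c.elim (fun c => c ▸ mm_SS n) fun c => c ▸ Ymm_SS n) (smul_right_injective _ A.two ?_) e
  rcases c with rfl | rfl <;> simp only [two_smul]
  · linear_combination (norm := module) s + d
  · linear_combination (norm := module) s - d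

theorem oct {p : Lab} (hp : p ∈ SS) (a : p.a 11 = 0) (b : p.a ≠ 0) :
    Φ (A.T (F.e p)) = A'.T (F'.e p) := by
  have cm : ∀ n ∈ PA, n ∈ Np → ∀ v, A'.T (A'.T (Φ (A.T (A.R n v)))) =
      A'.R n (A'.T (A'.T (Φ (A.T v)))) := fun n x y v => by
    obtain ⟨m, k⟩ := exists_TH y
    rw [Rp.T_R x k, h.R m (k.pa.1 x), Rp.R_TT x k]
  have oc : ∀ q ∈ SS, q.a = p.a → ∃ o ∈ octads, ∃ δ ⊆ o, Even δ.card ∧ q ≈ₗ cls (vT o δ) :=
    fun q x y => by
      rcases SS_cases x with ⟨c, -⟩ | ⟨-, c⟩ | ⟨c, -⟩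
      exacts [absurd (y ▸ c) b, c, by rw [y, a] at c; exact absurd c (by decide)]
  obtain ⟨o, ho, δ, h1, h2, e⟩ := oc p hp rfl
  have m := Rp.WS_cons (A := A') [] Y0 p (x := A'.T (A'.T (Φ (A.T (F.e p)))))
    (Rp.mem_WS.2 fun q x y => by
      rw [← cm _ (pauli_PA.2 x) (pauli_mem_stab.2 (y _ (by simp))), F.fe.pl hp x]
      simp only [map_smul])
  rw [Rp.WS_nil, Rp.WS_nil, F'.fe.bot _ (Y_oct ho h1 h2 e) (fun k => b (by simpa [Y0_a] using k.1))
    (fun k => b (by simpa [Y0_a, tA_a] using k.1)), sup_bot_eq] at m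
  obtain ⟨c, hc⟩ := F'.fe.line p hp _ m
  have k : ∀ v ∈ A.UD p.a, Φ (A.T v) = c • A'.T (Φ v) := fun v =>
    F.UD_ind (P := fun v => Φ (A.T v) = c • A'.T (Φ v)) b (by simp)
      (fun x y b d => by simp [b, d]) (fun d x b => by simp [b, smul_comm c]) fun q x y => by
        obtain ⟨o', ho', δ', h3, h4, f⟩ := oc q x y
        obtain rfl : o' = o := (nrm_card (nrm_inj ho'.1 ho.1 (m := 0) (by
          rw [← cls_a_vT ho'.1 h4, ← cls_a_vT ho.1 h2, ← e.1, ← f.1, y]))).resolve_right (by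
            rw [(mem_octads.1 ho).2, (mem_octads.1 ho').2]; decide)
        have s := symmDiff_mem_evs (Finset.mem_filter.2 ⟨Finset.mem_powerset.2 h1, h2⟩)
          (Finset.mem_filter.2 ⟨Finset.mem_powerset.2 h3, h4⟩)
        obtain ⟨d, hd, g⟩ := Gr.exists_inter (Finset.mem_powerset.1 (Finset.mem_filter.1 s).1)
          fun d x y => by
            by_cases z : d = ∅
            · simp [z]
            · rw [Finset.eq_of_subset_of_card_le y ((mem_octads.1 ho).2 ▸ eight_le_card x z),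
                Finset.inter_eq_right.2 (Finset.mem_powerset.1 (Finset.mem_filter.1 s).1)]
              exact (Finset.mem_filter.1 s).2.two_dvd
        have g : ∀ i ∈ o', i ∈ d ↔ i ∈ symmDiff δ δ' := fun i j => by rw [← g]; simp [j]
        have l1 := (lT0 ho h1 h2).1 (SS.congr hp e.symm)
        have l2 := (lT0 ho h3 h4).1 (SS.congr x f.symm)
        obtain ⟨n, n1, n2, n3⟩ := exists_NA (eps_St hd (by
          rw [g _ l1.1, g _ l1.2.1, Finset.mem_symmDiff, Finset.mem_symmDiff]; tauto)) (mono_mem _ _)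
        have t := (e.smul n).trans (smul_cls n _)
        rw [n3, show eps hd • vT o' δ = vT o' δ' from LL.ext fun i => by
          rw [eps_apply, vT_apply ho.1 h2, vT_apply ho.1 h4]
          have := g i
          have := @h1 i
          have := @h3 i
          by_cases x : i ∈ o' <;> by_cases y : i ∈ δ <;> by_cases z : i ∈ δ' <;>
            simp_all [ind, Finset.mem_symmDiff]] at t
        refine SS_tr (P := fun q => Φ (A.T (F.e q)) = c • A'.T (Φ (F.e q)))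
          (fun p a b => by simp [F.fe.xc p a, b]) (fun p a b => by simp [F.fe.tA p a, b])
          (SS.smul hp n1) ?_ (.inl (f.trans t.symm))
        rw [← F.fe.smul n n1 p hp, ← Rp.TTT (A := A') (Φ (A.T _)), cm n n1 n2, hc, h.R n n1,
          h.e p hp, map_smul, map_smul]
  have u0 := Rp.Wt_le_UD p (F.fe.wt hp)
  have u1 := Fr.T_UD a u0
  have u2 : A.R (pauli (X 11)) (A.T (F.e p)) ∈ A.UD p.a := by
    simpa [pauli_smul'] using Rp.UD_map X11_PA (one_mem _) u1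
  have n := F'.fe.ne p hp
  have x := k _ (Fr.T_UD a u1)
  have y := k _ u2
  rw [Rp.TTT, k _ u1, k _ u0, h.e p hp] at x
  rw [Rp.TXT, h.R _ X11_PA, h.R _ X11_PA, k _ u0, h.e p hp] at y
  simp only [map_smul, Rp.TTT, Rp.TXT, smul_smul] at x y
  rw [k _ u0, h.e p hp, cube_sq (c := c)
    (eq_of_smul_eq n (by rw [one_smul, mul_assoc]; exact x.symm))
    (eq_of_smul_eq (v := A'.R (pauli (X 11)) (F'.e p)) (fun z => n (Rp.inj X11_PA
      (z.trans (map_zero _).symm))) (by rw [one_smul]; exact y.symm)), one_smul]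

theorem T (v : W) : Φ (A.T v) = A'.T (Φ v) := LinearMap.congr_fun
  (F.ext (f := Φ ∘ₗ A.T) (g := A'.T ∘ₗ Φ) (fun k => (h.w0 k).trans (congrArg _ (h.b k).symm))
    (fun p a => Eq.trans (b := A'.T (F'.e p)) (by
      rcases z2_cases (p.a 11) with b | b
      · by_cases c : p.a = 0
        exacts [h.diag a c, h.oct a b c]
      · exact h.odd a b) (congrArg _ (h.e p a).symm))
    fun w a => (h.vm' a).trans (congrArg _ (h.g a).symm)) v

end Mt

end CF.Bv
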