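import Cfsg.Agent.Bv.B

/-! Averaging arguments for extensions by a module. -/

set_option autoImplicit false

namespace CF.Bv

open Module
open scoped commutatorElement

variable {K W : Type*} [Field K] [AddCommGroup W] [Module K W]

/-- the sum over the cosets of a subgroup -/
theorem exists_avg {L : Type*} [Group L] [Finite L] (H : Subgroup L) : ∃ S : (L → W) → W,
    (∀ f g, S (fun d => f d + g d) = S f + S g) ∧ (∀ (φ : End K W) f, S (fun d => φ (f d)) = φ (S f)) ∧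
    (∀ w, S (fun _ => w) = (H.index : K) • w) ∧
    ∀ f, (∀ d, ∀ h ∈ H, f (d * h) = f d) → ∀ b, S (fun d => f (b * d)) = S f := by
  haveI := Fintype.ofFinite (L ⧸ H)
  refine ⟨fun f => ∑ q : L ⧸ H, f q.out, fun f g => Finset.sum_add_distrib, fun φ f => (map_sum ..).symm,
    fun w => ?_, fun f hf b => ?_⟩
  · beta_reduce
    rw [Finset.sum_const, Finset.card_univ, ← Nat.card_eq_fintype_card, Nat.cast_smul_eq_nsmul]; rfl
  · refine Fintype.sum_equiv (MulAction.toPerm b) _ _ fun q => ?_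
    obtain ⟨h, e⟩ := QuotientGroup.mk_out_eq_mul H (b * q.out)
    have : (b * q.out : L) = (((b * q.out : L) : L ⧸ H)).out * (h : L)⁻¹ := by rw [e]; simp
    beta_reduce
    rw [this, hf _ _ (inv_mem h.2), ← smul_eq_mul, ← MulAction.Quotient.smul_coe, QuotientGroup.out_eq']
    rfl

namespace Xt

variable {E D C : Type*} [Group E] [Group D] [Group C] (X : Xt K W E D C)

theorem i0 : X.ι 0 = 1 := by simpa using X.add 0 0

theorem ineg (w : W) : X.ι (-w) = (X.ι w)⁻¹ :=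
  eq_inv_of_mul_eq_one_left (by rw [← X.add, neg_add_cancel, X.i0])

theorem pi (w : W) : X.p (X.ι w) = 1 := (X.ker _).2 ⟨w, rfl⟩

theorem j1 : X.j 1 = 1 := by simpa using X.jm 1 (one_mem _) 1 (one_mem _)

theorem jinv {a : C} (h : a ∈ X.P) : X.j a⁻¹ = (X.j a)⁻¹ :=
  eq_inv_of_mul_eq_one_left (by rw [← X.jm _ (inv_mem h) _ h, inv_mul_cancel, X.j1])

theorem sw (e : E) (w : W) : e * X.ι w = X.ι (X.σ (X.p e) w) * e := by rw [← X.act]; simp

theorem ex {e f : E} (h : X.p e = X.p f) : ∃ w, e = X.ι w * f :=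
  ((X.ker (e * f⁻¹)).1 (by simp [h])).imp fun w q => by rw [q]; simp

theorem cj (w : W) (e : E) : X.ι w * e * (X.ι w)⁻¹ = X.ι (w - X.σ (X.p e) w) * e := by
  rw [← X.ineg, mul_assoc, X.sw, ← mul_assoc, ← X.add, map_neg, sub_eq_add_neg]

variable {X}

theorem Sp.one {H : Subgroup C} {r : C → E} (h : X.Sp H r) : r 1 = 1 := by
  simpa using h.1 1 (one_mem _) 1 (one_mem _)

theorem Sp.inv {H : Subgroup C} {r : C → E} (h : X.Sp H r) {a : C} (ha : a ∈ H) : r a⁻¹ = (r a)⁻¹ :=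
  eq_inv_of_mul_eq_one_left (by rw [← h.1 _ (inv_mem ha) _ ha, inv_mul_cancel, h.one])

theorem Sp.mono {H L : Subgroup C} {r : C → E} (h : X.Sp L r) (l : H ≤ L) : X.Sp H r :=
  ⟨fun a ha b hb => h.1 a (l ha) b (l hb), fun a ha => h.2 a (l ha)⟩

/-- the cocycle of two splittings -/
theorem Sp.diff {L : Subgroup C} {r s : C → E} (hr : X.Sp L r) (hs : X.Sp L s) : ∃ δ : C → W,
    (∀ a ∈ L, s a = X.ι (δ a) * r a) ∧ ∀ a ∈ L, ∀ b ∈ L, δ (a * b) = δ a + X.σ (X.j a) (δ b) := by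
  have : ∀ a, ∃ w, a ∈ L → s a = X.ι w * r a := fun a => (em (a ∈ L)).elim
    (fun h => (X.ex ((hs.2 a h).trans (hr.2 a h).symm)).imp fun _ q _ => q) fun h => ⟨0, fun q => (h q).elim⟩
  choose δ hδ using this
  refine ⟨δ, hδ, fun a ha b hb => X.inj (mul_right_cancel (b := r (a * b)) ?_)⟩
  rw [← hδ _ (mul_mem ha hb), hs.1 a ha b hb, hδ a ha, hδ b hb, hr.1 a ha b hb, X.add, ← hr.2 a ha, mul_assoc,
    ← mul_assoc (r a), X.sw]
  simp only [mul_assoc]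

variable (X) [Finite C]

theorem gasch {H L : Subgroup C} (hH : H ≤ L) (hL : L ≤ X.P) (hi : ((H.relIndex L : ℕ) : K) ≠ 0)
    {r : C → E} (h : X.Sp H r) : ∃ s, X.Sp L s := by
  obtain ⟨S, S1, S2, S3, S4⟩ := exists_avg (K := K) (W := W) (H.subgroupOf L)
  choose t0 ht using X.sur
  let τ : L → L := fun a => (a : L ⧸ H.subgroupOf L).out
  have τ1 : ∀ a : L, ((τ a : C))⁻¹ * a ∈ H := fun a =>
    (QuotientGroup.eq (s := H.subgroupOf L)).1 (QuotientGroup.out_eq' (a : L ⧸ H.subgroupOf L))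
  let t : L → E := fun a => t0 (X.j (τ a)) * r ((τ a : C)⁻¹ * a)
  have t1 : ∀ a, X.p (t a) = X.j a := fun a => by
    rw [map_mul, ht, h.2 _ (τ1 a), ← X.jm _ (hL (τ a).2) _ (hL (hH (τ1 a))), mul_inv_cancel_left]
  have t2 : ∀ a, ∀ b ∈ H.subgroupOf L, t (a * b) = t a * r b := fun a b hb => by
    have : τ (a * b) = τ a := congrArg Quotient.out (QuotientGroup.mk_mul_of_mem a hb)
    simp only [t, this, Subgroup.coe_mul, mul_assoc]
    rw [← h.1 _ (τ1 a) _ (show (b : C) ∈ H from hb), mul_assoc]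
  clear_value t
  have : ∀ a b, ∃ w, t a * t b = X.ι w * t (a * b) := fun a b =>
    X.ex (by rw [map_mul, t1, t1, t1, Subgroup.coe_mul, X.jm _ (hL a.2) _ (hL b.2)])
  choose c hc using this
  have c1 : ∀ a d, ∀ b ∈ H.subgroupOf L, c a (d * b) = c a d := fun a d b hb =>
    X.inj (mul_right_cancel (b := t (a * (d * b))) (by
      rw [← hc, t2 _ _ hb, ← mul_assoc, hc, ← mul_assoc a, t2 _ _ hb, mul_assoc]))
  have c2 : ∀ a b d, c a b + c (a * b) d = X.σ (X.j a) (c b d) + c a (b * d) := fun a b d =>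
    X.inj (mul_right_cancel (b := t (a * b * d)) (by
      rw [X.add, X.add, mul_assoc, ← hc, ← mul_assoc, ← hc, mul_assoc (X.ι _), mul_assoc a, ← hc, ← mul_assoc,
        ← t1, ← X.sw, mul_assoc, mul_assoc, ← hc]))
  have c3 : ∀ a b, ((H.relIndex L : ℕ) : K) • c a b + S (c (a * b)) = X.σ (X.j a) (S (c b)) + S (c a) :=
    fun a b => by
      rw [← S4 _ (c1 a) b, ← S2, ← S1, Subgroup.relIndex, ← S3, ← S1]
      exact congrArg S (funext (c2 a b))
  classical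
  refine ⟨fun a => if h : a ∈ L then X.ι (-((H.relIndex L : ℕ) : K)⁻¹ • S (c ⟨a, h⟩)) * t ⟨a, h⟩ else 1,
    fun a ha b hb => ?_, fun a ha => by beta_reduce; rw [dif_pos ha, map_mul, X.pi, one_mul, t1]⟩
  beta_reduce
  rw [dif_pos ha, dif_pos hb, dif_pos (mul_mem ha hb), mul_assoc, ← mul_assoc (t _), X.sw, mul_assoc, hc,
    ← mul_assoc, ← mul_assoc, ← X.add, ← X.add, t1, map_smul, ← smul_add, add_comm (S _), ← c3, smul_add,
    smul_smul, neg_mul, inv_mul_cancel₀ hi, neg_one_smul, add_assoc, add_comm _ (c _ _), neg_add_cancel_left]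
  rfl

theorem conj {H L : Subgroup C} (hH : H ≤ L) (hL : L ≤ X.P) (hi : ((H.relIndex L : ℕ) : K) ≠ 0)
    {r s : C → E} (hr : X.Sp L r) (hs : X.Sp L s) {w : W} (h : ∀ a ∈ H, s a = X.ι w * r a * (X.ι w)⁻¹) :
    ∃ w, ∀ a ∈ L, s a = X.ι w * r a * (X.ι w)⁻¹ := by
  obtain ⟨S, S1, S2, S3, S4⟩ := exists_avg (K := K) (W := W) (H.subgroupOf L)
  obtain ⟨δ, d1, d2⟩ := hr.diff hs
  let f : L → W := fun d => δ d + X.σ (X.j d) w
  have f1 : ∀ a d, f (a * d) = δ a + X.σ (X.j a) (f d) := fun a d => by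
    simp only [f, Subgroup.coe_mul, d2 _ a.2 _ d.2, X.jm _ (hL a.2) _ (hL d.2), map_mul, map_add, add_assoc,
      End.mul_apply]
  have f2 : ∀ d, ∀ b ∈ H.subgroupOf L, f (d * b) = f d := fun d b hb => by
    have : δ b = w - X.σ (X.j b) w := X.inj (mul_right_cancel (b := r b) (by
      rw [← d1 _ b.2, h _ (show (b : C) ∈ H from hb), X.cj, hr.2 _ b.2]))
    rw [f1, show f b = w by simp only [f, this, sub_add_cancel]]
  refine ⟨((H.relIndex L : ℕ) : K)⁻¹ • S f, fun a ha => ?_⟩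
  have := S4 f f2 ⟨a, ha⟩
  rw [funext (f1 ⟨a, ha⟩), S1, S2, S3] at this
  rw [X.cj, hr.2 a ha, d1 a ha, map_smul, ← smul_sub, sub_eq_of_eq_add this.symm, ← Subgroup.relIndex,
    inv_smul_smul₀ hi]

theorem conj_bot {N : Subgroup C} (hN : N ≤ X.P) (hi : ((Nat.card N : ℕ) : K) ≠ 0) {r s : C → E}
    (hr : X.Sp N r) (hs : X.Sp N s) : ∃ w, ∀ a ∈ N, s a = X.ι w * r a * (X.ι w)⁻¹ :=
  X.conj bot_le hN (by rwa [Subgroup.relIndex_bot_left]) hr hs (w := 0) fun a ha => by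
    rw [Subgroup.mem_bot.1 ha, hr.one, hs.one]; simp

theorem conj_perf {N L : Subgroup C} (hN : N ≤ L) (hL : L ≤ X.P)
    (hn : ∀ a ∈ L, ∀ n ∈ N, a * n * a⁻¹ ∈ N) (hi : ((Nat.card N : ℕ) : K) ≠ 0) (hp : L ≤ ⁅L, L⁆ ⊔ N)
    (hf : ∀ w, (∀ n ∈ N, X.σ (X.j n) w = w) → ∀ a ∈ L, X.σ (X.j a) w = w)
    {r s : C → E} (hr : X.Sp L r) (hs : X.Sp L s) :
    ∃ w, ∀ a ∈ L, s a = X.ι w * r a * (X.ι w)⁻¹ := by
  obtain ⟨w, hw⟩ := X.conj_bot (hN.trans hL) hi (hr.mono hN) (hs.mono hN)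
  obtain ⟨δ, d1, d2⟩ := hr.diff hs
  let f : C → W := fun a => δ a - (w - X.σ (X.j a) w)
  have f0 : ∀ a ∈ L, f a = 0 ↔ s a = X.ι w * r a * (X.ι w)⁻¹ := fun a ha => by
    rw [X.cj, d1 a ha, mul_left_inj, X.inj.eq_iff, hr.2 a ha, sub_eq_zero]
  have f1 : ∀ a ∈ L, ∀ b ∈ L, f (a * b) = f a + X.σ (X.j a) (f b) := fun a ha b hb => by
    simp only [f, d2 a ha b hb, X.jm _ (hL ha) _ (hL hb), map_mul, map_sub, End.mul_apply]
    abel
  have f2 : ∀ n ∈ N, f n = 0 := fun n k => (f0 n (hN k)).2 (hw n k)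
  have f3 : ∀ a ∈ L, ∀ b ∈ L, f (a * b) = f a + f b := fun a ha b hb => by
    rw [f1 a ha b hb, hf _ (fun n k => ?_) a ha]
    have k' := hn _ (inv_mem hb) n k
    have := f1 b hb _ (hN k')
    rwa [f2 _ k', map_zero, add_zero, inv_inv, ← mul_assoc, mul_inv_cancel_left, f1 n (hN k) b hb, f2 n k,
      zero_add] at this
  have f4 : ∀ a ∈ L, f a⁻¹ = -f a := fun a ha =>
    eq_neg_of_add_eq_zero_left (by rw [← f3 _ (inv_mem ha) _ ha, inv_mul_cancel, f2 1 (one_mem _)])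
  let Z : Subgroup C :=
    { carrier := {a | a ∈ L ∧ f a = 0}
      one_mem' := ⟨one_mem _, f2 1 (one_mem _)⟩
      mul_mem' := fun {a b} p q => ⟨mul_mem p.1 q.1, by rw [f3 a p.1 b q.1, p.2, q.2, add_zero]⟩
      inv_mem' := fun {a} p => ⟨inv_mem p.1, by rw [f4 a p.1, p.2, neg_zero]⟩ }
  have : ⁅L, L⁆ ⊔ N ≤ Z := sup_le (Subgroup.commutator_le.2 fun a ha b hb => ⟨mul_mem (mul_mem (mul_mem ha hb)
    (inv_mem ha)) (inv_mem hb), by
      rw [commutatorElement_def, f3 _ (mul_mem (mul_mem ha hb) (inv_mem ha)) _ (inv_mem hb),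
        f3 _ (mul_mem ha hb) _ (inv_mem ha), f3 a ha b hb, f4 a ha, f4 b hb]; abel⟩) fun n k => ⟨hN k, f2 n k⟩
  exact ⟨w, fun a ha => (f0 a ha).1 (this (hp ha)).2⟩

end Xt

end CF.Bv
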