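import Cfsg.Agent.Bv.X1
import Cfsg.Agent.Schur.Crit

/-! Splitting over a group whose action on the fixed vectors of a normal subgroup is trivial. -/

set_option autoImplicit false

namespace CF.Bv

open Cfsg Module Subgroup

variable {K W : Type*} [Field K] [AddCommGroup W] [Module K W]
variable {E D C : Type*} [Group E] [Group D] [Group C] [Finite C] (X : Xt K W E D C)

theorem Xt.ipow (w : W) (n : ℕ) : X.ι (n • w) = X.ι w ^ n := by
  induction n with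
  | zero => rw [zero_smul, pow_zero, X.i0]
  | succ n ih => rw [succ_nsmul, X.add, ih, pow_succ]

theorem Xt.central {N L : Subgroup C} (hN : N ≤ L) (hL : L ≤ X.P) (hi : ((Nat.card N : ℕ) : K) ≠ 0)
    (hf : ∀ w, (∀ n ∈ N, X.σ (X.j n) w = w) → ∀ a ∈ L, X.σ (X.j a) w = w)
    {M : Type} [Group M] (φ : L →* M) (hφ : Function.Surjective φ) (hk : ∀ a : L, φ a = 1 ↔ (a : C) ∈ N)
    (hM : commutator M = ⊤) {m : ℕ} (hs : HasCyclicSchurMultiplier M m) (hm : (m : K) ≠ 0) :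
    ∃ s, X.Sp L s := by
  have hP := hN.trans hL
  obtain ⟨r, hr⟩ := X.gasch (r := fun _ => 1) bot_le hP (by rwa [relIndex_bot_left])
    ⟨fun _ _ _ _ => (mul_one _).symm, fun a ha => by rw [mem_bot.1 ha, X.j1, map_one]⟩
  have nn : ∀ k : L, ∀ n ∈ N, (k : C) * n * (k : C)⁻¹ ∈ N := fun k n h =>
    (hk (k * ⟨n, hN h⟩ * k⁻¹)).1 (by rw [map_mul, map_mul, (hk ⟨n, hN h⟩).2 h]; simp)
  let Y : Subgroup (L × E) :=
    { carrier := {g | X.p g.2 = X.j g.1 ∧ ∀ n ∈ N, g.2 * r n * g.2⁻¹ = r (g.1 * n * (g.1 : C)⁻¹)}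
      one_mem' := ⟨by simp [X.j1], by simp⟩
      mul_mem' := fun {a b} p q => ⟨by
        rw [Prod.snd_mul, map_mul, p.1, q.1, Prod.fst_mul, coe_mul, X.jm _ (hL a.1.2) _ (hL b.1.2)], fun n h => by
          have := p.2 _ (nn b.1 n h)
          rw [← q.2 n h] at this
          simpa [mul_assoc] using this⟩
      inv_mem' := fun {a} p => ⟨by rw [Prod.snd_inv, map_inv, p.1, Prod.fst_inv, coe_inv, X.jinv (hL a.1.2)],
        fun n h => by
          have := p.2 _ (nn a.1⁻¹ n h)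
          rw [show (a.1 : C) * ((a.1⁻¹ : L) * n * ((a.1⁻¹ : L) : C)⁻¹) * (a.1 : C)⁻¹ = n by simp [mul_assoc]] at this
          rw [Prod.snd_inv, Prod.fst_inv, ← congrArg (fun x => a.2⁻¹ * x * a.2⁻¹⁻¹) this]
          group⟩ }
  have yN : ∀ n (h : n ∈ N), ((⟨n, hN h⟩, r n) : L × E) ∈ Y := fun n h => ⟨hr.2 n h, fun k q => by
    rw [hr.1 _ (mul_mem h q) _ (inv_mem h), hr.1 _ h _ q, hr.inv h]⟩
  have yS : ∀ k : L, ∃ e, (k, e) ∈ Y := fun k => by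
    obtain ⟨e, he⟩ := X.sur (X.j k)
    obtain ⟨w, hw⟩ := X.conj_bot hP hi hr (s := fun n => e⁻¹ * r (k * n * (k : C)⁻¹) * e) ⟨fun a ha b hb => by
      beta_reduce
      rw [show (k : C) * (a * b) * (k : C)⁻¹ = k * a * (k : C)⁻¹ * (k * b * (k : C)⁻¹) by group,
        hr.1 _ (nn k a ha) _ (nn k b hb)]; group, fun a ha => by
      rw [map_mul, map_mul, map_inv, he, hr.2 _ (nn k a ha), X.jm _ (mul_mem (hL k.2) (hP ha)) _ (inv_mem (hL k.2)),
        X.jm _ (hL k.2) _ (hP ha), X.jinv (hL k.2)]; group⟩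
    exact ⟨e * X.ι w, by rw [map_mul, X.pi, mul_one, he], fun n h => by
      calc _ = e * (X.ι w * r n * (X.ι w)⁻¹) * e⁻¹ := by group
        _ = _ := by rw [← hw n h]; group⟩
  let Z : Subgroup Y :=
    { carrier := {g | (g.1.1 : C) ∈ N ∧ g.1.2 = r g.1.1}
      one_mem' := ⟨one_mem N, hr.one.symm⟩
      mul_mem' := fun {a b} p q => ⟨mul_mem p.1 q.1, ((hr.1 _ p.1 _ q.1).trans (by rw [← p.2, ← q.2]; rfl)).symm⟩
      inv_mem' := fun {a} p => ⟨inv_mem p.1, ((hr.inv p.1).trans (by rw [← p.2]; rfl)).symm⟩ }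
  haveI : Z.Normal := ⟨fun a p g => ⟨nn g.1.1 _ p.1, Eq.trans (by rw [← p.2]; rfl) (g.2.2 _ p.1)⟩⟩
  let ψ : Y →* M := φ.comp ((MonoidHom.fst L E).comp Y.subtype)
  let ξ : Y ⧸ Z →* M := QuotientGroup.lift Z ψ fun g p => (hk _).2 p.1
  have kr : ∀ g : Y, ψ g = 1 → ∃ w, ∃ h : (1, X.ι w) ∈ Y, (g : Y ⧸ Z) = (⟨_, h⟩ : Y) ∧ (⟨_, h⟩ : Y) ∈ center Y :=
    fun g p => by
      have q := (hk _).1 p
      obtain ⟨w, hw⟩ := X.ex (g.2.1.trans (hr.2 _ q).symm)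
      have e : g.1 * (⟨_, hN q⟩, r g.1.1)⁻¹ = (1, X.ι w) := Prod.ext (mul_inv_cancel g.1.1) (mul_inv_eq_of_eq_mul hw)
      have h : (1, X.ι w) ∈ Y := e ▸ mul_mem g.2 (inv_mem (yN _ q))
      have f := hf w fun n k => by
        have := h.2 n k
        rw [X.cj, hr.2 n k] at this
        simp only [coe_one, one_mul, inv_one, mul_one, mul_eq_right, ← X.i0, X.inj.eq_iff] at this
        exact (sub_eq_zero.1 this).symm
      refine ⟨w, h, QuotientGroup.eq.2 ((inv_mem_iff (H := Z)).1 ⟨by simpa using q, ?_⟩), mem_center_iff.2 fun y =>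
        Subtype.ext (Prod.ext (by simp) ?_)⟩
      · simp [hw]
      · show y.1.2 * X.ι w = X.ι w * y.1.2
        rw [X.sw, y.2.1, f _ y.1.1.2]
  have ce : Schur.CExt ξ := ⟨fun x => by
    obtain ⟨k, rfl⟩ := hφ x
    exact (yS k).elim fun e h => ⟨(⟨_, h⟩ : Y), rfl⟩, fun x p => by
    obtain ⟨g, rfl⟩ := QuotientGroup.mk_surjective x
    obtain ⟨w, h, a, b⟩ := kr g p
    rw [a]
    exact mem_center_iff.2 fun y => by
      obtain ⟨y, rfl⟩ := QuotientGroup.mk_surjective y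
      rw [← QuotientGroup.mk_mul, mem_center_iff.1 b, QuotientGroup.mk_mul]⟩
  have dv := (Schur.HasSchur.card_mul_dvd hs ce).trans (Nat.card_zmod m).dvd
  let Γ := (commutator (Y ⧸ Z)).comap (QuotientGroup.mk' Z)
  have g1 : ∀ g ∈ Γ, g.1.1 = 1 → g.1.2 = 1 := fun g p q => by
    have u : ψ g = 1 := (congrArg φ q).trans (map_one φ)
    obtain ⟨w, h, a, -⟩ := kr g u
    have v : ((⟨_, h⟩ : Y) : Y ⧸ Z) ^ m = 1 := a ▸ orderOf_dvd_iff_pow_eq_one.1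
      ((Subgroup.orderOf_dvd_natCard (Schur.mul ξ) (x := g) ⟨u, p⟩).trans dv)
    rw [← QuotientGroup.mk_pow, QuotientGroup.eq_one_iff] at v
    have v2 : X.ι w ^ m = r ((1 : L) ^ m : L) := v.2
    rw [one_pow, coe_one, hr.one, ← X.ipow, ← X.i0, X.inj.eq_iff, ← Nat.cast_smul_eq_nsmul K, smul_eq_zero] at v2
    have := (QuotientGroup.eq.1 a).2
    simpa [q, hr.one, v2.resolve_left hm, X.i0] using this
  have g2 : ∀ k : L, ∃ g ∈ Γ, g.1.1 = k := fun k => by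
    obtain ⟨x, p, q⟩ : φ k ∈ (commutator (Y ⧸ Z)).map ξ := by
      rw [map_commutator_eq, MonoidHom.range_eq_top.2 ce.surj, ← commutator_def, hM]; trivial
    obtain ⟨g, rfl⟩ := QuotientGroup.mk_surjective x
    have u := (hk (g.1.1⁻¹ * k)).1 (by rw [map_mul, map_inv, ← q]; exact inv_mul_cancel _)
    refine ⟨g * ⟨_, yN _ u⟩, mul_mem p ?_, mul_inv_cancel_left _ _⟩
    exact mem_comap.2 (((QuotientGroup.eq_one_iff (N := Z) ⟨_, yN _ u⟩).2 ⟨u, rfl⟩).symm ▸ one_mem _ :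
      ((⟨_, yN _ u⟩ : Y) : Y ⧸ Z) ∈ _)
  choose s s1 s2 using g2
  classical
  refine ⟨fun a => if h : a ∈ L then (s ⟨a, h⟩).1.2 else 1, fun a ha b hb => ?_, fun a ha => ?_⟩ <;> beta_reduce
  · rw [dif_pos ha, dif_pos hb, dif_pos (mul_mem ha hb)]
    exact mul_inv_eq_one.1 (g1 _ (mul_mem (s1 ⟨_, mul_mem ha hb⟩) (inv_mem (mul_mem (s1 ⟨a, ha⟩) (s1 ⟨b, hb⟩))))
      (mul_inv_eq_one.2 ((s2 _).trans (congrArg₂ (· * ·) (s2 ⟨a, ha⟩) (s2 ⟨b, hb⟩)).symm)))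
  · rw [dif_pos ha, (s _).2.1, s2]

end CF.Bv
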