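import Cfsg.Agent.Bv.X2
import Cfsg.Agent.Bv.F1
import Cfsg.Agent.S2036

/-! Splittings over the frame stabilisers. -/

set_option autoImplicit false

namespace CF.Bv

open Cfsg CF.Leech CF.Comp CF.Mon CF.Mon.G CF.Mon.T CF.Mon.L CF.Mon.W4 CF.Known.Mon CF.Classical
open Module Lab MulAction Subgroup

variable {K W : Type*} [Field K] [AddCommGroup W] [Module K W]
variable {E D : Type*} [Group E] [Group D] {A : Rp K W} {X : Xt K W E D Gt} {t : D}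

theorem card_RS_ne (h : (2 : K) ≠ 0) (H : Subgroup Gt) : ((Nat.card (RS ⊓ H : Subgroup Gt) : ℕ) : K) ≠ 0 := by
  obtain ⟨k, hk⟩ := card_RS
  have := Nat.cast_dvd_cast (α := K) (hk ▸ card_dvd_of_le (inf_le_left : RS ⊓ H ≤ RS))
  exact ne_zero_of_dvd_ne_zero (by push_cast; exact pow_ne_zero _ h) this

theorem Xb.n0 (h : Xb A X t) (F : Fr A) {L : Subgroup Gt} (e : (L : Set Gt) = N0) : RS ⊓ PA ≤ L ∧ L ≤ PA ⊓ Np ∧
    ∀ w, (∀ n ∈ RS ⊓ PA, X.σ (X.j n) w = w) → ∀ a ∈ L, X.σ (X.j a) w = w := by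
  have m : ∀ a, a ∈ L ↔ a ∈ N0 := fun a => e ▸ Iff.rfl
  refine ⟨fun n k => (m n).2 ?_, fun a k => ⟨((m a).1 k).1, ((m a).1 k).2.1⟩, fun w q a k => ?_⟩
  · obtain ⟨k1, c, hc, k2⟩ := mem_RS.1 k.1
    exact ⟨k.2, k1, 1, c, hc, by rw [k2, map_one, mul_one], rfl, rfl⟩
  · obtain ⟨k1, -, σ, c, hc, k2, k3⟩ := (m a).1 k
    obtain ⟨c, rfl⟩ := F.fix_RS (v := w) fun n r => h.R n r.2 ▸ q n r
    rw [h.R a k1, map_smul, F.mon_f k1 k2, if_pos k3.1]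

theorem Xb.spN (h : Xb A X t) (F : Fr A) : ∃ r, X.Sp (PA ⊓ Np) r := by
  obtain ⟨L, φ, e, i, s, k, p⟩ := exists_N0
  obtain ⟨a, b, c⟩ := h.n0 F e
  have l : PA ⊓ Np ≤ X.P := h.P ▸ inf_le_left
  have : ⁅L, L⁆ ⊔ RS ⊓ PA ≤ ((commutator Spor.M22).comap φ).map L.subtype := sup_le (by
    rw [← map_subtype_commutator]
    exact map_mono (map_le_iff_le_comap.1 (by rw [map_commutator_eq]; exact commutator_mono le_top le_top)))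
    fun n q => ⟨⟨n, a q⟩, mem_comap.2 (((k ⟨n, a q⟩).2 q).symm ▸ one_mem _), rfl⟩
  obtain ⟨r, hr⟩ := X.central a (b.trans l) (card_RS_ne A.two _) c φ s k (top_unique fun x _ => by
    obtain ⟨y, rfl⟩ := s x
    obtain ⟨z, z1, z2⟩ := this (p y.2)
    exact (Subtype.ext z2 : z = y) ▸ z1) Agent.S2036.result (by
      rw [show ((12 : ℕ) : K) = 2 * 2 * 3 by norm_num]
      exact mul_ne_zero (mul_ne_zero A.two A.two) h.three)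
  exact X.gasch b l (i ▸ A.two) hr

theorem Xb.cjN (h : Xb A X t) (F : Fr A) {r s : Gt → E} (hr : X.Sp (PA ⊓ Np) r) (hs : X.Sp (PA ⊓ Np) s) :
    ∃ w, ∀ a ∈ PA ⊓ Np, s a = X.ι w * r a * (X.ι w)⁻¹ := by
  obtain ⟨L, φ, e, i, -, -, p⟩ := exists_N0
  obtain ⟨a, b, c⟩ := h.n0 F e
  have l : PA ⊓ Np ≤ X.P := h.P ▸ inf_le_left
  obtain ⟨w, hw⟩ := X.conj_perf a (b.trans l) (fun x k n q => ⟨conj_RS (b k).2 q.1,
    PA.mul_mem (PA.mul_mem (b k).1 q.2) (PA.inv_mem (b k).1)⟩) (card_RS_ne A.two _) p c (hr.mono b) (hs.mono b)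
  exact X.conj b l (i ▸ A.two) hr hs hw

theorem Xb.cjB (h : Xb A X t) (F : Fr A) {r s : Gt → E} (hr : X.Sp (PB ⊓ Np) r) (hs : X.Sp (PB ⊓ Np) s) :
    ∃ w, ∀ a ∈ PB ⊓ Np, s a = X.ι w * r a * (X.ι w)⁻¹ :=
  X.conj_perf (N := RS ⊓ PB) (L := PB ⊓ Np) (fun _ q => ⟨q.2, q.1.1⟩) (h.P ▸ fun _ q => q.1.1) (fun _ k _ q => ⟨conj_RS k.2 q.1,
    PB.mul_mem (PB.mul_mem k.1 q.2) (PB.inv_mem k.1)⟩) (card_RS_ne A.two _) perf_HB (fun w q a k =>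
      h.R a k.1.1 ▸ F.fix_RB (fun n r => h.R n r.2.1 ▸ q n r) a k) hr hs

theorem Xb.sp_kap (h : Xb A X t) {H : Subgroup Gt} (hk : Mon.kap ∈ H) {r : Gt → E} (hr : X.Sp H r) :
    r Mon.kap = 1 := by
  obtain ⟨w, e⟩ := (X.ker _).1 ((hr.2 _ hk).trans h.kap)
  have := hr.1 _ hk _ hk
  rw [kap_mul_self, hr.one, ← e, ← X.add, ← X.i0, X.inj.eq_iff] at this
  rw [← e, eq_zero_of_neg A.two (eq_neg_of_add_eq_zero_left this.symm), X.i0]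

end CF.Bv
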