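import Cfsg.Agent.Bv.Y1
import Cfsg.Agent.Bv.F2
import Cfsg.Agent.Mon.YX
import Cfsg.Agent.Mon.Cert

/-! The splitting over the parabolic subgroup. -/

set_option autoImplicit false
set_option maxHeartbeats 400000

namespace CF.Bv

open Cfsg CF.Leech CF.Comp CF.Mon CF.Mon.G CF.Mon.T CF.Mon.L CF.Mon.W4 CF.Known.Mon CF.Classical
open Module Lab MulAction Subgroup

variable {K W : Type*} [Field K] [AddCommGroup W] [Module K W]

section
variable {E D C : Type*} [Group E] [Group D] [Group C] (X : Xt K W E D C)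

theorem Xt.fx {x y f f' : E} {a a' : W} (h1 : x * f = f' * y) (h2 : x * (X.ι a * f) = X.ι a' * f' * y) :
    X.σ (X.p x) a = a' := X.inj (mul_right_cancel (b := f' * y) (by
  rw [← h1, ← mul_assoc, ← X.sw, mul_assoc, h2, mul_assoc, h1]))

theorem Xt.cm {e : E} {a : W} (h : X.σ (X.p e) a = a) : e * X.ι a = X.ι a * e := by rw [X.sw, h]

theorem Xt.cube [Finite C] {e : E} {a : W} (h : X.σ (X.p e) a = a) : (X.ι a * e) ^ 3 = X.ι ((3 : K) • a) * e ^ 3 := by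
  rw [Commute.mul_pow (X.cm h).symm, ← X.ipow, ← Nat.cast_smul_eq_nsmul K]; rfl

end

theorem cyc3 {G : Type*} [Group G] {s a b c d : G} (e : s * a = b * s) (f : s * b = c * s) (g : s * c = d * s) :
    s ^ 3 * a = d * s ^ 3 := by
  rw [pow_three, mul_assoc, mul_assoc, e, ← mul_assoc s b, f, ← mul_assoc, ← mul_assoc, g, mul_assoc, mul_assoc]

theorem cube_mul {G : Type*} [Group G] {s a b c : G} (e : s * a = b * s) (f : s * b = c * s) :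
    (a * s) ^ 3 = a * b * c * s ^ 3 := by
  rw [← mul_inv_eq_iff_eq_mul.2 f, ← mul_inv_eq_iff_eq_mul.2 e]; simp only [pow_three]; group

theorem cj_fix {x n : Gt} {p q : Lab} (h : x • p = q) (e : n • p = p) : (x * n * x⁻¹) • q = q := by
  rw [← h, mul_smul, inv_smul_smul, mul_smul, e]

theorem mem_NB {n : Gt} : n ∈ PB ⊓ Np ↔ n • tA = tA ∧ n • tB = tB ∧ n • (Y0 * tA * tB) = Y0 * tA * tB :=
  ⟨fun h => ⟨h.1.1, h.1.2, by rw [smul_mul', smul_mul', Np_Y0.1 h.2, h.1.1, h.1.2]⟩, fun ⟨a, b, c⟩ =>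
    ⟨⟨a, b⟩, Np_Y0.2 (by rwa [smul_mul', smul_mul', a, b, mul_left_inj, mul_left_inj] at c)⟩⟩

/-- the stabiliser of the triangle -/
noncomputable abbrev HT : Subgroup Gt := PB ⊓ Np ⊓ stabilizer Gt t2L

theorem g_NB {n : Gt} (h : n ∈ PB ⊓ Np) : gP.val * n * gP.val⁻¹ ∈ PB ⊓ Np :=
  let ⟨a, b, c⟩ := mem_NB.1 h
  mem_NB.2 ⟨cj_fix gP_spec.2.1 a, cj_fix gP_spec.2.2.2.1 c, cj_fix gP_spec.2.2.1 b⟩

theorem g_NB' {n : Gt} (h : n ∈ PB ⊓ Np) : gP.val⁻¹ * n * gP.val ∈ PB ⊓ Np := by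
  obtain ⟨a, b, c⟩ := mem_NB.1 h
  have := mem_NB.2 ⟨cj_fix (inv_smul_eq_iff.2 gP_spec.2.1.symm) a,
    cj_fix (inv_smul_eq_iff.2 gP_spec.2.2.1.symm) c, cj_fix (inv_smul_eq_iff.2 gP_spec.2.2.2.1.symm) b⟩
  rwa [inv_inv] at this

theorem g_HT {n : Gt} (h : n ∈ HT) : gP.val * n * gP.val⁻¹ ∈ HT := ⟨g_NB h.1, cj_fix gP_spec.2.2.2.2 h.2⟩

theorem b_HT {n : Gt} (h : n ∈ HT) : bP.val * n * bP.val⁻¹ ∈ HT :=
  let ⟨a, b, c⟩ := mem_NB.1 h.1
  ⟨mem_NB.2 ⟨cj_fix bP_spec.2.1.1 a, cj_fix bP_spec.2.1.2 b, cj_fix bP_spec.2.2.2 h.2⟩, cj_fix bP_spec.2.2.1 c⟩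

theorem gg_HT : gP.val * gP.val ∈ HT := by
  obtain ⟨-, a, b, c, d⟩ := gP_spec
  exact ⟨mem_NB.2 ⟨PA.mul_mem a a, by rw [mul_smul, b, c], by rw [mul_smul, c, b]⟩,
    (stabilizer _ _).mul_mem d d⟩

theorem bb_HT : bP.val * bP.val ∈ HT := by
  obtain ⟨-, a, b, c⟩ := bP_spec
  exact ⟨mem_NB.2 ⟨(PB.mul_mem a a).1, (PB.mul_mem a a).2, by rw [mul_smul, b, c]⟩,
    show _ • _ = _ by rw [mul_smul, c, b]⟩

theorem gb_HT : (gP.val * bP.val) ^ 3 ∈ HT := by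
  obtain ⟨-, a, b, c⟩ := bP_spec
  obtain ⟨-, a', b', c', d⟩ := gP_spec
  have e : bP.val • tB = tB := a.2
  refine ⟨mem_NB.2 ⟨PA.pow_mem (PA.mul_mem a' a.1) 3, ?_, ?_⟩, show _ • _ = _ from ?_⟩ <;>
    simp only [pow_three, mul_smul]
  · rw [e, b', b, d, c, c']
  · rw [b, d, c, c', e, b']
  · rw [c, c', e, b', b, d]

variable {E D : Type*} [Group E] [Group D] {A : Rp K W} {X : Xt K W E D Gt} {t : D}

/-- a lift of `gP` that normalises the splitting -/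
def Cj (X : Xt K W E D Gt) (r : Gt → E) (u : E) : Prop :=
  X.p u = X.j gP.val ∧ ∀ n ∈ PB ⊓ Np, u * r n = r (gP.val * n * gP.val⁻¹) * u

theorem Cj.adj {r : Gt → E} (hr : X.Sp PB r) {u : E} (c : Cj X r u) {a : W}
    (ha : ∀ n ∈ PB ⊓ Np, X.σ (X.j n) a = a) : Cj X r (X.ι a * u) :=
  ⟨by rw [map_mul, X.pi, one_mul, c.1], fun n k => by
    rw [mul_assoc, c.2 n k, ← mul_assoc, ← mul_assoc, X.cm (by rw [hr.2 _ (g_NB k).1, ha _ (g_NB k)])]⟩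

theorem Xb.jm (h : Xb A X t) {a b : Gt} (ha : a ∈ PA) (hb : b ∈ PA) : X.j (a * b) = X.j a * X.j b :=
  X.jm a (h.P ▸ ha) b (h.P ▸ hb)

theorem Xb.ji (h : Xb A X t) {a : Gt} (ha : a ∈ PA) : X.j a⁻¹ = (X.j a)⁻¹ := X.jinv (h.P ▸ ha)

theorem Xb.cj1 (h : Xb A X t) (F : Fr A) {r : Gt → E} (hr : X.Sp PB r) : ∃ u, Cj X r u := by
  obtain ⟨u, hu⟩ := X.sur (X.j gP.val)
  have g := gP_spec.2.1
  obtain ⟨w, hw⟩ := h.cjB F (hr.mono inf_le_left) (s := fun n => u⁻¹ * r (gP.val * n * gP.val⁻¹) * u)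
    ⟨fun a x b y => by
      beta_reduce
      rw [show gP.val * (a * b) * gP.val⁻¹ = gP.val * a * gP.val⁻¹ * (gP.val * b * gP.val⁻¹) by group,
        hr.1 _ (g_NB x).1 _ (g_NB y).1]; group, fun a x => by
      rw [map_mul, map_mul, map_inv, hu, hr.2 _ (g_NB x).1, h.jm (mul_mem g x.1.1) (inv_mem g),
        h.jm g x.1.1, h.ji g]; group⟩
  refine ⟨u * X.ι w, by rw [map_mul, X.pi, hu, mul_one], fun n k => ?_⟩
  have := hw n k
  rw [mul_assoc, mul_inv_eq_iff_eq_mul.1 this.symm]; group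

theorem Xb.cj2 (h : Xb A X t) (F : Fr A) {r : Gt → E} (hr : X.Sp PB r) :
    ∃ u, Cj X r u ∧ u * u = r (gP.val * gP.val) := by
  obtain ⟨u, c⟩ := h.cj1 F hr
  have g := gP_spec.2.1
  have gg := gg_HT.1
  obtain ⟨a, e⟩ := X.ex (e := u * u) (f := r (gP.val * gP.val)) (by rw [map_mul, c.1, hr.2 _ gg.1, h.jm g g])
  have a1 : X.σ (X.p u) a = a := X.fx ((c.2 _ gg).trans (by rw [mul_assoc, mul_inv_cancel_right]))
    (by rw [← e, mul_assoc])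
  have a2 : ∀ n ∈ PB ⊓ Np, X.σ (X.j n) a = a := fun n k => by
    have k1 := g_NB' k
    have k2 := g_NB' k1
    rw [← hr.2 _ k.1]
    refine X.fx (y := r (gP.val⁻¹ * (gP.val⁻¹ * n * gP.val) * gP.val)) (f := r (gP.val * gP.val))
      (f' := r (gP.val * gP.val)) ?_ ?_
    · rw [← hr.1 _ k.1 _ gg.1, ← hr.1 _ gg.1 _ k2.1]; congr 1; group
    · rw [← e, mul_assoc, c.2 _ k2, ← mul_assoc u, show gP.val * (gP.val⁻¹ * (gP.val⁻¹ * n * gP.val) *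
        gP.val) * gP.val⁻¹ = gP.val⁻¹ * n * gP.val by group, c.2 _ k1, mul_assoc]
      congr 2; group
  refine ⟨X.ι (-(2 : K)⁻¹ • a) * u, c.adj hr fun n k => by rw [map_smul, a2 n k], ?_⟩
  rw [mul_assoc, ← mul_assoc u, X.cm (by rw [map_smul, a1]), mul_assoc, e, ← mul_assoc, ← mul_assoc, ← X.add,
    ← X.add, ← two_smul K, smul_smul, mul_neg, mul_inv_cancel₀ A.two, neg_one_smul, neg_add_cancel, X.i0,
    one_mul]

theorem Xb.cj3 (h : Xb A X t) (F : Fr A) {r : Gt → E} (hr : X.Sp PB r) :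
    ∃ u, Cj X r u ∧ u * u = r (gP.val * gP.val) ∧ (u * r bP.val) ^ 3 = r ((gP.val * bP.val) ^ 3) := by
  obtain ⟨u, c, sq⟩ := h.cj2 F hr
  have g := gP_spec.2.1
  have b := bP_spec.2.1
  have gb := gb_HT
  set γ := gP.val * bP.val with hγ
  have γT : ∀ {n}, n ∈ HT → γ * n * γ⁻¹ ∈ HT := fun {n} k => by
    convert g_HT (b_HT k) using 1; rw [hγ]; group
  have pu : X.p (u * r bP.val) = X.j γ := by rw [map_mul, c.1, hr.2 _ b, h.jm g b.1]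
  have cu : ∀ n ∈ HT, u * r bP.val * r n = r (γ * n * γ⁻¹) * (u * r bP.val) := fun n k => by
    rw [mul_assoc, ← hr.1 _ b _ k.1.1, show bP.val * n = bP.val * n * bP.val⁻¹ * bP.val by group,
      hr.1 _ (b_HT k).1.1 _ b, ← mul_assoc, c.2 _ (b_HT k).1, mul_assoc]
    congr 2
  have γA : γ ∈ PA := mul_mem g b.1
  set U := u * r bP.val with hU
  obtain ⟨a, e⟩ := X.ex (e := U ^ 3) (f := r (γ ^ 3)) (by
    rw [map_pow, pu, hr.2 _ gb.1.1, pow_three, pow_three, h.jm γA (mul_mem γA γA), h.jm γA γA])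
  have a1 : X.σ (X.p U) a = a := X.fx (y := U) (f' := r (γ ^ 3))
    ((cu _ gb).trans (by rw [← pow_succ', pow_succ, mul_inv_cancel_right])) (by rw [← e, ← pow_succ, ← pow_succ'])
  have a2 : ∀ n ∈ HT, X.σ (X.j n) a = a := fun n k => by
    have k1 := mul_mem (mul_mem (inv_mem gb) k) gb
    rw [← hr.2 _ k.1.1]
    refine X.fx (y := r ((γ ^ 3)⁻¹ * n * γ ^ 3)) (f := r (γ ^ 3)) (f' := r (γ ^ 3)) ?_ ?_
    · rw [← hr.1 _ k.1.1 _ gb.1.1, ← hr.1 _ gb.1.1 _ k1.1.1]; congr 1; group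
    · rw [← e, cyc3 (cu _ k1) (cu _ (γT k1)) (cu _ (γT (γT k1)))]
      congr 2; simp only [pow_three]; group
  have a3 : X.σ (X.j bP.val) a = -a := by
    have k := inv_mem (mul_mem gg_HT bb_HT)
    set κ := (gP.val * gP.val * (bP.val * bP.val))⁻¹ with hκ
    have k1 : (r bP.val)⁻¹ * U⁻¹ * r bP.val = r κ * U := by
      rw [hκ, hr.inv (mul_mem gg_HT bb_HT).1.1, hr.1 _ gg_HT.1.1 _ bb_HT.1.1, ← sq, hr.1 _ b _ b, hU]; group
    have m := mul_mem (mul_mem k (γT k)) (γT (γT k))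
    have k2 : (r κ * U) ^ 3 = X.ι a * ((r bP.val)⁻¹ * (r (γ ^ 3))⁻¹ * r bP.val) := by
      rw [← hr.inv b, ← hr.inv gb.1.1, ← hr.1 _ (inv_mem b) _ (inv_mem gb.1.1),
        ← hr.1 _ (mul_mem (inv_mem b) (inv_mem gb.1.1)) _ b, show bP.val⁻¹ * (γ ^ 3)⁻¹ * bP.val =
          κ * (γ * κ * γ⁻¹) * (γ * (γ * κ * γ⁻¹) * γ⁻¹) * γ ^ 3 by simp only [hκ, hγ, pow_three]; group,
        cube_mul (cu _ k) (cu _ (γT k)), ← hr.1 _ k.1.1 _ (γT k).1.1,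
        ← hr.1 _ (mul_mem k (γT k)).1.1 _ (γT (γT k)).1.1, e, ← mul_assoc,
        X.cm (by rw [hr.2 _ m.1.1, a2 _ m]), hr.1 _ m.1.1 _ gb.1.1, mul_assoc]
    have := X.fx (x := r bP.val) (y := r bP.val) (a := a) (a' := -a) (f' := (r (γ ^ 3))⁻¹)
      (f := (r bP.val)⁻¹ * (r (γ ^ 3))⁻¹ * r bP.val) (by group) (by
        rw [← k2, ← k1, X.ineg, ← mul_inv_rev _ (X.ι a), X.cm (by rw [hr.2 _ gb.1.1, a2 _ gb]), ← e]
        simp only [pow_three]; group)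
    rwa [hr.2 _ b] at this
  have a4 : X.σ (X.p u) a = -a := by
    rw [pu, hγ, h.jm g b.1, map_mul, End.mul_apply, a3, map_neg, ← c.1] at a1
    exact neg_eq_iff_eq_neg.1 a1
  have a5 := F.fix_tri g b gP_spec.2.2.1 gP_spec.2.2.2.1 gP_spec.2.2.2.2 (v := a)
    (fun n x y z => h.R n x.1 ▸ a2 n ⟨⟨x, y⟩, z⟩) (by rw [← h.R _ g, ← c.1, a4]) (h.R _ b.1 ▸ a3)
  refine ⟨X.ι (-(3 : K)⁻¹ • a) * u, c.adj hr fun n k => by rw [map_smul, h.R n k.1.1, a5 n k], ?_, ?_⟩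
  · rw [mul_assoc, ← mul_assoc u, X.sw, map_smul, a4, mul_assoc, sq, ← mul_assoc, ← X.add, smul_neg,
      add_neg_cancel, X.i0, one_mul]
  · rw [mul_assoc, ← hU, X.cube (by rw [map_smul, a1]), e, ← mul_assoc, ← X.add, smul_smul, mul_neg,
      mul_inv_cancel₀ h.three, neg_one_smul, neg_add_cancel, X.i0, one_mul]

theorem Xb.spA_of (h : Xb A X t) (F : Fr A) {r : Gt → E} (hr : X.Sp PB r) : ∃ s, X.Sp PA s := by
  obtain ⟨u, c, sq, cube⟩ := h.cj3 F hr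
  have k1 := h.sp_kap C3.kap_PB hr
  have g := gP_spec.2.1
  have T : ExtG PB (fun γ => (r γ, rho γ)) (u, rho gP.val) gP.val [bP] :=
    ⟨⟨fun a x b y => Prod.ext (hr.1 a x b y) (map_mul ..), C3.kap_PB, Prod.ext k1 rho_kap⟩,
      fun n x y => Prod.ext (c.2 n (mem_NB.2 ⟨x.1, x.2, by
        have : _ • tB = tB := y.2
        rw [mul_smul, mul_smul, inv_smul_eq_iff.2 gP_spec.2.2.2.1.symm] at this
        exact smul_left_cancel _ (this.trans gP_spec.2.2.2.1.symm)⟩)) (by simp),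
      fun _ => Prod.ext sq (by simp), fun b x _ => by
        rw [List.mem_singleton.1 x]; exact Prod.ext cube (by simp)⟩
  let π := MonoidHom.snd E GLV
  set KB := (C3.homOf T.hom).range
  have iK : C3.Inj π KB := by
    rintro _ ⟨a, rfl⟩ e
    have e' : rho a = rho 1 := e.trans (map_one _).symm
    refine Prod.ext ?_ e
    change r a = 1
    rcases (rho_eq_iff rho_kap rho_xc_ne).1 e' with y | y
    · rw [y, hr.one]
    · rw [y, mul_one, k1]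
  have mB : KB.map π = PB.map rho := Subgroup.ext fun _ =>
    ⟨by rintro ⟨_, ⟨a, rfl⟩, rfl⟩; exact ⟨a, a.2, rfl⟩, by rintro ⟨a, b, rfl⟩; exact ⟨_, ⟨⟨a, b⟩, rfl⟩, rfl⟩⟩
  have mA : (KB ⊔ zpowers (u, rho gP.val)).map π = PA.map rho := by
    rw [Subgroup.map_sup, MonoidHom.map_zpowers, mB, ← C3.gen_PA certs.c2, Subgroup.map_sup,
      MonoidHom.map_zpowers]; rfl
  have b := C3.bndP certs.c2 T
  have iA := iK.of_index le_sup_left b.1 (by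
    rw [mA, mB, C3.relIndex_rho rho_kap rho_xc_ne C3.kap_PB, C3.idx_B]; exact b.2)
  let S : Subgroup (E × GLV) :=
    { carrier := {x | ∃ γ ∈ PA, X.p x.1 = X.j γ ∧ x.2 = rho γ}
      one_mem' := ⟨1, one_mem _, (map_one _).trans X.j1.symm, (map_one _).symm⟩
      mul_mem' := fun ⟨a, x, e, f⟩ ⟨b, y, e', f'⟩ => ⟨a * b, mul_mem x y,
        by rw [Prod.fst_mul, map_mul, e, e', h.jm x y], by rw [Prod.snd_mul, f, f', map_mul]⟩
      inv_mem' := fun ⟨a, x, e, f⟩ => ⟨a⁻¹, inv_mem x, by rw [Prod.fst_inv, map_inv, e, h.ji x],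
        by rw [Prod.snd_inv, f, map_inv]⟩ }
  have le : KB ⊔ zpowers (u, rho gP.val) ≤ S := sup_le
    (by rintro _ ⟨a, rfl⟩; exact ⟨a, a.2.1, hr.2 _ a.2, rfl⟩) (zpowers_le.2 ⟨_, g, c.1, rfl⟩)
  refine ⟨fun γ => (C3.sec π _ (rho γ)).1, fun a x b y =>
    congrArg Prod.fst ((C3.homOn_sec iA mA.ge kap_PA rho_kap).mul a x b y), fun a x => ?_⟩
  obtain ⟨m, e⟩ := C3.sec_rho mA.ge x
  obtain ⟨γ, y, e1, e2⟩ := le m
  rcases (rho_eq_iff rho_kap rho_xc_ne).1 (e.symm.trans e2) with z | z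
  · rw [z] at e1 ⊢; exact e1
  · rw [e1, z, h.jm kap_PA y, h.kap, one_mul]

theorem Xb.spA (h : Xb A X t) (F : Fr A) : ∃ s, X.Sp PA s := by
  obtain ⟨r, hr⟩ := h.spN F
  by_cases a : ((93150 : ℕ) : K) = 0
  · obtain ⟨s, hs⟩ := X.gasch (H := PB ⊓ Np) (L := PB) inf_le_left (h.P ▸ inf_le_left) (idx_HB ▸ fun b => by
      have : (2 : K) * 3 ^ 4 = 0 := by
        push_cast at a b; linear_combination 4 * a - 209 * b
      exact mul_ne_zero A.two (pow_ne_zero 4 h.three) this) (hr.mono (inf_le_inf_right _ inf_le_left))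
    exact h.spA_of F hs
  · exact X.gasch inf_le_left h.P.ge (idx_NA ▸ a) hr

end CF.Bv
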