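import Cfsg.Agent.Bv.Y2

/-! The lift of the triality element. -/

set_option autoImplicit false
set_option maxHeartbeats 400000

namespace CF.Bv

open Cfsg CF.Leech CF.Comp CF.Mon CF.Mon.G CF.Mon.T CF.Mon.L CF.Mon.W4 CF.Known.Mon CF.Classical
open Module Lab MulAction Subgroup

variable {K W : Type*} [Field K] [AddCommGroup W] [Module K W]
variable {E D : Type*} [Group E] [Group D] {A : Rp K W} {X : Xt K W E D Gt} {t : D}

theorem aE_Y : aE.val • (Y0 * (Z 0 * Z 1 * Z 2 * Z 3)) = Y0 := by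
  rw [show Y0 * (Z 0 * Z 1 * Z 2 * Z 3) = lab 25227264 from lab_dec (by decide +kernel),
    show Y0 = lab 25165824 from lab_dec (by decide +kernel)]
  exact smul_of_evL (by decide +kernel) (by decide +kernel)

theorem th_aE {a b c : Gt} (e : TH (aE.val * a * aE.val⁻¹) b) (f : TH (aE.val * c * aE.val⁻¹) a) :
    TH (aE.val * b * aE.val⁻¹) c := by
  have k := (R.rels_of rels0).rel
  have i : ∀ {n m : Gt}, TH (aE.val * n * aE.val⁻¹) m ↔ tau * rho aE.val * rho n = rho m * (tau * rho aE.val) := by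
    intro n m
    rw [TH, map_mul, map_mul, map_inv, ← mul_assoc, ← mul_assoc, ← mul_assoc, mul_inv_eq_iff_eq_mul]
  rw [i] at e f ⊢
  generalize tau * rho aE.val = s at *
  rw [← mul_inv_eq_iff_eq_mul.2 e, ← mul_inv_eq_iff_eq_mul.2 f]
  calc _ = s ^ 3 * rho c * (s ^ 3)⁻¹ * s := by simp only [pow_three]; group
    _ = _ := by rw [k]; group

theorem Xb.lift0 (h : Xb A X t) (F : Fr A) {r : Gt → E} (hr : X.Sp PA r) : ∃ s : E, X.p s = t ∧
    ∀ a ∈ PA, ∀ b, TH a b → s * r a = r b * s := by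
  obtain ⟨s, hs⟩ := X.sur t
  have u : ∀ {n m k}, n ∈ PA → TH n m → TH n k → r m = r k := fun a e f => by
    rcases e.uniq f with z | z
    · rw [z]
    · rw [z, hr.1 _ kap_PA _ (f.pa.1 a), h.sp_kap kap_PA hr, one_mul]
  have : ∀ n, ∃ m, n ∈ Np → TH n m := fun n => (em (n ∈ Np)).elim
    (fun a => (exists_TH a).imp fun _ e _ => e) fun a => ⟨1, fun b => (a b).elim⟩
  choose θ hθ using this
  obtain ⟨w, hw⟩ := h.cjN F (hr.mono inf_le_left) (s := fun n => s⁻¹ * r (θ n) * s)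
    ⟨fun a x b y => by
      beta_reduce
      rw [u (mul_mem x.1 y.1) (hθ _ (mul_mem x.2 y.2)) ((hθ _ x.2).mul (hθ _ y.2)),
        hr.1 _ ((hθ _ x.2).pa.1 x.1) _ ((hθ _ y.2).pa.1 y.1)]; group, fun a x => by
      rw [map_mul, map_mul, map_inv, hs, hr.2 _ ((hθ _ x.2).pa.1 x.1), mul_assoc,
        ← h.th a x.1 _ ((hθ _ x.2).pa.1 x.1) (hθ _ x.2), inv_mul_cancel_left]⟩
  refine ⟨s * X.ι w, by rw [map_mul, X.pi, hs, mul_one], fun a x b e => ?_⟩
  rw [mul_assoc, mul_inv_eq_iff_eq_mul.1 (hw a ⟨x, e.np⟩).symm, u x e (hθ _ e.np)]; group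

theorem Xb.triv (h : Xb A X t) (F : Fr A) {r : Gt → E} (hr : X.Sp PA r) {e : E} (pe : X.p e = 1)
    (c : ∀ n ∈ PA, n • Y0 = Y0 → n • (Z 0 * Z 1 * Z 2 * Z 3) = Z 0 * Z 1 * Z 2 * Z 3 → e * r n = r n * e) :
    e = 1 := by
  obtain ⟨w, rfl⟩ := (X.ker e).1 pe
  rw [F.fix_V3 (v := w) fun n x y z => X.inj (by
    rw [← h.R n x, ← hr.2 n x, ← X.act, ← c n x y z, mul_inv_cancel_right]), X.i0]

theorem Xb.lift (h : Xb A X t) (F : Fr A) {r : Gt → E} (hr : X.Sp PA r) : ∃ s : E, X.p s = t ∧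
    (∀ a ∈ PA, ∀ b ∈ PA, TH a b → s * r a = r b * s) ∧ s ^ 3 = 1 ∧
    s * r (pauli (Lab.X 11)) * s = r (pauli (Lab.X 11)) ∧ (s * r aE.val) ^ 3 = 1 := by
  obtain ⟨s, hs, c⟩ := h.lift0 F hr
  have aA : aE.val ∈ PA := aE_PB.1
  refine ⟨s, hs, fun a x b _ => c a x b, h.triv F hr (by rw [map_pow, hs, h.cube]) fun n x y _ => ?_,
    mul_inv_eq_one.1 (h.triv F hr ?_ fun n x y _ => ?_), h.triv F hr ?_ fun n x y z => ?_⟩
  · obtain ⟨m, e⟩ := exists_TH (Np_Y0.2 y)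
    obtain ⟨k, f⟩ := exists_TH' (Np_Y0.2 y)
    exact cyc3 (c _ x _ e) (c _ (e.pa.1 x) _ (rels0.next e f)) (c _ (f.pa.2 x) _ f)
  · rw [map_mul, map_mul, map_mul, map_inv, hs, hr.2 _ X11_PA, h.odd, mul_inv_cancel]
  · have o : pauli (Lab.X 11) * pauli (Lab.X 11) = 1 := by rw [← map_mul, X_mul_X, map_one]
    have o' : r (pauli (Lab.X 11)) * r (pauli (Lab.X 11)) = 1 := by rw [← hr.1 _ X11_PA _ X11_PA, o, hr.one]
    have m : ∀ {n}, n ∈ PA → pauli (Lab.X 11) * n * pauli (Lab.X 11) ∈ PA := fun a =>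
      mul_mem (mul_mem X11_PA a) X11_PA
    have m' : ∀ {n}, n ∈ PA → r (pauli (Lab.X 11) * n * pauli (Lab.X 11)) =
        r (pauli (Lab.X 11)) * r n * r (pauli (Lab.X 11)) := fun a => by
      rw [hr.1 _ (mul_mem X11_PA a) _ X11_PA, hr.1 _ X11_PA _ a]
    obtain ⟨k, e⟩ := exists_TH (odd_conj_Np (Np_Y0.2 y))
    have k1 := e.pa.1 (m x)
    have f := c _ (m k1) _ (rels0.flip e)
    have g := c _ (m x) _ e
    rw [m' k1, m' (m x), m' x] at f
    rw [m' x] at g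
    rw [inv_eq_of_mul_eq_one_left o']
    generalize r (pauli (Lab.X 11)) = q at *
    have i := eq_inv_of_mul_eq_one_left o'
    calc _ = s * q * (s * (q * r n * q)) * q⁻¹ := by group
      _ = s * (q * r k * q) * q⁻¹ * s * q⁻¹ := by rw [g]; group
      _ = _ := by rw [f, ← i]; simp only [← mul_assoc, o', one_mul]; rw [mul_assoc _ q q, o', mul_one]
  · rw [map_pow, map_mul, hs, hr.2 _ aA, h.rel]
  · have st : ∀ {n m}, n ∈ PA → TH (aE.val * n * aE.val⁻¹) m →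
        s * r aE.val * r n = r m * (s * r aE.val) := fun {n m} a e => by
      have b := mul_mem (mul_mem aA a) (inv_mem aA)
      rw [← mul_assoc, ← c _ b _ e, mul_assoc, mul_assoc, ← hr.1 _ aA _ a, ← hr.1 _ b _ aA, inv_mul_cancel_right]
    obtain ⟨m, e⟩ := exists_TH (Np_Y0.2 (cj_fix aE_Y (n := n) (by rw [smul_mul', y, z])))
    obtain ⟨k, f⟩ := exists_TH' (Np_Y0.2 y)
    have f' : TH (aE.val * (aE.val⁻¹ * k * aE.val) * aE.val⁻¹) n := by convert f using 1; group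
    exact cyc3 (st x e) (st (e.pa.1 (mul_mem (mul_mem aA x) (inv_mem aA))) (th_aE e f'))
      (st (mul_mem (mul_mem (inv_mem aA) (f.pa.2 x)) aA) f')

end CF.Bv
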